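/-
Transfer of relations between a model and an abstract group along normal subgroups; rewriting proofs.
-/
import Cfsg.Agent.PM.Ch

set_option autoImplicit false

namespace CA.PM.He

open CA.TC CA.Fi Subgroup

variable {X G : Type*} [Group X] [Group G] {a : ℕ → X} {b : ℕ → G} {S SA T n : ℕ} {act : ℕ → ℕ → ℕ} {B : List ℕ}

/-- pointwise stabilizers in a model -/
def msts (M : Mod a S n act) (L : List ℕ) : Subgroup X where
  carrier := {x | x ∈ gp a S ∧ ∀ p ∈ L, p < n → img a S act x p = p}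
  one_mem' := ⟨one_mem _, fun _ _ hp => M.img_one hp⟩
  mul_mem' := fun {x y} hx hy => ⟨mul_mem hx.1 hy.1, fun p h hp => by
    rw [M.img_mul hx.1 hy.1 hp, hx.2 p h hp, hy.2 p h hp]⟩
  inv_mem' := fun {x} hx => ⟨inv_mem hx.1, fun p h hp => by have := M.img_inv hx.1 hp; rwa [hx.2 p h hp] at this⟩

theorem msts_wd (M : Mod a S n act) {L w : List ℕ} (hw : inS S w = true) (h : fixB act L w = true) :
    wd a w ∈ msts M L := ⟨wd_mem_gp hw, fun p hp h' => by rw [M.img_wd hw h', fixB_iff.1 h p hp]⟩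

theorem msts_ge (M : Mod a S n act) {p : ℕ} (hp : p < n) {L : List ℕ} {N : ℕ} {W : ℕ → List ℕ} {kt : ℕ → ℕ}
    (h : ∀ i < N, lvChk act S L p W kt i = true) : N * Nat.card (msts M (p :: L)) ≤ Nat.card (msts M L) := by
  have k : ∀ i < N, (inS S (W i) = true ∧ fixB act L (W i) = true) ∧ run act (W i) p = kt i ∧ kt i < kt (i + 1) :=
    fun i hi => by
      have := h i hi
      unfold lvChk at this
      rwa [band_iff, band_iff, frc_eq, band_iff, beq_iff, blt_iff] at this
  have e : msts M (p :: L) = msts M L ⊓ M.st hp := by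
    ext x
    exact ⟨fun h => ⟨⟨h.1, fun q hq => h.2 q (List.mem_cons_of_mem _ hq)⟩, h.1, h.2 p List.mem_cons_self hp⟩,
      fun h => ⟨h.1.1, fun q hq h' => (List.mem_cons.1 hq).elim (fun e => e ▸ h.2.2) fun e => h.1.2 q e h'⟩⟩
  rw [e, M.card_eq hp (D := msts M L) fun x hx => hx.1]
  refine Nat.mul_le_mul_right _ (le_ncard ((Set.finite_Iio n).subset ?_) kt (fun i hi => ⟨_, msts_wd M (k i hi).1.1
    (k i hi).1.2, (M.img_wd (k i hi).1.1 hp).trans (k i hi).2.1⟩) (inj_of_lt fun i hi => (k i (by omega)).2.2))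
  rintro _ ⟨x, -, rfl⟩; exact M.img_lt x hp

/-- relations of the model hold in the group -/
theorem tr (M : Mod a SA n act) (R : RM b T n act B) (hT : sub T SA = true) {u v : List ℕ} (hu : inS T u = true)
    (hv : inS T v = true) (e : wd a u = wd a v) : wd b u = wd b v :=
  R.rel.eq R.tbl R.sq R.lt hu hv (eqB_iff.2 fun p hp => M.eq (inS_sub hT hu) (inS_sub hT hv) e (R.lt p hp))

/-- the letters of `S` act on the words `ys j` in the same way in both groups -/
def NA (a : ℕ → X) (b : ℕ → G) (S : ℕ) (ys : ℕ → List ℕ) (D : ℕ) : Prop :=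
  ∀ g, tb S g = true → ∀ j, tb D j = true → ∃ u, inS D u = true ∧
    a g * wd a (ys j) * (a g)⁻¹ = wd a (u.flatMap ys) ∧ b g * wd b (ys j) * (b g)⁻¹ = wd b (u.flatMap ys)

variable {ys : ℕ → List ℕ} {D : ℕ}

theorem NA.conj (h : NA a b S ys D) {w : List ℕ} (hw : inS S w = true) {u : List ℕ} (hu : inS D u = true) :
    ∃ v, inS D v = true ∧ wd a w * wd a (u.flatMap ys) * (wd a w)⁻¹ = wd a (v.flatMap ys) ∧
      wd b w * wd b (u.flatMap ys) * (wd b w)⁻¹ = wd b (v.flatMap ys) := by
  induction w with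
  | nil => exact ⟨u, hu, by simp, by simp⟩
  | cons g w ih =>
    rw [inS_cons] at hw
    obtain ⟨v, v1, v2, v3⟩ := ih hw.2
    have : ∃ x, inS D x = true ∧ a g * wd a (v.flatMap ys) * (a g)⁻¹ = wd a (x.flatMap ys) ∧
        b g * wd b (v.flatMap ys) * (b g)⁻¹ = wd b (x.flatMap ys) := by
      clear v2 v3
      induction v with
      | nil => exact ⟨[], rfl, by simp, by simp⟩
      | cons j v ih =>
        rw [inS_cons] at v1
        obtain ⟨x, x1, x2, x3⟩ := ih v1.2
        obtain ⟨y, y1, y2, y3⟩ := h g hw.1 j v1.1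
        refine ⟨y ++ x, inS_append.2 ⟨y1, x1⟩, ?_, ?_⟩ <;>
          rw [List.flatMap_cons, List.flatMap_append, wd_append, wd_append]
        · rw [← x2, ← y2]; group
        · rw [← x3, ← y3]; group
    obtain ⟨x, x1, x2, x3⟩ := this
    exact ⟨x, x1, by rw [← x2, ← v2, wd_cons]; group, by rw [← x3, ← v3, wd_cons]; group⟩

theorem NA.eq (h : NA a b S ys D) (M : Mod a SA n act) (R : RM b T n act B) (hT : sub T SA = true)
    (hy : ∀ j, tb D j = true → inS T (ys j) = true) {w u v : List ℕ} (hw : inS S w = true) (hu : inS D u = true)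
    (hv : inS D v = true) (e : wd a w * wd a (u.flatMap ys) * (wd a w)⁻¹ = wd a (v.flatMap ys)) :
    wd b w * wd b (u.flatMap ys) * (wd b w)⁻¹ = wd b (v.flatMap ys) := by
  obtain ⟨x, x1, x2, x3⟩ := h.conj hw hu
  rw [x3]
  exact tr M R hT (inS_flatMap hy x1) (inS_flatMap hy hv) (x2.symm.trans e)

theorem inS_one {j : ℕ} (h : tb D j = true) : inS D [j] = true := inS_cons.2 ⟨h, rfl⟩

theorem NA.comm (h : NA a b S ys D) (M : Mod a SA n act) (R : RM b T n act B) (hT : sub T SA = true)
    (hy : ∀ j, tb D j = true → inS T (ys j) = true) {w : List ℕ} (hw : inS S w = true) {j : ℕ} (hj : tb D j = true)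
    (e : Commute (wd a w) (wd a (ys j))) : Commute (wd b w) (wd b (ys j)) := by
  have := h.eq M R hT hy hw (inS_one hj) (inS_one hj) (by simpa using conj_eq_iff_commute.2 e)
  exact conj_eq_iff_commute.1 (by simpa using this)

/-- the word commutes with the words `ys j` -/
noncomputable def cmChk (act : ℕ → ℕ → ℕ) (B : List ℕ) (SA S : ℕ) (ys : ℕ → List ℕ) (D : ℕ) (w : List ℕ) : Bool :=
  band (inS S w) (allS D fun j => eqW act SA B [w, ys j] [ys j, w])

theorem NA.cm (h : NA a b S ys D) (M : BM a SA n act B) (R : RM b T n act B) (hT : sub T SA = true)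
    (hD : D < 65536) (hy : allS D (fun j => inS T (ys j)) = true) {w : List ℕ}
    (c : cmChk act B SA S ys D w = true) {j : ℕ} (hj : tb D j = true) : Commute (wd b w) (wd b (ys j)) :=
  h.comm M.toMod R hT (fun _ => allS_spec hD hy) (band_iff.1 c).1 hj (M.rm.comm (allS_spec hD (band_iff.1 c).2 hj))

/-- checker for `NA` -/
noncomputable def naChk (act : ℕ → ℕ → ℕ) (B : List ℕ) (T S : ℕ) (ys : ℕ → List ℕ) (D : ℕ) (U : ℕ → ℕ → List ℕ) : Bool :=
  allS S fun g => allS D fun j => band (inS D (U g j)) (eqW act T B [[g], ys j] [(U g j).flatMap ys, [g]])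

theorem NA.of_chk (Ra : RM a T n act B) (Rb : RM b T n act B) (hS : S < 65536) (hD : D < 65536)
    {U : ℕ → ℕ → List ℕ} (h : naChk act B T S ys D U = true) : NA a b S ys D := fun g hg j hj => by
  have := band_iff.1 (allS_spec hD (allS_spec hS h hg) hj)
  exact ⟨U g j, this.1, by simpa using Ra.conj this.2, by simpa using Rb.conj this.2⟩

theorem NA.union {S1 S2 : ℕ} (h1 : NA a b S1 ys D) (h2 : NA a b S2 ys D) (hS : S < 65536)
    (h : allS S (fun g => bor (tb S1 g) (tb S2 g)) = true) : NA a b S ys D := fun g hg =>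
  (bor_iff.1 (allS_spec hS h hg)).elim (h1 g) (h2 g)

/-- single letters -/
def sg1 (j : ℕ) : List ℕ := [j]

theorem fm_sg1 (u : List ℕ) : u.flatMap sg1 = u := List.flatMap_singleton' u

theorem BM_of_sc (M : BM a SA n act B) (R : RM b S n act B) (hS : sub S SA = true) (Mb : Mod b T n act)
    (hT : sub T S = true) (N : NA a b S sg1 T)
    (hc : ∀ x, (∀ j, tb T j = true → Commute x (a j)) → x ∈ gp a T) : BM b S n act B := by
  have hA := sub_trans hT hS
  refine ⟨⟨R.tbl, R.sq, fun w hw e p hp => ?_⟩, R.rel, R.lt⟩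
  obtain ⟨u, u1, u2⟩ := (M.sq.mono hA).exists_wd (hc (wd a w) fun j hj => by
    obtain ⟨v, v1, v2, v3⟩ := N.conj hw (inS_one hj)
    simp only [fm_sg1] at v2 v3
    rw [e, one_mul, inv_one, mul_one] at v3
    rw [← conj_eq_iff_commute, ← wd_one a j, v2]
    exact tr Mb (M.rm.mono hA) (sub_refl _) v1 (inS_one hj) v3.symm)
  rw [← M.eq (inS_sub hA u1) (inS_sub hS hw) u2 hp]
  exact Mb.cmp u u1 ((tr M.toMod R hS (inS_sub hT u1) hw u2).trans e) p hp

theorem RM_split (M : BM a SA n act B) (R : RM b T n act B) (hT : sub T S = true) (hS : sub S SA = true)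
    (sq : Sq b S) (N : NA a b S sg1 T) (hc : ∀ x, (∀ j, tb T j = true → Commute x (b j)) → x ∈ gp b T)
    {Na : Subgroup X} {Nb : Subgroup G} (fa : ∀ x ∈ gp a T, x ∈ Na → x = 1) (fb : ∀ x ∈ gp b T, x ∈ Nb → x = 1)
    (hl : ∀ g, tb S g = true → ∃ u, inS T u = true ∧ wd a u * a g ∈ Na ∧ wd b u * b g ∈ Nb) :
    RM b S n act B := by
  have hA := sub_trans hT hS
  have key : ∀ w, inS S w = true → ∃ u, inS T u = true ∧ wd a u * wd a w ∈ Na ∧ wd b u * wd b w ∈ Nb := by
    intro w hw
    induction w with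
    | nil => exact ⟨[], rfl, by simpa using Na.one_mem, by simpa using Nb.one_mem⟩
    | cons g w ih =>
      rw [inS_cons] at hw
      obtain ⟨u, u1, u2, u3⟩ := ih hw.2
      obtain ⟨x, x1, x2, x3⟩ := hl g hw.1
      obtain ⟨v, v1, v2, v3⟩ := N.conj (inS_one hw.1) u1
      simp only [fm_sg1, wd_one] at v2 v3
      refine ⟨x ++ v, inS_append.2 ⟨x1, v1⟩, ?_, ?_⟩ <;> rw [wd_append, wd_cons]
      · convert mul_mem x2 u2 using 1; rw [← v2]; group
      · convert mul_mem x3 u3 using 1; rw [← v3]; group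
  refine ⟨M.toTb.mono hS, sq, fun w hw hf => ?_, M.ltB⟩
  have e := M.rel w (inS_sub hS hw) hf
  obtain ⟨u, u1, u2, u3⟩ := key w hw
  rw [e, mul_one] at u2
  rw [tr M.toMod R hA u1 (inS_nil _) (fa _ (wd_mem_gp u1) u2), wd_nil, one_mul] at u3
  refine fb _ (hc _ fun j hj => ?_) u3
  simpa [sg1] using N.comm M.toMod R hA (fun _ => inS_one) hw hj (e ▸ Commute.one_left _)

/-- enumeration of a centralizer -/
noncomputable def ecChk (act : ℕ → ℕ → ℕ) (B : List ℕ) (S : ℕ) (ys : List (List ℕ)) (W : ℕ → List ℕ) (kt : ℕ → ℕ)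
    (i : ℕ) : Bool := band (enChk act B S W kt i) (allL ys fun y => eqW act S B [W i, y] [y, W i])

theorem enum_cW [Finite X] (M : BM a S n act B) {ys : List (List ℕ)} {N : ℕ} {W : ℕ → List ℕ} {kt : ℕ → ℕ}
    (h : ∀ i < N, ecChk act B S ys W kt i = true) (hN : Nat.card (cW a ys) ≤ N) {x : X} (hx : x ∈ cW a ys) :
    ∃ i < N, inS S (W i) = true ∧ wd a (W i) = x := by
  have k := M.wd_inj M.ltB (sub_refl _) fun i hi => (band_iff.1 (h i hi)).1
  obtain ⟨i, hi, e⟩ := exists_of_ncard (Set.toFinite (cW a ys : Set X)) hN (fun i => wd a (W i))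
    (fun i hi => mem_cW.2 fun y hy => M.rm.comm (allL_spec (band_iff.1 (h i hi)).2 y hy)) k.2 hx
  exact ⟨i, hi, k.1 i hi, e⟩

/-! ### rewriting proofs -/

/-- split off a reversed prefix -/
noncomputable def splitK (k : List ℕ → List ℕ → Bool) (i : ℕ) : List ℕ → List ℕ → Bool :=
  Nat.rec k (fun _ ih acc W => List.rec false (fun x t _ => ih (x :: acc) t) W) i

theorem splitK_spec {k : List ℕ → List ℕ → Bool} {i : ℕ} : ∀ {acc W : List ℕ}, splitK k i acc W = true →
    ∃ p q, k p q = true ∧ p.reverse ++ q = acc.reverse ++ W := by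
  induction i with
  | zero => exact fun h => ⟨_, _, h, rfl⟩
  | succ i ih =>
    intro acc W h
    cases W with
    | nil => cases h
    | cons x t =>
      obtain ⟨p, q, h1, h2⟩ := ih (show splitK k i (x :: acc) t = true from h)
      exact ⟨p, q, h1, by simpa using h2⟩

/-- push a reversed list -/
noncomputable def revK (k : List ℕ → Bool) (p : List ℕ) : List ℕ → Bool :=
  List.rec k (fun x _ ih l => ih (x :: l)) p

theorem revK_eq (k : List ℕ → Bool) (p : List ℕ) : ∀ l, revK k p l = k (p.reverse ++ l) := by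
  induction p with
  | nil => intro l; rfl
  | cons x p ih => intro l; exact (ih (x :: l)).trans (by simp)

/-- push the fields of a number onto two lists -/
noncomputable def pushK (k : List ℕ → List ℕ → Bool) (c : ℕ) : ℕ → List ℕ → List ℕ → Bool :=
  Nat.rec (fun _ => k) (fun _ ih s u q => frc (Nat.land s 340282366920938463463374607431768211455) fun x =>
    frc (Nat.shiftRight s 128) fun s' => ih s' (x :: u) (x :: q)) c

theorem pushK_spec {k : List ℕ → List ℕ → Bool} {c : ℕ} : ∀ {s : ℕ} {u q : List ℕ}, pushK k c s u q = true →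
    ∃ l, k (l ++ u) (l ++ q) = true := by
  induction c with
  | zero => exact fun h => ⟨[], h⟩
  | succ c ih =>
    intro s u q h
    have h' : frc (Nat.land s 340282366920938463463374607431768211455) (fun x =>
      frc (Nat.shiftRight s 128) fun s' => pushK k c s' (x :: u) (x :: q)) = true := h
    rw [frc_eq, frc_eq] at h'
    obtain ⟨l, hl⟩ := ih h'
    exact ⟨l ++ [_], by simpa using hl⟩

/-- decode syllables -/
noncomputable def dcs (l : List ℕ) : List (List ℕ) := List.rec [] (fun x _ ih => dec 33 x :: ih) l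

theorem dcs_append (u v : List ℕ) : dcs (u ++ v) = dcs u ++ dcs v := by
  induction u with
  | nil => rfl
  | cons x u ih => exact congrArg (dec 33 x :: ·) ih

theorem wds_append (u v : List (List ℕ)) : wds b (u ++ v) = wds b u * wds b v := by simp [wds]

/-- a rewriting proof -/
noncomputable def rwGo (act : ℕ → ℕ → ℕ) (B : List ℕ) (Ts : ℕ → ℕ) (ins : List ℕ) : List ℕ → Bool :=
  List.rec (fun W => List.rec true (fun _ _ _ => false) W) (fun s _ ih W =>
    splitK (fun p r => splitK (fun o q => revK (fun o' => pushK (fun u q' =>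
      band (eqW act (Ts (Nat.land (Nat.shiftRight s 24) 255)) B (dcs o') (dcs u)) (revK ih p q'))
      (Nat.land (Nat.shiftRight s 16) 255) (Nat.shiftRight s 32) [] q) o []) (Nat.land (Nat.shiftRight s 8) 255) [] r)
      (Nat.land s 255) [] W) ins

theorem rwGo_spec {Ts : ℕ → ℕ} (hR : ∀ t, RM b (Ts t) n act B) {ins : List ℕ} :
    ∀ {W : List ℕ}, rwGo act B Ts ins W = true → wds b (dcs W) = 1 := by
  induction ins with
  | nil =>
    intro W h
    cases W with
    | nil => rfl
    | cons x t => cases h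
  | cons s ins ih =>
    intro W h
    obtain ⟨p, r, h1, e1⟩ := splitK_spec h
    obtain ⟨o, q, h2, e2⟩ := splitK_spec h1
    rw [revK_eq] at h2
    obtain ⟨l, h3⟩ := pushK_spec h2
    rw [band_iff, revK_eq] at h3
    have h4 := ih h3.2
    have h5 := (hR _).eq h3.1
    simp only [List.reverse_nil, List.nil_append, List.append_nil] at e1 e2 h5
    rw [← e1, ← e2, dcs_append, dcs_append, wds_append, wds_append, h5]
    rwa [dcs_append, dcs_append, wds_append, wds_append] at h4

theorem realizeEqns_He_Act : True := by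
  have := @CA.PM.He.splitK.eq_1
  have := @CA.PM.He.splitK.eq_def
  have := @CA.PM.He.splitK.congr_simp
  have := @CA.PM.He.rwGo.eq_1
  have := @CA.PM.He.rwGo.eq_def
  have := @CA.PM.He.rwGo.congr_simp
  have := @CA.PM.He.NA.eq_1.{0,0}
  have := @CA.PM.He.NA.eq_def.{0,0}
  have := @CA.PM.He.NA.congr_simp.{0,0}
  have := @CA.PM.He.ecChk.eq_1
  have := @CA.PM.He.ecChk.eq_def
  have := @CA.PM.He.ecChk.congr_simp
  have := @CA.PM.He.pushK.eq_1
  have := @CA.PM.He.pushK.eq_def
  have := @CA.PM.He.pushK.congr_simp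
  have := @CA.PM.He.dcs.eq_1
  have := @CA.PM.He.dcs.eq_def
  have := @CA.PM.He.dcs.congr_simp
  have := @CA.PM.He.cmChk.eq_1
  have := @CA.PM.He.cmChk.eq_def
  have := @CA.PM.He.cmChk.congr_simp
  have := @CA.PM.He.revK.eq_1
  have := @CA.PM.He.revK.eq_def
  have := @CA.PM.He.revK.congr_simp
  have := @CA.PM.He.sg1.eq_1
  have := @CA.PM.He.sg1.eq_def
  have := @CA.PM.He.sg1.congr_simp
  have := @CA.PM.He.naChk.eq_1
  have := @CA.PM.He.naChk.eq_def
  have := @CA.PM.He.naChk.congr_simp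
  have := @CA.PM.He.msts.eq_1.{0}
  have := @CA.PM.He.msts.eq_def.{0}
  have := @CA.PM.He.msts.congr_simp.{0}
  trivial

end CA.PM.He
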