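/-
The presented Held group has order at most 4030387200.
-/
import Cfsg.Agent.Loc.He0
import Cfsg.Agent.Loc.Cox
import Cfsg.Prelude.Def_Spor_He

set_option autoImplicit false
set_option maxRecDepth 100000

namespace CA.DC

open CA.TC CA.Loc Subgroup Cfsg.Spor

/-- the generators -/
def gl8 : List He.Gen := [.a, .b, .c, .d, .e, .f, .g]

theorem he_nodes8 : ∀ x ∈ gl8, x ∈ coxNodes He.edges := by decide

theorem he_R08 : ∀ r ∈ He.R0, wd (sg He.edges He.extra gl8) r = 1 := by
  have h0 : He.R0 = coxL 7 (lab He.edges gl8) ++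
      [4 :: rp 2 [5, 6], 4 :: rp 3 [0, 1, 2], 0 :: rp 5 [2, 3], rp 4 [2, 3, 5, 6]] := by decide +kernel
  have hs := sg_sq (extra := He.extra) he_nodes8
  have key : ∀ (g : ℕ) (y : Cfsg.Spor.He), sg He.edges He.extra gl8 g * y⁻¹ = 1 →
      sg He.edges He.extra gl8 g * y = 1 := fun g y h => by
    rw [← mul_inv_eq_one.1 h]; exact hs g
  rw [h0]
  intro r hr
  rcases List.mem_append.1 hr with hr | hr
  · exact sg_cox he_nodes8 7 r hr
  · simp only [List.mem_cons, List.not_mem_nil, or_false] at hr
    rcases hr with rfl | rfl | rfl | rfl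
    · rw [wd_cons, wd_rp]
      refine key _ _ ?_
      have := extra_of (edges := He.edges) (extra := He.extra) List.mem_cons_self
      simp only [map_mul, map_inv, map_pow, mul_assoc, wd_cons, wd_nil, mul_one] at this ⊢
      exact this
    · rw [wd_cons, wd_rp]
      refine key _ _ ?_
      have := extra_of (edges := He.edges) (extra := He.extra) (List.mem_cons_of_mem _ List.mem_cons_self)
      simp only [map_mul, map_inv, map_pow, mul_assoc, wd_cons, wd_nil, mul_one] at this ⊢
      exact this
    · rw [wd_cons, wd_rp]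
      refine key _ _ ?_
      have := extra_of (edges := He.edges) (extra := He.extra)
        (List.mem_cons_of_mem _ (List.mem_cons_of_mem _ List.mem_cons_self))
      simp only [map_mul, map_inv, map_pow, mul_assoc, wd_cons, wd_nil, mul_one] at this ⊢
      exact this
    · rw [wd_rp]
      have := extra_of (edges := He.edges) (extra := He.extra)
        (List.mem_cons_of_mem _ (List.mem_cons_of_mem _ (List.mem_cons_of_mem _ List.mem_cons_self)))
      simp only [map_mul, map_inv, map_pow, mul_assoc, wd_cons, wd_nil, mul_one] at this ⊢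
      exact this

theorem he_card8 : Finite Cfsg.Spor.He ∧ Nat.card Cfsg.Spor.He ≤ 4030387200 := by
  have hs := sg_sq (extra := He.extra) he_nodes8
  have h15 : sg He.edges He.extra gl8 15 = 1 := rfl
  have hR : ∀ r ∈ He.R1, wd (sg He.edges He.extra gl8) r = 1 := by
    intro r hr
    rcases List.mem_cons.1 hr with rfl | hr
    · exact mem_bot.1 (word_mem hs h15 he_R08 (by simp) He.z_hd He.z_all He.z_w)
    · exact he_R08 r hr
  have h3 := card_le hs h15 hR (by simp) He.h3_hd He.h3_all (by decide) (by decide) bot_fin
  have h2 := card_le hs h15 hR (gs_gens [4, 5, 6]) He.h2_hd He.h2_all (by decide) (by decide) h3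
  have h1 := card_le hs h15 hR (gs_gens [3, 4, 5, 6]) He.h1_hd He.h1_all (by decide) (by decide) h2
  have h0 := card_le hs h15 hR (gs_gens [0, 2, 3, 4, 5, 6]) He.h0_hd He.h0_all (by decide) (by decide) h1
  exact fin_of_top (gs_top (fun x => by cases x <;> decide) (by decide)) h0

theorem realizeEqns_He_Card : True := by
  have := @CA.DC.gl8.eq_1
  have := @CA.DC.gl8.eq_def
  have := @CA.DC.gl8.congr_simp
  trivial

end CA.DC
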