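/-
The presented Held group acts faithfully on 2058 points; its order.
-/
import Cfsg.Agent.He.T0
import Cfsg.Agent.He.Act
import Cfsg.Agent.He.Card

set_option autoImplicit false
set_option maxRecDepth 100000

namespace CA.PM.He

open CA.TC Subgroup Cfsg Cfsg.Spor

/-- the group -/
abbrev X : Type := Spor.He

/-- numbering of the generators -/
def gn (i : ℕ) : He.Gen := [He.Gen.a, .a, .b, .c, .d, .e, .f, .g].getD i .a

/-- numbering of the generators -/
def ix : He.Gen → ℕ | .a => 1 | .b => 2 | .c => 3 | .d => 4 | .e => 5 | .f => 6 | .g => 7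

/-- the letters -/
def σ (i : ℕ) : X := PresentedGroup.of (gn i)

theorem cox (i j : ℕ) : (σ i * σ j) ^ coxLabel He.edges (gn i) (gn j) = 1 := by
  have n : ∀ x, x ∈ coxNodes He.edges := fun x => by cases x <;> decide
  have : PresentedGroup.mk (coxRelators He.edges ∪ {r | r ∈ He.extra})
      ((FreeGroup.of (gn i) * FreeGroup.of (gn j)) ^ coxLabel He.edges (gn i) (gn j)) = 1 :=
    PresentedGroup.one_of_mem (Or.inl ⟨_, n _, _, n _, rfl⟩)
  rwa [map_pow, map_mul] at this

theorem sqσ (S : ℕ) : Sq σ S := fun g _ => by simpa [coxLabel] using cox g g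

/-- a Coxeter relator -/
def cxr (i j : ℕ) : List ℕ := (List.replicate (coxLabel He.edges (gn i) (gn j)) [i, j]).flatten

theorem ER_eq : ER = ((List.range 8).flatMap fun i => ((List.range 8).filter fun j => 0 < i ∧ i < j).map (cxr i)) ++
    [5 :: (List.replicate 2 [6, 7]).flatten, 5 :: (List.replicate 3 [1, 2, 3]).flatten,
      1 :: (List.replicate 5 [3, 4]).flatten, (List.replicate 4 [3, 4, 6, 7]).flatten] := by decide +kernel

theorem tb_iff {g : ℕ} : tb 254 g = true ↔ 0 < g ∧ g < 8 := by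
  by_cases h : g < 16
  · revert g; decide +kernel
  · exact ⟨fun k => absurd (lt16 (by decide) k) h, fun k => by omega⟩

theorem exists_hom {Y : Type*} [Group Y] {τ : ℕ → Y} (sq : Sq τ 254) (h : ∀ r ∈ ER, wd τ r = 1) :
    ∃ φ : X →* Y, ∀ g, tb 254 g = true → φ (σ g) = τ g := by
  have e : ∀ g y, tb 254 g = true → τ g * y = 1 → τ g * y⁻¹ = 1 := fun g y hg h => by
    rw [mul_inv_eq_one, ← inv_eq_of_mul_eq_one_right h, inv_eq_of_mul_eq_one_right (sq g hg)]
  rw [ER_eq, List.forall_mem_append] at h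
  have h1 : ∀ i j, 0 < i → i < j → j < 8 → (τ i * τ j) ^ coxLabel He.edges (gn i) (gn j) = 1 := fun i j a b c => by
    have := h.1 (cxr i j) (List.mem_flatMap.2 ⟨i, by simp; omega, List.mem_map.2 ⟨j, by simp; omega, rfl⟩⟩)
    simpa [cxr, wd_pow] using this
  have h2 : ∀ r ∈ He.extra, FreeGroup.lift (fun x => τ (ix x)) r = 1 := by
    have h2 := h.2
    unfold He.extra
    rw [List.forall_mem_cons, List.forall_mem_cons, List.forall_mem_cons, List.forall_mem_singleton] at h2 ⊢
    rw [wd_cons, wd_cons τ 5, wd_cons τ 1, wd_pow, wd_pow, wd_pow, wd_pow] at h2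
    have := And.intro (e _ _ rfl h2.1) (And.intro (e _ _ rfl h2.2.1) (And.intro (e _ _ rfl h2.2.2.1) h2.2.2.2))
    simpa only [wd_cons, wd_nil, map_mul, map_pow, map_inv, FreeGroup.lift_apply_of, ix, mul_one, mul_assoc] using this
  have k : ∀ x, gn (ix x) = x ∧ 0 < ix x ∧ ix x < 8 := fun x => by cases x <;> decide
  refine ⟨PresentedGroup.toGroup (f := fun x => τ (ix x)) ?_, fun g hg => ?_⟩
  · rintro r (⟨x, -, y, -, rfl⟩ | hr)
    · rw [map_pow, map_mul, FreeGroup.lift_apply_of, FreeGroup.lift_apply_of]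
      rcases lt_trichotomy (ix x) (ix y) with e | e | e
      · simpa [(k _).1] using h1 _ _ (k x).2.1 e (k y).2.2
      · obtain rfl : x = y := by rw [← (k x).1, e, (k y).1]
        simpa [coxLabel] using sq _ (tb_iff.2 (k x).2)
      · have := h1 _ _ (k y).2.1 e (k x).2.2
        rw [(k _).1, (k _).1, show coxLabel He.edges y x = coxLabel He.edges x y by cases x <;> cases y <;> rfl] at this
        rw [show τ (ix x) * τ (ix y) = τ (ix x) * (τ (ix y) * τ (ix x)) * (τ (ix x))⁻¹ by group, conj_pow, this]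
        simp
    · exact h2 r hr
  · have : ix (gn g) = g := by
      have := tb_iff.1 hg
      obtain ⟨a, b⟩ := this
      interval_cases g <;> rfl
    simp [σ, this]

theorem gp_top : gp σ 254 = ⊤ := by
  rw [eq_top_iff, ← PresentedGroup.closure_range_of]
  refine (closure_le _).2 ?_
  rintro _ ⟨x, rfl⟩
  rw [show PresentedGroup.of x = σ (ix x) by cases x <;> rfl]
  exact mem_gp (by cases x <;> rfl)

theorem tbl0 : Tb 254 2058 ac0 := Tb.of_chk (by decide) tbc

theorem mod0 : Mod σ 254 2058 ac0 := by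
  obtain ⟨φ, h⟩ := exists_hom tbl0.mod.sq fun r hr =>
    (tbl0.perm_eq_one (allL_spec (show allL ER (inS 254) = true by decide +kernel) r hr)).2 fun p hp =>
      beq_iff.1 (allL_spec (relc p hp) r hr)
  exact tbl0.mod.comap (sqσ _) φ h

instance finX : Finite X := CA.DC.he_card8.1

theorem chain : Nat.card X = 4030387200 ∧ msts mod0 [11, 1, 37, 0] = ⊥ := by
  have h0 := msts_ge mod0 (by decide) lv0_ok
  have h1 := msts_ge mod0 (by decide) lv1_ok
  have h2 := msts_ge mod0 (by decide) lv2_ok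
  have h3 := msts_ge mod0 (by decide) lv3_ok
  have h4 : Nat.card X ≤ 4030387200 := CA.DC.he_card8.2
  have h5 := card_le_card_group (msts mod0 [])
  have h6 := Nat.card_pos (α := msts mod0 [11, 1, 37, 0])
  exact ⟨by omega, (card_le_one_iff_eq_bot _).1 (by omega)⟩

theorem cardX : Nat.card X = 4030387200 := chain.1

theorem bm0 : BM σ 254 2058 ac0 B := ⟨mod0, fun w hw h => mem_bot.1 (chain.2 ▸ msts_wd mod0 hw (fixB_iff.2 fun b hb =>
  fixB_iff.1 h b ((show ∀ b ∈ [11, 1, 37, 0], b ∈ B by decide) b hb))), by decide⟩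

/-- the action -/
noncomputable def I : X → ℕ → ℕ := img σ 254 ac0

theorem fa : FA I 2058 B := (bm0.fa gp_top).1

/-- the letters of the amalgam -/
def a0 (g : ℕ) : X := wd σ (acW g)

theorem at0 : AT I a0 32766 2058 ac := fa.derive (bm0.fa gp_top).2 (by decide) ac_1 ac_2

theorem bm : BM a0 32766 2058 ac B := fa.bm at0

theorem realizeEqns_He_M0 : True := by
  have := @CA.PM.He.cxr.eq_1
  have := @CA.PM.He.cxr.eq_def
  have := @CA.PM.He.cxr.congr_simp
  have := @CA.PM.He.I.eq_1
  have := @CA.PM.He.I.eq_def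
  have := @CA.PM.He.I.congr_simp
  have := @CA.PM.He.gn.eq_1
  have := @CA.PM.He.gn.eq_def
  have := @CA.PM.He.gn.congr_simp
  have := @CA.PM.He.ix.eq_1
  have := @CA.PM.He.ix.eq_2
  have := @CA.PM.He.ix.eq_3
  have := @CA.PM.He.ix.eq_4
  have := @CA.PM.He.ix.eq_5
  have := @CA.PM.He.ix.eq_6
  have := @CA.PM.He.ix.eq_7
  have := @CA.PM.He.ix.eq_def
  have := @CA.PM.He.ix.congr_simp
  have := @CA.PM.He.X.eq_1
  have := @CA.PM.He.X.eq_def
  have := @CA.PM.He.X.congr_simp
  have := @CA.PM.He.σ.eq_1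
  have := @CA.PM.He.σ.eq_def
  have := @CA.PM.He.σ.congr_simp
  have := @CA.PM.He.a0.eq_1
  have := @CA.PM.He.a0.eq_def
  have := @CA.PM.He.a0.congr_simp
  trivial

end CA.PM.He
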