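/-
The centralizer `2^{1+6}.L₃(2)` given by twelve letters.
-/
import Cfsg.Agent.He.M0
import Cfsg.Agent.He.T1

set_option autoImplicit false
set_option maxRecDepth 100000

namespace CA.PM.He

open CA.TC CA.Fi CA.FG.Comp Subgroup

variable {G : Type*} [Group G] {b : ℕ → G}

theorem RM_congr {b' : ℕ → G} {S n : ℕ} {act : ℕ → ℕ → ℕ} {B : List ℕ} (R : RM b S n act B)
    (h : ∀ g, tb S g = true → b' g = b g) : RM b' S n act B :=
  ⟨R.tbl, fun g hg => by rw [h g hg]; exact R.sq g hg, fun w hw e => by rw [wd_congr h hw]; exact R.rel w hw e, R.lt⟩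

theorem BM_congr {b' : ℕ → G} {S n : ℕ} {act : ℕ → ℕ → ℕ} {B : List ℕ} (R : BM b S n act B)
    (h : ∀ g, tb S g = true → b' g = b g) : BM b' S n act B :=
  ⟨⟨R.toTb, (RM_congr R.rm h).sq, fun w hw e => R.cmp w hw (by rwa [wd_congr h hw] at e)⟩, (RM_congr R.rm h).rel, R.ltB⟩

theorem gp_congr {b' : ℕ → G} {S : ℕ} (h : ∀ g, tb S g = true → b' g = b g) : gp b' S = gp b S :=
  le_antisymm (gp_le fun g hg => h g hg ▸ mem_gp hg) (gp_le fun g hg => (h g hg).symm ▸ mem_gp hg)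

theorem RM_map {Y : Type*} [Group Y] {S n : ℕ} {act : ℕ → ℕ → ℕ} {B : List ℕ} (R : RM b S n act B) (φ : G →* Y) :
    RM (fun g => φ (b g)) S n act B :=
  ⟨R.tbl, fun g hg => by rw [← map_mul, R.sq g hg, map_one], fun w hw e => by rw [wd_map, R.rel w hw e, map_one], R.lt⟩

theorem BM_map {Y : Type*} [Group Y] {S n : ℕ} {act : ℕ → ℕ → ℕ} {B : List ℕ} (R : BM b S n act B) (φ : G →* Y)
    (hφ : Function.Injective φ) : BM (fun g => φ (b g)) S n act B :=
  ⟨⟨R.toTb, (RM_map R.rm φ).sq, fun w hw e => R.cmp w hw (hφ (by rw [← wd_map, e, map_one]))⟩, (RM_map R.rm φ).rel,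
    R.ltB⟩

theorem BM_mono {S T n : ℕ} {act : ℕ → ℕ → ℕ} {B : List ℕ} (R : BM b S n act B) (h : sub T S = true) :
    BM b T n act B := ⟨R.toMod.mono h, R.rel.mono h, R.ltB⟩

theorem gp_mono {S T : ℕ} (h : sub T S = true) : gp b T ≤ gp b S := gp_le fun _ hg => mem_gp (tb_sub h hg)

/-- all relators hold -/
theorem rels {S n : ℕ} {act : ℕ → ℕ → ℕ} {B : List ℕ} (R : RM b S n act B) {E : List (List ℕ)}
    (h : allL E (fun r => eqW act S B [r] []) = true) : ∀ r ∈ E, wd b r = 1 := fun r hr => R.one (allL_spec h r hr)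

theorem step {C : Cert} {Rs : List (ℕ × List ℕ)} {E : List (List ℕ)} (h : C.OK) (s : Sep C 32766 2058 ac B)
    (hv : C.val = valS C.S ac Rs E) (sq : Sq b C.S) (r : ∀ r ∈ Rs, Rel b ac r.1 r.2)
    (r0 : ∀ r ∈ Rs, sub r.1 32766 = true ∧ r.2 = B) (e : ∀ r ∈ E, wd b r = 1)
    (e0 : allL E (fun r => eqW ac 32766 B [r] []) = true) (h0 : Rel b ac C.S0 B) : RM b C.S 2058 ac B :=
  RM.step h bm.toMod s hv sq r (fun x hx => (r0 x hx).2 ▸ bm.rel.mono (r0 x hx).1) e (rels bm.rm e0) h0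

theorem rmQ (sq : Sq b 254) (e : ∀ r ∈ EQ, wd b r = 1) :
    RM b 254 2058 ac B ∧ Finite (gp b 254) ∧ Nat.card (gp b 254) ≤ 128 := by
  haveI : Finite (gp b ZQ.S0) := (card_gp_zero (a := b)).1
  have := ZQ_ok.card_le (a := b) sq (ZQ_val ▸ valS_spec sq (by simp) e)
  exact ⟨step ZQ_ok ZQ_sep ZQ_val sq (by simp) (by simp) e (by decide +kernel) (Rel.zero _ _ _), this.1,
    this.2.trans (Nat.mul_le_mul_left 128 card_gp_zero.2)⟩

theorem rmH (sq : Sq b 8190) (e : ∀ r ∈ EQ, wd b r = 1) (e' : ∀ r ∈ EH, wd b r = 1) :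
    RM b 8190 2058 ac B ∧ Finite (gp b 8190) ∧ Nat.card (gp b 8190) ≤ 21504 := by
  obtain ⟨h1, h2, h3⟩ := rmQ (sq.mono (by decide +kernel)) e
  haveI : Finite (gp b ZH.S0) := h2
  have := ZH_ok.card_le (a := b) sq (ZH_val ▸ valS_spec sq (List.forall_mem_singleton.2 h1.rel) e')
  exact ⟨step ZH_ok ZH_sep ZH_val sq (List.forall_mem_singleton.2 h1.rel)
    (List.forall_mem_singleton.2 ⟨by decide +kernel, rfl⟩) e' (by decide +kernel) h1.rel, this.1,
    this.2.trans (Nat.mul_le_mul_left 168 h3)⟩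

theorem rmU (sq : Sq b 14334) (R : RM b 8190 2058 ac B) (e : ∀ r ∈ Ee, wd b r = 1) : RM b 14334 2058 ac B :=
  step ZU_ok ZU_sep ZU_val sq (List.forall_mem_singleton.2 (R.rel.mono (by decide +kernel)))
    (List.forall_mem_singleton.2 ⟨by decide +kernel, rfl⟩) e (by decide +kernel) (R.rel.mono (by decide +kernel))

theorem rmF (sq : Sq b 20478) (R : RM b 8190 2058 ac B) (e : ∀ r ∈ Ef, wd b r = 1) : RM b 20478 2058 ac B :=
  step ZF_ok ZF_sep ZF_val sq (List.forall_mem_singleton.2 (R.rel.mono (by decide +kernel)))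
    (List.forall_mem_singleton.2 ⟨by decide +kernel, rfl⟩) e (by decide +kernel) (R.rel.mono (by decide +kernel))

theorem cov0 {S n N : ℕ} {act : ℕ → ℕ → ℕ} {B : List ℕ} (M : RM b S n act B) (hS : S < 65536) {W : ℕ → List ℕ}
    {nx : ℕ → ℕ → ℕ} {uw : ℕ → ℕ → List ℕ} (h0 : 0 < N) (h1 : W 0 = [])
    (h : ∀ i < N, covChk act B S 0 N W nx uw i = true) {x : G} (hx : x ∈ gp b S) :
    ∃ i < N, inS S (W i) = true ∧ wd b (W i) = x := by
  obtain ⟨i, hi, h2, k, hk, e⟩ := M.cov hS h0 h1 h hx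
  rw [gp_zero, mem_bot] at hk
  exact ⟨i, hi, h2, by rw [e, hk, one_mul]⟩

theorem mem_cW1 {ys : List (List ℕ)} {S : ℕ} {x : G} (h : ∀ j, tb S j = true → Commute x (b j))
    (hy : allL ys (inS S) = true) : x ∈ cW b ys :=
  mem_cW.2 fun y h' => (comm_gp (fun g hg => (h g hg).symm) (wd_mem_gp (allL_spec hy y h'))).symm

theorem NA.mem {S D : ℕ} (N : NA b b S sg1 D) (sq : Sq b S) (sq' : Sq b D) {c x : G} (hc : c ∈ gp b S)
    (hx : x ∈ gp b D) : c * x * c⁻¹ ∈ gp b D := by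
  obtain ⟨w, hw, rfl⟩ := sq.exists_wd hc
  obtain ⟨u, hu, rfl⟩ := sq'.exists_wd hx
  obtain ⟨v, v1, v2, -⟩ := N.conj hw hu
  rw [fm_sg1, fm_sg1] at v2
  exact v2 ▸ wd_mem_gp v1

/-- the twelve letters generate the centralizer of the first one -/
structure HS (b : ℕ → G) : Prop where
  bm : BM b 8190 2058 ac B
  cen : gp b 8190 = centralizer {b 1}
  card : Nat.card (centralizer ({b 1} : Set G)) = 21504

namespace HS

variable [Finite G] (h : HS b)
include h

theorem chains : Nat.card (cW b [[7], [6], [4], [3], [2], [1]]) ≤ 4 ∧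
    Nat.card (cW b [[5], [7], [6], [4], [3], [2], [1]]) ≤ 2 ∧ Nat.card (cW b [[4, 6], [3, 7], [2], [1]]) ≤ 16 ∧
    Nat.card (cW b [[6], [7], [2], [1]]) ≤ 64 ∧ Nat.card (cW b [[3], [2], [7], [1]]) ≤ 64 ∧
    Nat.card (cW b [[2, 7], [1]]) ≤ 512 ∧ Nat.card (cW b [[1, 2, 10], [2, 7], [1]]) ≤ 256 := by
  have h0 : Nat.card (cW b [[1]]) = 21504 := by rw [cW_one, wd_one, h.card]
  have := h.bm.cc cq0_ok
  have := h.bm.cc cq1_ok
  have := h.bm.cc cq2_ok
  have := h.bm.cc cq3_ok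
  have := h.bm.cc cq4_ok
  have := h.bm.cc cr0_ok
  have := h.bm.cc cd0_ok
  have := h.bm.cc cd1_ok
  have := h.bm.cc cv0_ok
  have := h.bm.cc cv1_ok
  have := h.bm.cc cw0_ok
  have := h.bm.cc cw1_ok
  have := h.bm.cc cw2_ok
  have := h.bm.cc ct0_ok
  have := h.bm.cc ct1_ok
  omega

theorem cZ {x : G} (hx : x ∈ cW b [[7], [6], [4], [3], [2], [1]]) :
    x = 1 ∨ x = wd b [1] ∨ x = wd b [2] ∨ x = wd b [1, 2] := by
  obtain ⟨i, hi, -, rfl⟩ := enum_cW h.bm eZ_ok h.chains.1 hx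
  have : ∀ i < 4, eZ i = [] ∨ eZ i = [1] ∨ eZ i = [2] ∨ eZ i = [1, 2] := by decide +kernel
  rcases this i hi with e | e | e | e <;> simp [e]

theorem cQ {x : G} (hx : ∀ j, tb 254 j = true → Commute x (b j)) : x = 1 ∨ x = b 1 := by
  obtain ⟨i, hi, -, rfl⟩ := enum_cW h.bm eR_ok h.chains.2.1 (mem_cW1 hx (by decide +kernel))
  have : ∀ i < 2, eR i = [] ∨ eR i = [1] := by decide +kernel
  rcases this i hi with e | e <;> simp [e]

omit [Finite G] in
theorem mem {c : G} (hc : Commute c (b 1)) : c ∈ gp b 8190 := h.cen ▸ mem_cent_iff.2 hc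

theorem le : LE (gp b 254) (b 1) := by
  have z1 : b 1 ≠ 1 := by simpa using h.bm.ne1 (u := [1]) (v := []) (by decide +kernel)
  refine ⟨es_of_gens (mem_gp (by decide +kernel)) z1 (h.bm.sq 1 (by decide +kernel)) (fun g hg => ?_)
    (fun g hg k hk => ?_) (fun x _ hx => h.cQ fun j hj => (hx j hj).symm) ⟨b 2, mem_gp (by decide +kernel), ?_, ?_⟩,
    fun c hc => ?_, fun c hc x hx => (NA.of_chk h.bm.rm h.bm.rm (by decide) (by decide) naQ).mem h.bm.sq
      (h.bm.sq.mono (by decide +kernel)) (h.mem hc) hx⟩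
  · simpa using h.bm.rm.comm (allS_spec (by decide)
      (show allS 254 (fun g => eqW ac 8190 B [[g], [1]] [[1], [g]]) = true by decide +kernel) hg)
  · rcases bor_iff.1 (allS_spec (by decide) (allS_spec (by decide) (show allS 254 (fun g => allS 254 fun k =>
      bor (eqW ac 8190 B [[g], [k]] [[k], [g]]) (eqW ac 8190 B [[g], [k]] [[k], [g], [1]])) = true by decide +kernel)
      hg) hk) with e | e
    · left; simpa using h.bm.rm.comm e
    · right; simpa [mul_assoc] using h.bm.rm.eq e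
  · simpa using h.bm.ne1 (u := [2]) (v := []) (by decide +kernel)
  · simpa using h.bm.ne1 (u := [2]) (v := [1]) (by decide +kernel)
  · rcases h.cQ fun j hj => hc _ (mem_gp hj) with rfl | rfl
    exacts [one_mem _, mem_gp (by decide +kernel)]

theorem cardQ : Nat.card (gp b 254) = 128 :=
  (rmQ (h.bm.sq.mono (by decide +kernel)) (rels h.bm.rm (by decide +kernel))).2.2.antisymm
    (h.bm.le_card_en h.bm.ltB (by decide +kernel) eQ_ok fun _ => mem_gp)

theorem cV {x : G} (hx : ∀ j, tb 1478 j = true → Commute x (b j)) : ∃ i < 64, wd b (eV i) = x :=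
  (enum_cW h.bm eV_ok h.chains.2.2.2.1 (mem_cW1 hx (by decide +kernel))).imp fun _ h => ⟨h.1, h.2.2⟩

theorem cV' {x : G} (hx : ∀ j, tb 1678 j = true → Commute x (b j)) : ∃ i < 64, wd b (eW i) = x :=
  (enum_cW h.bm eW_ok h.chains.2.2.2.2.1 (mem_cW1 hx (by decide +kernel))).imp fun _ h => ⟨h.1, h.2.2⟩

theorem scV (x : G) (hx : ∀ j, tb 1478 j = true → Commute x (b j)) : x ∈ gp b 1478 := by
  obtain ⟨i, hi, rfl⟩ := h.cV hx
  exact wd_mem_gp (band_iff.1 (eV_f i hi)).1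

theorem scV' (x : G) (hx : ∀ j, tb 1678 j = true → Commute x (b j)) : x ∈ gp b 1678 := by
  obtain ⟨i, hi, rfl⟩ := h.cV' hx
  exact wd_mem_gp (band_iff.1 (eW_f i hi)).1

end HS

/-- an elementary abelian subgroup of order 16 all of whose involutions are conjugate to `s` -/
structure Sg (s : G) (R E : Subgroup G) : Prop where
  le : E ≤ R
  card : 16 ≤ Nat.card E
  sq : ∀ x ∈ E, x * x = 1
  mem : s ∈ E
  norm : ∀ c, Commute c s → ∀ x ∈ E, c * x * c⁻¹ ∈ E
  cj : ∀ x ∈ E, x ≠ 1 → IsConj s x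

/-- the two singular subgroups -/
structure Sd (s : G) (R E E' : Subgroup G) : Prop where
  le : LE R s
  card : Nat.card R = 128
  l : Sg s R E
  r : Sg s R E'
  inf : ∀ x ∈ E, x ∈ E' → x = 1 ∨ x = s
  cov : ∀ x ∈ R, IsConj s x → x ∈ E ∨ x ∈ E'

theorem Sd.symm {s : G} {R E E' : Subgroup G} (h : Sd s R E E') : Sd s R E' E :=
  ⟨h.le, h.card, h.r, h.l, fun x a c => h.inf x c a, fun x a c => (h.cov x a c).symm⟩

theorem Sg.comm {s : G} {R E : Subgroup G} (h : Sg s R E) {x y : G} (hx : x ∈ E) (hy : y ∈ E) : Commute x y := by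
  have := h.sq _ (mul_mem hx hy)
  rw [Commute, SemiconjBy, ← inv_eq_self_of_sq this, mul_inv_rev, inv_eq_self_of_sq (h.sq x hx),
    inv_eq_self_of_sq (h.sq y hy)]

theorem Sg.conj {s : G} {R E : Subgroup G} (h : Sg s R E) (g : G) :
    Sg (g * s * g⁻¹) (R.map (MulAut.conj g).toMonoidHom) (E.map (MulAut.conj g).toMonoidHom) := by
  refine ⟨map_mono h.le, by rw [card_map_of_injective (MulAut.conj g).injective]; exact h.card, ?_,
    ⟨s, h.mem, rfl⟩, fun c hc x hx => ?_, ?_⟩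
  · rintro _ ⟨x, hx, rfl⟩
    rw [← map_mul, h.sq x hx, map_one]
  · rw [mem_map_conj] at hx ⊢
    convert h.norm (g⁻¹ * c * g) (commute_conj_left_iff.1 hc.symm).symm _ hx using 1
    group
  · rintro _ ⟨x, hx, rfl⟩ h1
    exact (isConj_iff.2 ⟨g, rfl⟩).symm.trans ((h.cj x hx fun e => h1 (by rw [e, map_one])).trans
      (isConj_iff.2 ⟨g, rfl⟩))

theorem Sd.conj {s : G} {R E E' : Subgroup G} (h : Sd s R E E') (g : G) :
    Sd (g * s * g⁻¹) (R.map (MulAut.conj g).toMonoidHom) (E.map (MulAut.conj g).toMonoidHom)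
      (E'.map (MulAut.conj g).toMonoidHom) := by
  refine ⟨h.le.conj g, by rw [card_map_of_injective (MulAut.conj g).injective, h.card], h.l.conj g, h.r.conj g,
    fun x h1 h2 => ?_, fun x h1 h2 => ?_⟩
  · rw [mem_map_conj] at h1 h2
    refine (h.inf _ h1 h2).imp (fun e => ?_) fun e => by rw [← e]; group
    rw [show x = g * (g⁻¹ * x * g) * g⁻¹ by group, e]; group
  · simp only [mem_map_conj] at h1 ⊢
    exact h.cov _ h1 ((isConj_iff.2 ⟨g, rfl⟩).trans (h2.trans (isConj_iff.2 ⟨g⁻¹, by group⟩)))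

theorem HS.sg [Finite G] (h : HS b) {S t : ℕ} (hS : S < 65536) (h1 : sub S 254 = true) (h2 : tb S 1 = true)
    {W We C : ℕ → List ℕ} {nx : ℕ → ℕ → ℕ} {uw : ℕ → ℕ → List ℕ} {kt : ℕ → ℕ} (h0 : W 0 = [])
    (h3 : ∀ i < 16, covChk ac B S 0 16 W nx uw i = true) (h4 : ∀ i < 16, enChk ac B S We kt i = true)
    (h5 : ∀ i < 16, band (eqW ac 8190 B [W i, W i] []) (bor (bor (leq (W i) []) (leq (W i) [1]))
      (eqW ac 8190 B [C i, [t]] [W i, C i])) = true) (h6 : naChk ac B 8190 8190 sg1 S UQ = true)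
    (ht : IsConj (b 1) (b t)) : Sg (b 1) (gp b 254) (gp b S) := by
  have s := sub_trans h1 (show sub 254 8190 = true by decide +kernel)
  have k := fun x hx => cov0 (x := x) (h.bm.rm.mono s) hS (by decide) h0 h3 hx
  refine ⟨gp_mono h1, h.bm.le_card_en h.bm.ltB s h4 fun _ => mem_gp, fun x hx => ?_, mem_gp h2, fun c hc x hx =>
    (NA.of_chk h.bm.rm h.bm.rm (by decide) hS h6).mem h.bm.sq (h.bm.sq.mono s) (h.mem hc) hx, fun x hx x1 => ?_⟩
  · obtain ⟨i, hi, -, rfl⟩ := k x hx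
    simpa using h.bm.rm.eq (band_iff.1 (h5 i hi)).1
  · obtain ⟨i, hi, -, rfl⟩ := k x hx
    rcases bor_iff.1 (band_iff.1 (h5 i hi)).2 with e | e
    · rcases bor_iff.1 e with e | e <;> rw [leq_spec e] at x1 ⊢
      exacts [absurd rfl x1, by rw [wd_one]]
    · exact ht.trans (isConj_iff.2 ⟨_, by simpa using h.bm.rm.conj e⟩)

theorem HS.sd [Finite G] (h : HS b) (h1 : IsConj (b 1) (b 2)) (h2 : IsConj (b 1) (b 7))
    (h3 : ¬ IsConj (b 1) (wd b [3, 7])) : Sd (b 1) (gp b 254) (gp b 30) (gp b 226) := by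
  have a1 := h.sg (by decide) (by decide +kernel) (by decide +kernel) (by decide +kernel) u1_ok u1e_ok u1_f naU1 h1
  have a2 := h.sg (by decide) (by decide +kernel) (by decide +kernel) (by decide +kernel) u2_ok u2e_ok u2_f naU2 h2
  refine ⟨h.le, h.cardQ, a1, a2, fun x c1 c2 => h.cQ fun j hj => ?_, fun x hx c => ?_⟩
  · rcases bor_iff.1 (allS_spec (by decide) (show allS 254 (fun j => bor (tb 30 j) (tb 226 j)) = true by
      decide +kernel) hj) with e | e
    exacts [a1.comm c1 (mem_gp e), a2.comm c2 (mem_gp e)]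
  · obtain ⟨i, hi, -, rfl⟩ := h.bm.enum h.bm.ltB (by decide +kernel) eQ_ok (fun _ => mem_gp) h.cardQ.le hx
    rcases bor_iff.1 (eQ_f i hi) with e | e
    · exact (bor_iff.1 e).imp wd_mem_gp wd_mem_gp
    · rcases bor_iff.1 e with e | e
      · obtain ⟨g, hg⟩ := isConj_iff.1 c
        exact absurd (by simp [← hg, mul_assoc, h.le.z_sq, ← mul_assoc (b 1)]) (h.bm.ne e)
      · exact absurd (c.trans (isConj_iff.2 ⟨_, h.bm.rm.conj e⟩).symm) h3

end CA.PM.He
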