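/-
The local data from which the Held group is identified.
-/
import Cfsg.Agent.He.H

set_option autoImplicit false

namespace CA.PM.He

open CA.TC CA.Fi Subgroup

variable {G : Type*} [Group G]

/-- `d` acts on the letters `q 1, …, q 7` as the letter `g` does, modulo `q 1` -/
def Ac (q : ℕ → G) (g : ℕ) (d : G) : Prop :=
  Commute d (q 1) ∧ ∀ j, tb 254 j = true → d * q j * d⁻¹ = wd q (UQ g j) ∨ d * q j * d⁻¹ = wd q (UQ g j) * q 1

/-- the local data: `q 1 = z`, `q 2, q 3, q 4 = w₁, w₂, w₃`, `q 5, q 6, q 7 = v₁, v₂, v₃` -/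
structure HA (Q : Subgroup G) (q : ℕ → G) : Prop where
  le : LE Q (q 1)
  cardQ : Nat.card Q = 128
  cardC : Nat.card (centralizer ({q 1} : Set G)) = 21504
  mem : ∀ j, tb 254 j = true → q j ∈ Q
  sq : Sq q 254
  rel : ∀ r ∈ EQ, wd q r = 1
  lift : ∀ g, tb 6912 g = true → ∃ d, Ac q g d
  s : ∃ g, g * q 1 * g⁻¹ = q 2 ∧ g⁻¹ * (q 3 * q 7) * g ∈ Q ∧ ∃ r, g⁻¹ * r * g ∈ Q ∧ Ac q 10 r
  s' : ∃ g, g * q 1 * g⁻¹ = q 7 ∧ g⁻¹ * (q 6 * q 2) * g ∈ Q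
  nc : ¬ IsConj (q 1) (q 3 * q 7)

theorem realizeEqns_He_HA : True := by
  have := @CA.PM.He.Ac.eq_1.{0}
  have := @CA.PM.He.Ac.eq_def.{0}
  have := @CA.PM.He.Ac.congr_simp.{0}
  trivial

end CA.PM.He
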