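/-
The centralizer of the central involution in the Held group; simplicity.
-/
import Cfsg.Agent.He.H
import Cfsg.Agent.He.T2

set_option autoImplicit false
set_option maxRecDepth 100000

namespace CA.PM.He

open CA.TC CA.Fi Subgroup

variable {G : Type*} [Group G] {b : ℕ → G}

theorem lowH [Finite G] (M : BM b 8190 2058 ac B) : 21504 ≤ Nat.card (gp b 8190) := by
  have h0 := msts_ge M.toMod (by decide) lh0_ok
  have h1 := msts_ge M.toMod (by decide) lh1_ok
  have h2 := msts_ge M.toMod (by decide) lh2_ok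
  have h3 := msts_ge M.toMod (by decide) lh3_ok
  have h5 : Nat.card (msts M.toMod []) ≤ Nat.card (gp b 8190) := card_le_of_le fun x hx => hx.1
  have h6 := Nat.card_pos (α := msts M.toMod [11, 1, 37, 0])
  omega

theorem HS_of [Finite G] (M : BM b 8190 2058 ac B) (h : Nat.card (centralizer ({b 1} : Set G)) ≤ 21504) : HS b := by
  have le : gp b 8190 ≤ centralizer {b 1} := gp_le fun g hg => mem_cent_iff.2 (by
    simpa using M.rm.comm (allS_spec (by decide)
      (show allS 8190 (fun g => eqW ac 8190 B [[g], [1]] [[1], [g]]) = true by decide +kernel) hg))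
  have := lowH M
  have e := eq_of_le_of_card_ge le (h.trans this)
  exact ⟨M, e, h.antisymm (e ▸ this)⟩

theorem hs0 : HS a0 := by
  refine HS_of (BM_mono bm (by decide +kernel)) ?_
  have h1 := fa.lev_le (b := 0) (by decide) (D := centralizer {a0 1}) (L := []) (f := fun p => Nat.beq (ac 1 p) p)
    (d := 6) (m := 42) (by decide) (by decide +kernel) fun x hx _ => beq_iff.2 (by
      rw [← at0.eq 1 (by decide +kernel) _ (fa.lt x 0 (by decide))]
      exact fa.fix_comm (mem_cent_iff.1 hx) (by decide) ((at0.eq 1 (by decide +kernel) 0 (by decide)).trans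
        (by decide +kernel)))
  have h2 := cls_ge bm (D := fa.sts [0]) (fun i hi => have k := band_iff.1 (band_iff.1 (zM_ok i hi)).2
    ⟨k.1, fa.wd_sts at0 k.1 k.2⟩) fun i hi => (band_iff.1 (zM_ok i hi)).1
  have h3 := fa.lev_ge (bm0.fa gp_top).2 (by decide) (D := ⊤) (fun _ _ => mem_top _) lv0_ok
  rw [fa.sts_nil, inf_top_eq] at h1 h3
  rw [top_inf_eq, card_top, cardX] at h3
  rw [wd_one, inf_comm] at h2
  omega

/-- the generators of the presentation as words in the letters -/
def gW (g : ℕ) : List ℕ := [[], [2, 7], [1, 11, 12, 11, 12], [1, 10],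
  [3, 14, 12, 14, 12, 4, 11, 13, 5, 11, 13, 4, 11, 12, 14, 12, 14, 3], [1], [6], [3]].getD g []

theorem gW_eq {g : ℕ} (hg : tb 254 g = true) : wd a0 (gW g) = σ g := by
  have k := band_iff.1 (allS_spec (by decide) (show allS 254 (fun g => band (inS 32766 (gW g))
    (allL B fun p => Nat.beq (ac0 g (run ac (gW g) p)) p)) = true by decide +kernel) hg)
  have := fa.base (wd a0 (gW g) * σ g) fun p hp => by
    have l := fa.ltB p hp
    rw [fa.mul _ _ _ l, fa.run at0 k.1 l]
    exact ((bm0.fa gp_top).2.eq g hg _ (bm.run_lt k.1 l)).trans (beq_iff.1 (allL_spec k.2 p hp))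
  rw [eq_inv_of_mul_eq_one_left this, inv_eq_of_mul_eq_one_left (sqσ 254 g hg)]

theorem gW_inS {g : ℕ} (hg : tb 254 g = true) : inS 32766 (gW g) = true :=
  allS_spec (by decide) (show allS 254 (fun g => inS 32766 (gW g)) = true by decide +kernel) hg

theorem top0 : gp a0 32766 = ⊤ := eq_top_iff.2 (gp_top ▸ gp_le fun _ hg => gW_eq hg ▸ wd_mem_gp (gW_inS hg))

theorem cjz (R : RM b 32766 2058 ac B) {g : ℕ} (hg : tb 32766 g = true) : IsConj (b 1) (b g) :=
  isConj_iff.2 ⟨_, by simpa using R.conj (allS_spec (by decide) (show allS 32766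
    (fun g => eqW ac 32766 B [gz1 g, [1]] [[g], gz1 g]) = true by decide +kernel) hg)⟩

instance simple : IsSimpleGroup X := by
  have L := hs0.le
  haveI : Nontrivial X := ⟨_, _, L.z_ne⟩
  refine ⟨fun N hN => ?_⟩
  by_cases h : a0 1 ∈ N
  · refine Or.inr (eq_top_iff.2 (top0 ▸ gp_le fun g hg => ?_))
    obtain ⟨c, e⟩ := isConj_iff.1 (cjz bm.rm hg)
    exact e ▸ hN.conj_mem _ h c
  · have s := cjz bm.rm (g := 2) (by decide +kernel)
    refine Or.inl (normal_eq_bot L.z_sq s (s.trans (isConj_iff.2 ⟨_, by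
      simpa using bm.rm.conj (u := [5]) (z := [2]) (y := [2, 1]) (by decide +kernel)⟩)) fun x hx c => ?_)
    have := LE_inj L L.le_cent (fun _ => mem_cent_iff.1) ((QuotientGroup.mk' N).comp (centralizer {a0 1}).subtype)
      (by simpa using h)
    exact congrArg Subtype.val ((injective_iff_map_eq_one _).1 this ⟨x, mem_cent_iff.2 c⟩ (by simpa using hx))

theorem realizeEqns_He_M1 : True := by
  have := @CA.PM.He.gW.eq_1
  have := @CA.PM.He.gW.eq_def
  have := @CA.PM.He.gW.congr_simp
  trivial

end CA.PM.He
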