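/-
Identification of the centralizer of the central involution.
-/
import Cfsg.Agent.He.HA
import Cfsg.Agent.He.M1

set_option autoImplicit false
set_option maxRecDepth 100000

namespace CA.PM.He

open CA.TC CA.Fi CA.FG.Comp Subgroup

variable {G : Type*} [Group G] {q b : ℕ → G}

/-- `d` acts on the first seven letters as the letter `g` does -/
def Ex (q : ℕ → G) (g : ℕ) (d : G) : Prop := ∀ j, tb 254 j = true → d * q j * d⁻¹ = wd q (UQ g j)

/-- dual letters -/
def du (j : ℕ) : ℕ := [1, 1, 5, 6, 7, 2, 3, 4].getD j 1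

theorem Ac.fix (R : RM q 254 2058 ac B) {g : ℕ} (hg : UQ g 1 = [1]) {d : G} (h : Ac q g d) :
    ∃ u ∈ gp q 254, Ex q g (d * u) := by
  have k : ∀ n, ∃ u ∈ gp q 254, Ac q g (d * u) ∧
      ∀ j < n, tb 254 j = true → d * u * q j * (d * u)⁻¹ = wd q (UQ g j) := by
    intro n
    induction n with
    | zero => exact ⟨1, one_mem _, by simpa using h, fun _ h => absurd h (Nat.not_lt_zero _)⟩
    | succ n ih =>
      obtain ⟨u, u1, u2, u3⟩ := ih
      by_cases e : tb 254 n = true → d * u * q n * (d * u)⁻¹ = wd q (UQ g n)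
      · exact ⟨u, u1, u2, fun j hj => (Nat.lt_succ_iff_lt_or_eq.1 hj).elim (u3 j) fun e' => e' ▸ e⟩
      obtain ⟨hn, e⟩ := Classical.not_imp.1 e
      have n1 : n ≠ 1 := by rintro rfl; exact e (by rw [hg, wd_one, conj_eq_iff_commute.2 u2.1])
      have c := band_iff.1 ((bor_iff.1 (allS_spec (by decide) (show allS 254 (fun n => bor (Nat.beq n 1)
        (band (band (tb 254 (du n)) (eqW ac 254 B [[du n], [n]] [[n, 1], [du n]])) (allS 254 fun j =>
          bor (Nat.beq j n) (eqW ac 254 B [[du n], [j]] [[j], [du n]])))) = true by decide +kernel) hn)).resolve_left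
          fun e => n1 (beq_iff.1 e))
      have a : ∀ j, d * (u * q (du n)) * q j * (d * (u * q (du n)))⁻¹ =
          d * u * (q (du n) * q j * (q (du n))⁻¹) * (d * u)⁻¹ := fun j => by group
      have a1 : ∀ j, tb 254 j = true → j ≠ n → q (du n) * q j * (q (du n))⁻¹ = q j := fun j hj e => by
        simpa using R.conj ((bor_iff.1 (allS_spec (by decide) c.2 hj)).resolve_left fun e' => e (beq_iff.1 e'))
      have a2 : d * (u * q (du n)) * q n * (d * (u * q (du n)))⁻¹ = wd q (UQ g n) := by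
        have : q (du n) * q n * (q (du n))⁻¹ = q n * q 1 := by simpa using R.conj (band_iff.1 c.1).2
        rw [a, this, ← mul_assoc, mul_assoc _ (q 1), ← u2.1.inv_left.eq, ← mul_assoc,
          (u2.2 n hn).resolve_left e, mul_assoc, R.sq 1 (by decide +kernel), mul_one]
      refine ⟨u * q (du n), mul_mem u1 (mem_gp (band_iff.1 c.1).1), ⟨?_, fun j hj => ?_⟩, fun j hj h' => ?_⟩
      · rw [← mul_assoc]
        exact u2.1.mul_left (conj_eq_iff_commute.1 (a1 1 (by decide +kernel) n1.symm))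
      · by_cases e' : j = n
        · exact Or.inl (e' ▸ a2)
        · rw [a, a1 j hj e']; exact u2.2 j hj
      · by_cases e' : j = n
        · exact e' ▸ a2
        · rw [a, a1 j h' e']; exact u3 j (by omega) h'
  obtain ⟨u, u1, -, u3⟩ := k 16
  exact ⟨u, u1, fun j hj => u3 j (lt16 (by decide) hj) hj⟩

theorem UQ_in {g j : ℕ} (hg : tb 8190 g = true) (hj : tb 254 j = true) : inS 254 (UQ g j) = true :=
  (band_iff.1 (allS_spec (by decide) (allS_spec (by decide) naQ hg) hj)).1

/-- lifts of the twelve letters -/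
structure Lf (b : ℕ → G) : Prop where
  bm : BM b 254 2058 ac B
  le : LE (gp b 254) (b 1)
  ex : ∀ g, tb 8190 g = true → Ex b g (b g)

namespace Lf

variable (h : Lf b)
include h

theorem na : NA a0 b 8190 sg1 254 := fun g hg j hj =>
  ⟨UQ g j, UQ_in hg hj, by simpa using hs0.bm.rm.conj (band_iff.1 (allS_spec (by decide)
    (allS_spec (by decide) naQ hg) hj)).2, by simpa [fm_sg1, sg1] using h.ex g hg j hj⟩

theorem cz {g : ℕ} (hg : tb 8190 g = true) : Commute (b g) (b 1) := by
  have := h.ex g hg 1 (by decide +kernel)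
  rw [leq_spec (allS_spec (by decide) (show allS 8190 (fun g => leq (UQ g 1) [1]) = true by decide +kernel) hg),
    wd_one] at this
  exact conj_eq_iff_commute.1 this

theorem same {u v : List ℕ} (e : eqW ac 8190 B [u] [v] = true) : wd b u = wd b v ∨ wd b u = wd b v * b 1 := by
  refine (h.le.cent' (c := (wd b v)⁻¹ * wd b u) fun x hx => (comm_gp (fun j hj => ?_) hx).symm).imp
    (fun e => (inv_mul_eq_one.1 e).symm) inv_mul_eq_iff_eq_mul.1
  obtain ⟨x, x1, x2, x3⟩ := h.na.conj (eqW_inS e _ List.mem_cons_self) (inS_one hj)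
  have := h.na.eq He.bm.toMod h.bm.rm (by decide +kernel) (fun _ => inS_one) (eqW_inS' e _ List.mem_cons_self)
    (inS_one hj) x1 (by rw [← hs0.bm.rm.eq1 e, x2])
  rw [← x3, fm_sg1, wd_one] at this
  refine (conj_eq_iff_commute.1 ?_).symm
  calc _ = (wd b v)⁻¹ * (wd b u * b j * (wd b u)⁻¹) * wd b v := by group
    _ = _ := by rw [← this]; group

theorem inv (s : b 10 * b 10 = 1) {u w : List ℕ} (e : eqW ac 8190 B [u ++ w] [w ++ [10]] = true) :
    wd b u * wd b u = 1 := by
  have c : Commute (wd b w) (b 1) := comm_gp (fun _ => h.cz)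
    (wd_mem_gp (inS_append.1 (eqW_inS e _ List.mem_cons_self)).2)
  have k : ∀ y, y * y = 1 → wd b u * wd b w = wd b w * y → wd b u * wd b u = 1 := fun y a e => by
    rw [← mul_inv_eq_iff_eq_mul.2 e.symm, show wd b w * y * (wd b w)⁻¹ * (wd b w * y * (wd b w)⁻¹) =
      wd b w * (y * y) * (wd b w)⁻¹ by group, a]; simp
  rcases h.same e with e | e <;> simp only [wd_append, wd_one, mul_assoc] at e
  · exact k _ s e
  · exact k _ (by rw [(h.cz (g := 10) (by decide +kernel)).symm.mul_mul_mul_comm, s, h.le.z_sq, one_mul]) e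

theorem flip {g : ℕ} (hg : tb 254 g = false) {w : List ℕ} (hw : inS 8190 w = true) :
    wd (Function.update b g (b g * b 1)) w = wd b w * b 1 ^ w.count g := by
  induction w with
  | nil => simp
  | cons k w ih =>
    rw [inS_cons] at hw
    rw [wd_cons, wd_cons, ih hw.2, List.count_cons]
    by_cases e : k = g
    · subst e
      have c : Commute (wd b w) (b 1) := comm_gp (fun _ => h.cz) (wd_mem_gp hw.2)
      simp [pow_succ', mul_assoc, ← mul_assoc (b 1), ← c.eq]
    · simp [Function.update_of_ne e, e, mul_assoc]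

theorem step (s : b 10 * b 10 = 1) {g : ℕ} {r : List ℕ} {E : List (List ℕ)} (hE : ∀ r ∈ E, wd b r = 1)
    (c : tb 8190 g = true ∧ tb 254 g = false ∧ eqW ac 8190 B [r] [[]] = true ∧ r.count g % 2 = 1 ∧
      ∀ r ∈ E, inS 8190 r = true ∧ r.count g % 2 = 0) :
    ∃ b' : ℕ → G, (∀ j, tb 254 j = true → b' j = b j) ∧ Lf b' ∧ b' 10 * b' 10 = 1 ∧ ∀ x ∈ r :: E, wd b' x = 1 := by
  obtain ⟨c1, c2, c3, c4, c5⟩ := c
  rcases h.same c3 with e | e
  · exact ⟨b, fun _ _ => rfl, h, s, List.forall_mem_cons.2 ⟨e, hE⟩⟩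
  have a : ∀ j, tb 254 j = true → Function.update b g (b g * b 1) j = b j := fun j hj =>
    Function.update_of_ne (by rintro rfl; rw [hj] at c2; cases c2) _ _
  have p : ∀ n, b 1 ^ n = b 1 ^ (n % 2) := fun n => pow_eq_pow_mod n ((pow_two _).trans h.le.z_sq)
  refine ⟨_, a, ⟨BM_congr h.bm a, by rw [gp_congr a, a 1 (by decide +kernel)]; exact h.le, fun k hk j hj => ?_⟩, ?_,
    List.forall_mem_cons.2 ⟨?_, fun x hx => ?_⟩⟩
  · rw [a j hj, wd_congr a (UQ_in hk hj), ← h.ex k hk j hj]
    by_cases e : k = g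
    · subst e
      rw [Function.update_self, mul_assoc (b k), (h.le.z_comm _ (mem_gp hj)).eq]; group
    · rw [Function.update_of_ne e]
  · have := h.flip c2 (w := [10, 10]) (by decide +kernel)
    rw [p, show [10, 10].count g % 2 = 0 by by_cases e : 10 = g <;> simp [e]] at this
    simpa [s] using this
  · rw [h.flip c2 (eqW_inS c3 _ List.mem_cons_self), e, p, c4]; simp [h.le.z_sq]
  · rw [h.flip c2 (c5 x hx).1, hE x hx, p, (c5 x hx).2]; simp

theorem hs [Finite G] (s : b 10 * b 10 = 1) (hc : Nat.card (centralizer ({b 1} : Set G)) ≤ 21504) :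
    ∃ b' : ℕ → G, (∀ j, tb 254 j = true → b' j = b j) ∧ HS b' := by
  obtain ⟨b1, a1, h1, s1, e1⟩ := h.step s (g := 10) (r := [10, 8, 9, 8, 9]) (E := []) (by simp) (by decide +kernel)
  obtain ⟨b2, a2, h2, s2, e2⟩ := h1.step s1 (g := 9) (r := [8, 11, 8, 9, 8, 11, 8, 10]) e1 (by decide +kernel)
  obtain ⟨b3, a3, h3, s3, e3⟩ := h2.step s2 (g := 8) (r := [9, 12, 9, 8, 9, 12, 9, 10]) e2 (by decide +kernel)
  obtain ⟨b4, a4, h4, s4, e4⟩ := h3.step s3 (g := 11) (r := [8, 11, 8, 11, 8, 11]) e3 (by decide +kernel)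
  obtain ⟨c, a5, h5, s5, e5⟩ := h4.step s4 (g := 12) (r := [9, 12, 9, 12, 9, 12]) e4 (by decide +kernel)
  have a : ∀ j, tb 254 j = true → c j = b j := fun j hj => by rw [a5 j hj, a4 j hj, a3 j hj, a2 j hj, a1 j hj]
  have sq : Sq c 8190 := fun g hg => by
    rcases bor_iff.1 (allS_spec (by decide) (show allS 8190 (fun g => bor (tb 254 g)
      (eqW ac 8190 B [[g] ++ EI1 g] [EI1 g ++ [10]])) = true by decide +kernel) hg) with e | e
    exacts [h5.bm.sq g e, by simpa using h5.inv s5 e]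
  have R := (rmH sq (rels h5.bm.rm (by decide +kernel)) fun r hr => ?_).1
  · exact ⟨c, a, HS_of (BM_of_sc He.bm R (by decide +kernel) h5.bm.toMod (by decide +kernel) h5.na fun x hx =>
      hs0.le.cent x fun y hy => (comm_gp (fun j hj => (hx j hj).symm) hy).symm) (by rwa [a 1 (by decide +kernel)])⟩
  rw [show EH = ([8, 9, 10, 11, 12].flatMap fun g => [1, 2, 3, 4, 5, 6, 7].map fun j =>
    [g, j, g] ++ (UQ g j).reverse) ++ (([[9, 12, 9, 12, 9, 12], [8, 11, 8, 11, 8, 11], [9, 12, 9, 8, 9, 12, 9, 10],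
      [8, 11, 8, 9, 8, 11, 8, 10], [10, 8, 9, 8, 9]] : List (List ℕ)).reverse ++ EI.map fun p => p.1 ++ p.1) by
      decide +kernel, List.mem_append, List.mem_append, List.mem_reverse] at hr
  rcases hr with hr | hr | hr
  · obtain ⟨g, hg, hr⟩ := List.mem_flatMap.1 hr
    obtain ⟨j, hj, rfl⟩ := List.mem_map.1 hr
    have g1 := (show ∀ g ∈ [8, 9, 10, 11, 12], tb 8190 g = true by decide +kernel) g hg
    have j1 := (show ∀ g ∈ [1, 2, 3, 4, 5, 6, 7], tb 254 g = true by decide +kernel) j hj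
    rw [wd_append, h5.bm.sq.rev (UQ_in g1 j1), ← h5.ex g g1 j j1, inv_eq_self_of_sq (sq g g1)]
    simp [mul_assoc]
  · exact e5 r hr
  · obtain ⟨p, hp, rfl⟩ := List.mem_map.1 hr
    rw [wd_append]
    exact h5.inv s5 (allL_spec (show allL EI (fun p => eqW ac 8190 B [p.1 ++ p.2] [p.2 ++ [10]]) = true by
      decide +kernel) p hp)

end Lf

/-- generators of the intersection of the two extraspecial groups -/
def yA (j : ℕ) : List ℕ := [[], [1], [2], [3, 7], [3, 4, 6, 7]].getD j []

theorem HA.hs [Finite G] {Q : Subgroup G} (h : HA Q q) :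
    ∃ b : ℕ → G, (∀ j, tb 254 j = true → b j = q j) ∧ HS b ∧ gp b 254 = Q := by
  have R := (rmQ h.sq h.rel).1
  have M0 := BM_mono bm (T := 254) (by decide +kernel)
  have M : BM q 254 2058 ac B := by
    obtain ⟨φ, hφ⟩ := PM.exists_hom R.sq M0.sq fun w hw e => tr M0.toMod R (sub_refl _) hw (inS_nil _) e
    have := LE_inj hs0.le le_rfl (fun x hx => (hs0.le.z_comm x hx).symm) φ (by
      have := hφ [1] (by decide +kernel)
      simp only [wd_one] at this
      rw [this]; exact h.le.z_ne)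
    exact ⟨⟨R.tbl, R.sq, fun w hw e => M0.cmp w hw (congrArg Subtype.val
      ((injective_iff_map_eq_one φ).1 this _ ((hφ w hw).trans e)))⟩, R.rel, R.lt⟩
  have eQ' : gp q 254 = Q := eq_of_le_of_card_ge (gp_le h.mem) (h.cardQ ▸
    M.le_card_en M.ltB (by decide +kernel) eQ_ok fun _ => mem_gp)
  obtain ⟨g, g1, g2, r, r1, r2⟩ := h.s
  obtain ⟨u, u1, u2⟩ := r2.fix R (by decide)
  have hl : ∀ k, ∃ d, tb 8190 k = true → Ex q k d ∧ (tb 254 k = true → d = q k) ∧ (k = 10 → d = r * u) := fun k => by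
    by_cases hk : tb 8190 k = true
    · rcases bor_iff.1 (allS_spec (by decide) (show allS 8190 (fun k => bor (band (TC.bne k 10) (allS 254 fun j =>
        band (tb 254 k) (eqW ac 254 B [[k], [j]] [UQ k j, [k]]))) (band (TC.bne (Nat.shiftRight k 3) 0)
          (bor (Nat.beq k 10) (band (TC.bne k 10) (band (tb 6912 k) (leq (UQ k 1) [1])))))) = true by
          decide +kernel) hk) with e | e <;> rw [band_iff] at e
      · exact ⟨q k, fun _ => ⟨fun j hj => by simpa using R.conj (band_iff.1 (allS_spec (by decide) e.2 hj)).2,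
          fun _ => rfl, fun e' => absurd e' (bne_iff.1 e.1)⟩⟩
      have n : ¬ tb 254 k = true := fun c => bne_iff.1 e.1 (Nat.shiftRight_eq_zero _ _ (tb_iff.1 c).2)
      rcases bor_iff.1 e.2 with e | e
      · obtain rfl := beq_iff.1 e
        exact ⟨r * u, fun _ => ⟨u2, fun c => absurd c n, fun _ => rfl⟩⟩
      · rw [band_iff, band_iff] at e
        obtain ⟨d, hd⟩ := h.lift k e.2.1
        obtain ⟨u, -, hu⟩ := hd.fix R (leq_spec e.2.2)
        exact ⟨_, fun _ => ⟨hu, fun c => absurd c n, fun e' => absurd e' (bne_iff.1 e.1)⟩⟩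
    · exact ⟨1, fun c => absurd c hk⟩
  choose b hb using hl
  have a : ∀ j, tb 254 j = true → b j = q j := fun j hj => (hb j (tb_sub (by decide +kernel) hj)).2.1 hj
  have L : Lf b := ⟨BM_congr M a, by rw [gp_congr a, a 1 (by decide +kernel), eQ']; exact h.le, fun k hk j hj => by
    rw [a j hj, wd_congr a (UQ_in hk hj)]; exact (hb k hk).1 j hj⟩
  have L' := h.le.conj g
  rw [g1] at L'
  set R' := Q.map (MulAut.conj g).toMonoidHom
  have zs : q 1 ≠ q 2 := by simpa using M.ne1 (u := [1]) (v := [2]) (by decide +kernel)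
  have cw : ∀ k, tb 8190 k = true → ∀ w, inS 254 w = true → b k * wd q w * (b k)⁻¹ = wd q (w.flatMap (UQ k)) :=
    fun k hk w hw => conj_sub (hb k hk).1 hw
  have y3 : wd q [3, 7] ∈ R' := by rw [wd_cons, wd_one]; exact mem_map_conj.2 g2
  have yR : ∀ j, tb 30 j = true → wd q (yA j) ∈ R' := fun j hj => by
    rcases (show ∀ j < 16, tb 30 j = true → j = 1 ∨ j = 2 ∨ j = 3 ∨ j = 4 by decide +kernel) j (lt16 (by decide) hj) hj
      with rfl | rfl | rfl | rfl
    · exact wd_one q 1 ▸ h.le.mem_conj (by rw [h.cardQ]; decide) (g1 ▸ h.mem 2 (by decide +kernel))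
    · simpa [yA] using L'.z_mem
    · exact y3
    · have := L'.norm (b 12) (conj_eq_iff_commute.1 (by simpa [UQ] using cw 12 (by decide +kernel) [2] rfl)) _ y3
      rwa [cw 12 (by decide +kernel) _ (by decide +kernel)] at this
  have e10 : b 10 = r * u := (hb 10 (by decide +kernel)).2.2 rfl
  have rR : r ∈ R' := mem_map_conj.2 r1
  have uc : ∀ j ∈ [2, 3, 4], Commute (wd q (yA j)) u := fun j hj => by
    have c := band_iff.1 (allL_spec (show allL [2, 3, 4] (fun j => band (tb 30 j)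
      (bor (eqW ac 254 B [(yA j).flatMap (UQ 10)] [yA j, []]) (eqW ac 254 B [(yA j).flatMap (UQ 10)] [yA j, [2]])))
      = true by decide +kernel) j hj)
    have i : inS 254 (yA j) = true := (bor_iff.1 c.2).elim (eqW_inS' · _ List.mem_cons_self)
      (eqW_inS' · _ List.mem_cons_self)
    by_contra n
    have e1 := h.le.conj_eq (eQ' ▸ u1) (eQ' ▸ wd_mem_gp i) fun c => n c.symm
    have e2 := cw 10 (by decide +kernel) _ i
    have e3 : r * wd q (yA j) * r⁻¹ * q 1 = wd q ((yA j).flatMap (UQ 10)) := by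
      rw [← e2, e10, mul_assoc _ r⁻¹, r2.1.inv_left.eq, ← mul_assoc, mul_assoc r, ← e1]; group
    have s2 := L'.z_sq
    rcases L'.conj_or rR (yR j c.1) with e | e <;> rw [e] at e3 <;> rcases bor_iff.1 c.2 with e | e <;>
      have e4 := R.eq e <;> simp only [wds_cons, wds_nil, mul_one, wd_nil, wd_one] at e4 <;> rw [e4] at e3
    · exact h.le.z_ne (by simpa using e3)
    · exact zs (by simpa using e3)
    · exact zs (by rw [mul_assoc, mul_eq_left, ← s2] at e3; simpa using e3)
    · exact h.le.z_ne (by simpa using e3)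
  have uR : u ∈ R' := by
    obtain ⟨i, hi, -, rfl⟩ := M.enum M.ltB (by decide +kernel) eQ_ok (fun _ => mem_gp) (by rw [eQ', h.cardQ]) u1
    rcases bor_iff.1 ((show ∀ i < 128, bor (anyL [2, 3, 4] fun j => neW ac 254 B [yA j, eQ i] [eQ i, yA j])
      (anyL [1, 2, 3, 4].sublists fun w => band (inS 30 w) (eqW ac 254 B [eQ i] [w.flatMap yA])) = true by
      decide +kernel) i hi) with e | e <;> obtain ⟨j, hj, e⟩ := anyL_spec e
    · exact absurd (uc j hj) (M.ncomm e)
    · rw [R.eq1 (band_iff.1 e).2, wd_flatMap]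
      exact wd_mem yR (band_iff.1 e).1
  have s : b 10 * b 10 = 1 := by
    refine (L'.sq (e10 ▸ mul_mem rR uR)).elim id fun e => ?_
    have := L.same (u := [10, 10]) (v := []) (by decide +kernel)
    simp only [wd_cons, wd_nil, mul_one, one_mul, a 1 (by decide +kernel)] at this
    exact this.elim id fun e' => absurd (e'.symm.trans e) zs
  obtain ⟨c, a', hc⟩ := L.hs s (by rw [a 1 (by decide +kernel), h.cardC])
  have a'' : ∀ j, tb 254 j = true → c j = q j := fun j hj => (a' j hj).trans (a j hj)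
  exact ⟨c, a'', hc, (gp_congr a'').trans eQ'⟩

theorem realizeEqns_He_A : True := by
  have := @CA.PM.He.Ex.eq_1.{0}
  have := @CA.PM.He.Ex.eq_def.{0}
  have := @CA.PM.He.Ex.congr_simp.{0}
  have := @CA.PM.He.du.eq_1
  have := @CA.PM.He.du.eq_def
  have := @CA.PM.He.du.congr_simp
  have := @CA.PM.He.yA.eq_1
  have := @CA.PM.He.yA.eq_def
  have := @CA.PM.He.yA.congr_simp
  trivial

end CA.PM.He
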