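/-
Lower bounds for conjugacy classes; a subgroup containing centralizers of involutions.
-/
import Cfsg.Agent.He.Act
import Cfsg.Agent.PM.SE

set_option autoImplicit false

namespace CA.PM.He

open CA.TC CA.Fi CA.FG Subgroup Cfsg

section
variable {X : Type*} [Group X] {a : ℕ → X} {S n : ℕ} {act : ℕ → ℕ → ℕ} {B : List ℕ}

theorem cls_ge [Finite X] (M : BM a S n act B) {D : Subgroup X} {z : List ℕ} {N : ℕ} {W : ℕ → List ℕ} {kt : ℕ → ℕ}
    (hW : ∀ i < N, inS S (W i) = true ∧ wd a (W i) ∈ D)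
    (h : ∀ i < N, enChk act B S (fun i => W i ++ (z ++ rv (W i))) kt i = true) :
    N * Nat.card (D ⊓ centralizer ({wd a z} : Set X) : Subgroup X) ≤ Nat.card D := by
  rw [CA.Loc.card_eq_orbit D (wd a z)]
  refine Nat.mul_le_mul_right _ (le_ncard (Set.toFinite _) (fun i => wd a (W i ++ (z ++ rv (W i))))
    (fun i hi => ⟨wd a (W i), (hW i hi).2, ?_⟩) (M.wd_inj M.ltB (sub_refl _) h).2)
  simp only [wd_append, rv_eq, M.sq.rev (hW i hi).1, mul_assoc]

theorem cls_cc [Finite X] (M : BM a S n act B) {ys : List (List ℕ)} {z : List ℕ} {N : ℕ} {W : ℕ → List ℕ}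
    {kt : ℕ → ℕ} (h : ∀ i < N, ccChk act B S ys z W kt i = true) :
    N * Nat.card ((gp a S ⊓ cW a ys) ⊓ centralizer ({wd a z} : Set X) : Subgroup X) ≤
      Nat.card (gp a S ⊓ cW a ys : Subgroup X) :=
  cls_ge M (fun i hi => have k := band_iff.1 (band_iff.1 (h i hi)).2
    ⟨k.1, wd_mem_gp k.1, mem_cW.2 fun y hy => M.rm.comm (allL_spec k.2 y hy)⟩) fun i hi => (band_iff.1 (h i hi)).1

/-- the words fix the points `L` and conjugate `z` to different elements -/
noncomputable def fcChk (act : ℕ → ℕ → ℕ) (B : List ℕ) (S : ℕ) (L z : List ℕ) (W : ℕ → List ℕ)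
    (kt : ℕ → ℕ) (i : ℕ) : Bool :=
  band (enChk act B S (fun i => W i ++ (z ++ rv (W i))) kt i) (band (inS S (W i)) (fixB act L (W i)))

end

theorem realizeEqns_He_Act2 : True := by
  have := @CA.PM.He.fcChk.eq_1
  have := @CA.PM.He.fcChk.eq_def
  have := @CA.PM.He.fcChk.congr_simp
  trivial

end CA.PM.He
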