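/-
Construction of the thirteenth letter.
-/
import Cfsg.Agent.He.M1

set_option autoImplicit false
set_option maxRecDepth 100000

namespace CA.PM.He

open CA.TC CA.Fi CA.FG.Comp Subgroup

variable {G : Type*} [Group G] {b : ℕ → G}

theorem pattern [Finite G] {R E : Subgroup G} {s : G} (h : ES R s) (hE : E ≤ R) {n : ℕ} (a : Fin n → G)
    (ha : ∀ i, a i ∈ R) {L : List G} (hk : ∀ x ∈ E, (∀ i, Commute x (a i)) → x ∈ L)
    (hc : (2 ^ n - 1) * L.length < Nat.card E) (v : Fin n → Prop) : ∃ x ∈ E, ∀ i, Commute x (a i) ↔ v i := by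
  classical
  by_contra hn
  have e := card_eq_range (D := E) (K := centralizer (Set.range a)) (fun x i => Commute x (a i)) fun x hx y hy => by
    have k := fun i => h.mul_commute_iff (hE hx) (hE (inv_mem hy)) (ha i)
    simp only [Commute.inv_left_iff] at k
    exact ⟨fun e => by rintro _ ⟨i, rfl⟩; exact ((k i).2 (iff_of_eq (congrFun e i))).symm,
      fun e => funext fun i => propext ((k i).1 (show Commute _ _ from e _ ⟨i, rfl⟩).symm)⟩
  have e1 : Nat.card (E ⊓ centralizer (Set.range a) : Subgroup G) ≤ L.length :=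
    ncard_le_length fun x hx => hk x hx.1 fun i => (show Commute _ _ from hx.2 _ ⟨i, rfl⟩).symm
  have e2 : ((fun x i => Commute x (a i)) '' E).ncard ≤ 2 ^ n - 1 := by
    refine (Set.ncard_le_ncard (t := {v}ᶜ) ?_ (Set.toFinite _)).trans_eq (by
      rw [Set.ncard_compl, Set.ncard_singleton]; simp)
    rintro _ ⟨x, hx, rfl⟩ e
    exact hn ⟨x, hx, fun i => iff_of_eq (congrFun e i)⟩
  exact absurd (e ▸ Nat.mul_le_mul e2 e1) hc.not_ge

/-- corrections -/
def yK (g : ℕ) : List ℕ := [[], [2], [], [2, 10], [2, 8], [], [8], [10], [], [2], [], [], [2]].getD g []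

/-- action of the thirteenth letter -/
def UE (j : ℕ) : List ℕ := [[], [1, 2], [2], [3, 2], [4, 2]].getD j []

namespace HS

variable [Finite G] (h : HS b)
include h

theorem cD {x : G} (h1 : Commute x (b 1)) (h2 : Commute x (b 2)) (h3 : Commute x (wd b [3, 7]))
    (h4 : Commute x (wd b [4, 6])) : ∃ i < 16, wd b (eD i) = x :=
  (enum_cW h.bm eD_ok h.chains.2.2.1 (mem_cW.2 (List.forall_mem_cons.2 ⟨h4, List.forall_mem_cons.2
    ⟨h3, by simpa using ⟨h2, h1⟩⟩⟩))).imp fun _ h => ⟨h.1, h.2.2⟩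

theorem cD' {x : G} (h1 : Commute x (b 1)) (h2 : Commute x (b 2)) (h3 : Commute x (wd b [3, 7]))
    (h4 : Commute x (wd b [4, 6])) (n : ¬ IsConj (b 1) (wd b [3, 7])) (c : x ≠ 1 → IsConj (b 1) x) :
    x ∈ [1, b 2, b 1, b 1 * b 2] := by
  obtain ⟨i, hi, rfl⟩ := h.cD h1 h2 h3 h4
  rcases bor_iff.1 ((show ∀ i < 16, bor (anyL [[], [2], [1], [1, 2]] (leq (eD i))) (band (neW ac 8190 B [eD i] [[]])
    (anyL [[9, 12], [], [3, 12], [9, 8, 12], [8], [3, 8, 12], [3, 9, 12], [4], [12], [3, 9, 8, 12], [4, 8], [8, 12]]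
      fun c => eqW ac 8190 B [c, [3, 7]] [eD i, c])) = true by decide +kernel) i hi) with e | e
  · obtain ⟨w, hw, e⟩ := anyL_spec e
    simpa [leq_spec e] using List.mem_map_of_mem (f := wd b) hw
  · obtain ⟨w, -, e'⟩ := anyL_spec (band_iff.1 e).2
    exact absurd ((c (h.bm.ne1 (band_iff.1 e).1)).trans (isConj_iff.2 ⟨_, h.bm.rm.conj e'⟩).symm) n

theorem cs {w : List ℕ} (hw : inS 6110 w = true) : Commute (wd b w) (b 2) :=
  comm_gp (fun g hg => by simpa using h.bm.rm.comm (allS_spec (by decide)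
    (show allS 6110 (fun g => eqW ac 8190 B [[g], [2]] [[2], [g]]) = true by decide +kernel) hg)) (wd_mem_gp hw)

theorem exE {R E1 E2 : Subgroup G} (S : Sd (b 2) R E1 E2) (z1 : b 1 ∈ E1) (d1 : wd b [3, 7] ∈ R)
    (c : IsConj (b 1) (b 2)) (n : ¬ IsConj (b 1) (wd b [3, 7])) :
    ∃ e, e * e = 1 ∧ ∀ r ∈ Ee, wd (Function.update b 13 e) r = 1 := by
  have M := h.bm.rm
  have zs : b 1 ≠ b 2 := by simpa using h.bm.ne1 (u := [1]) (v := [2]) (by decide +kernel)
  have zR := S.l.le z1
  have sR := S.le.z_mem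
  have s2 := S.le.z_sq
  have z2 : b 1 ∉ E2 := fun k => (S.inf _ z1 k).elim h.le.z_ne zs
  have z2' : b 1 * b 2 ∉ E2 := fun k => z2 (by simpa [mul_assoc, s2] using mul_mem k S.r.mem)
  have d2 : wd b [4, 6] ∈ R := by
    have := S.le.norm _ (h.cs (w := [12]) rfl) _ d1
    rw [M.conj (y := [1] ++ [3, 7] ++ [4, 6]) (by decide +kernel), wd_append, wd_append, wd_one] at this
    exact (mul_mem_cancel_left (mul_mem zR d1)).1 this
  have k2 : ∀ x ∈ E2, (∀ i, Commute x (![b 1, wd b [3, 7], wd b [4, 6]] i)) → x ∈ [1, b 2] := fun x hx k => by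
    have := h.cD' (k 0) (S.r.comm hx S.r.mem) (k 1) (k 2) n fun e => c.trans (S.r.cj x hx e)
    simp only [List.mem_cons, List.not_mem_nil, or_false] at this ⊢
    rcases this with e | e | e | e
    exacts [Or.inl e, Or.inr e, absurd (e ▸ hx) z2, absurd (e ▸ hx) z2']
  have p2 := pattern S.le.toES S.r.le _ (by intro i; fin_cases i; exacts [zR, d1, d2]) k2
    (lt_of_lt_of_le (by simp) S.r.card)
  have xu : ∀ y ∈ R, Commute y (b 1) → ¬ Commute y (wd b [3, 7]) → Commute y (wd b [4, 6]) →
      ∃ i < 16, y = wd b (8 :: eD i) := fun y hy y1 y2 y3 => by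
    have a : ∀ w, eqW ac 8190 B [[8], w] [w, [8]] = true → Commute (b 8) (wd b w) := fun w e => by
      simpa using M.comm e
    obtain ⟨i, hi, e⟩ := h.cD (x := b 8 * y) ((wd_one b 1 ▸ a [1] (by decide +kernel)).mul_left y1)
      ((wd_one b 2 ▸ a [2] (by decide +kernel)).mul_left (S.le.z_comm y hy).symm) (conj_eq_iff_commute.1 (by
        calc _ = b 8 * (y * wd b [3, 7] * y⁻¹) * (b 8)⁻¹ := by group
          _ = _ := by
            rw [S.le.conj_eq hy d1 y2]
            simpa [mul_assoc] using M.conj (u := [8]) (z := [3, 7, 2]) (y := [3, 7]) (by decide +kernel)))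
      ((a _ (by decide +kernel)).mul_left y3)
    exact ⟨i, hi, by rw [wd_cons, e, ← mul_assoc, M.sq 8 (by decide +kernel), one_mul]⟩
  have cj : ∀ {x}, x ∈ E2 → ∀ w, inS 6110 w = true → wd b w * x * wd b (rv w) ∈ E2 := fun hx w hw => by
    rw [rv_eq, M.sq.rev (inS_sub (by decide +kernel) hw)]
    exact S.r.norm _ (h.cs hw) _ hx
  have x12 : b 8 ∈ E2 := by
    obtain ⟨y, hy, k⟩ := p2 ![True, False, True]
    obtain ⟨i, hi, rfl⟩ := xu y (S.r.le hy) ((k 0).2 trivial) (k 1).1 ((k 2).2 trivial)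
    rcases bor_iff.1 ((show ∀ i < 16, bor (bor (neW ac 8190 B [8 :: eD i, 8 :: eD i] [])
      (bor (leq (eD i) []) (leq (eD i) [2]))) (anyL [[12, 9], [4, 12, 9]] fun w => band (inS 6110 w)
        (anyL [[1], [1, 2]] fun t => eqW ac 8190 B [[9], 8 :: eD i, rv [9], w, 8 :: eD i, rv w, 8 :: eD i] [t]))
          = true by decide +kernel) i hi) with e | e
    · rcases bor_iff.1 e with e | e
      · exact absurd (by simpa using S.r.sq _ hy) (h.bm.ne e)
      rcases bor_iff.1 e with e | e <;> rw [leq_spec e] at hy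
      · simpa using hy
      · simpa [mul_assoc, s2] using mul_mem hy S.r.mem
    · obtain ⟨w, -, e⟩ := anyL_spec e
      obtain ⟨t, ht, e'⟩ := anyL_spec (band_iff.1 e).2
      have := mul_mem (cj hy [9] rfl) (mul_mem (cj hy w (band_iff.1 e).1) hy)
      have e2 := M.eq e'
      simp only [wds_cons, wds_nil, mul_one, mul_assoc] at e2 this
      rw [e2] at this
      simp only [List.mem_cons, List.not_mem_nil, or_false] at ht
      rcases ht with rfl | rfl
      exacts [absurd (by simpa using this) z2, absurd (by simpa using this) z2']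
  have x13 : b 10 ∈ E2 := by
    have := cj x12 [12, 9] rfl
    have e2 := M.eq (u := [[12, 9], [8], rv [12, 9]]) (v := [[10]]) (by decide +kernel)
    simp only [wds_cons, wds_nil, mul_one, mul_assoc, wd_one] at e2 this
    exact e2 ▸ this
  have fu : IsConj (b 1) (wd b [9, 1, 2]) := by
    obtain ⟨y, hy, k⟩ := pattern S.le.toES S.l.le ![wd b [3, 7], wd b [4, 6]]
      (by intro i; fin_cases i; exacts [d1, d2]) (fun x hx k => h.cD' (S.l.comm hx z1) (S.l.comm hx S.l.mem)
        (k 0) (k 1) n fun e => c.trans (S.l.cj x hx e)) (lt_of_lt_of_le (by simp) S.l.card) ![False, True]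
    have y1 : y ≠ 1 := fun e => (k 0).1 (e ▸ Commute.one_left _)
    obtain ⟨i, hi, rfl⟩ := xu y (S.l.le hy) (S.l.comm hy z1) (k 0).1 ((k 1).2 trivial)
    rcases bor_iff.1 (eD_f i hi) with e | e
    · exact absurd (by simpa [mul_assoc] using S.l.sq _ hy) (h.bm.ne e)
    rcases bor_iff.1 e with e | e
    · have : b 8 ∈ E1 := (mul_mem_cancel_right (wd_mem (fun g hg => by
        rcases (show ∀ g < 16, tb 6 g = true → g = 1 ∨ g = 2 by decide +kernel) g (lt16 (by decide) hg) hg
          with rfl | rfl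
        exacts [z1, S.l.mem]) e)).1 hy
      rcases S.inf _ this x12 with e | e
      · exact absurd (by simpa using e) (h.bm.ne1 (u := [8]) (v := []) (by decide +kernel))
      · exact absurd (by simpa using e) (h.bm.ne1 (u := [8]) (v := [2]) (by decide +kernel))
    · exact (c.trans (S.l.cj _ hy y1)).trans (isConj_iff.2 ⟨_, M.conj e⟩)
  obtain ⟨e, eE, ke⟩ := p2 ![False, False, False]
  have e2 := S.r.sq e eE
  have ei := inv_eq_self_of_sq e2
  refine ⟨e, e2, ?_⟩
  set b' := Function.update b 13 e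
  have a : ∀ g, tb 8190 g = true → b' g = b g := fun g hg => Function.update_of_ne (by rintro rfl; cases hg) _ _
  have a13 : b' 13 = e := Function.update_self _ _ _
  have aw : ∀ w, inS 8190 w = true → wd b' w = wd b w := fun _ hw => wd_congr a hw
  have R' := RM_congr M a
  have ez := S.le.conj_eq (S.r.le eE) zR (ke 0).1
  have es := conj_eq_iff_commute.2 (S.r.comm eE S.r.mem)
  have ed1 := S.le.conj_eq (S.r.le eE) d1 (ke 1).1
  have ed2 := S.le.conj_eq (S.r.le eE) d2 (ke 2).1
  have N : NA a0 b' 14302 ysD 30 := NA.union (NA.of_chk hs0.bm.rm R' (by decide) (by decide) naD)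
    (S2 := 8192) (fun g hg j hj => by
      obtain rfl := (show ∀ g < 16, tb 8192 g = true → g = 13 by decide +kernel) g (lt16 (by decide) hg) hg
      have k := band_iff.1 (allS_spec (by decide) (show allS 30 (fun j => band (band (inS 30 (UE j))
        (band (inS 8190 (ysD j)) (inS 8190 ((UE j).flatMap ysD))))
        (eqW ac 32766 B [[13], ysD j] [(UE j).flatMap ysD, [13]])) = true by decide +kernel) hj)
      rw [band_iff, band_iff] at k
      refine ⟨UE j, k.1.1, by simpa using He.bm.rm.conj k.2, ?_⟩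
      rw [a13, aw _ k.1.2.1, aw _ k.1.2.2]
      rcases (show ∀ j < 16, tb 30 j = true → j = 1 ∨ j = 2 ∨ j = 3 ∨ j = 4 by decide +kernel) j
        (lt16 (by decide) hj) hj with rfl | rfl | rfl | rfl
      exacts [by simpa [ysD, UE] using ez, by simpa [ysD, UE] using es, by simpa [ysD, UE, mul_assoc] using ed1,
        by simpa [ysD, UE, mul_assoc] using ed2]) (by decide) (by decide +kernel)
  have hε : ∀ k, ∃ ε : ℕ, tb 6110 k = true → e * b k * e⁻¹ = wd b (mE k) * b 2 ^ ε := fun k => by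
    by_cases hk : tb 6110 k = true
    swap
    · exact ⟨0, fun c => absurd c hk⟩
    have p := allS_spec (by decide) (show allS 6110 (fun k => band (band (inS 6110 (mE k)) (band (inS 1284 (yK k))
      (eqW ac 8190 B [[k]] [yK k, mE k]))) (cmChk ac B 32766 14302 ysD 30 ([13, k, 13] ++ (mE k).reverse))) = true
      by decide +kernel) hk
    rw [band_iff, band_iff, band_iff] at p
    have i := inS_sub (show sub 6110 8190 = true by decide +kernel) p.1.1
    have q := fun j hj => N.cm He.bm R' (by decide +kernel) (by decide) (by decide +kernel) p.2 (j := j) hj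
    have q0 : wd b' ([13, k, 13] ++ (mE k).reverse) = e * b k * e⁻¹ * (wd b (mE k))⁻¹ := by
      rw [wd_append, aw _ (inS_reverse.2 i), M.sq.rev i, ei]
      simp [a13, a k (tb_sub (by decide +kernel) hk), mul_assoc]
    rw [q0] at q
    have m : e * b k * e⁻¹ * (wd b (mE k))⁻¹ ∈ E2 := by
      have e3 := M.eq p.1.2.2
      simp only [wds_cons, wds_nil, mul_one, wd_one] at e3
      have := mul_mem (mul_mem eE (S.r.norm _ (wd_one b k ▸ h.cs (inS_one hk)) _ (inv_mem eE))) (wd_mem (fun g hg => by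
        rcases (show ∀ g < 16, tb 1284 g = true → g = 2 ∨ g = 8 ∨ g = 10 by decide +kernel) g
          (lt16 (by decide) hg) hg with rfl | rfl | rfl
        exacts [S.r.mem, x12, x13]) p.1.2.1)
      convert this using 1
      rw [← mul_inv_eq_iff_eq_mul.2 e3]; group
    have := k2 _ m fun i => by
      fin_cases i
      · simpa [ysD, a 1 rfl] using q 1 rfl
      · exact aw [3, 7] rfl ▸ q 3 rfl
      · exact aw [4, 6] rfl ▸ q 4 rfl
    simp only [List.mem_cons, List.not_mem_nil, or_false] at this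
    exact this.elim (fun e => ⟨0, fun _ => by rw [mul_inv_eq_iff_eq_mul.1 e]; simp⟩) fun e =>
      ⟨1, fun _ => by rw [mul_inv_eq_iff_eq_mul.1 e, pow_one, (h.cs p.1.1).eq]⟩
  choose ε hε using hε
  have mi : ∀ k, tb 6110 k = true → inS 6110 (mE k) = true := fun _ =>
    allS_spec (by decide) (show allS 6110 (fun k => inS 6110 (mE k)) = true by decide +kernel)
  have hw : ∀ w, inS 6110 w = true → e * wd b w * e⁻¹ = wd b (w.flatMap mE) * b 2 ^ (w.map ε).sum := fun w hw => by
    induction w with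
    | nil => simp
    | cons k w ih =>
      rw [inS_cons] at hw
      rw [wd_cons, show e * (b k * wd b w) * e⁻¹ = e * b k * e⁻¹ * (e * wd b w * e⁻¹) by group, ih hw.2, hε k hw.1,
        List.flatMap_cons, wd_append, List.map_cons, List.sum_cons, pow_add, mul_assoc, ← mul_assoc (b 2 ^ _),
        ← ((h.cs (inS_flatMap mi hw.2)).pow_right _).eq]
      simp only [mul_assoc]
  have ev : ∀ u v, e * wd b u * e⁻¹ = wd b v → band (inS 6110 u) (eqW ac 8190 B [u.flatMap mE] [v]) = true →
      2 ∣ (u.map ε).sum := fun u v k c => by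
    rw [hw u (band_iff.1 c).1, M.eq1 (band_iff.1 c).2, mul_eq_left] at k
    exact S.le.orderOf_z ▸ orderOf_dvd_of_pow_eq_one k
  have t : ∀ u, eqW ac 8190 B [u] [] = true → e * wd b u * e⁻¹ = wd b [] := fun u k => by simp [M.one k]
  have p1 := ev [1] [1, 2] (by simpa using ez) (by decide +kernel)
  have p2 := ev [2] [2] (by simpa using es) (by decide +kernel)
  have p3 := ev [8] [8] (by simpa using conj_eq_iff_commute.2 (S.r.comm eE x12)) (by decide +kernel)
  have p4 := ev [10] [10] (by simpa using conj_eq_iff_commute.2 (S.r.comm eE x13)) (by decide +kernel)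
  have p5 := ev [3, 7] [3, 7, 2] (by simpa [mul_assoc] using ed1) (by decide +kernel)
  have p6 := ev [4, 6] [4, 6, 2] (by simpa [mul_assoc] using ed2) (by decide +kernel)
  have p7 := ev [9, 4, 9, 4, 3] [] (t _ (by decide +kernel)) (by decide +kernel)
  have p8 := ev [12, 3, 12, 4, 3] [] (t _ (by decide +kernel)) (by decide +kernel)
  have p9 := ev [9, 12, 9, 12, 9, 12] [] (t _ (by decide +kernel)) (by decide +kernel)
  have pw : ∀ n, b 2 ^ n = b 2 ^ (n % 2) := fun n => pow_eq_pow_mod n ((pow_two _).trans s2)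
  simp only [List.map_cons, List.map_nil, List.sum_cons, List.sum_nil] at p1 p2 p3 p4 p5 p6 p7 p8 p9
  have p10 : 2 ∣ ε 9 := by
    by_contra k
    have := hw [9, 1] rfl
    simp only [List.map_cons, List.map_nil, List.sum_cons, List.sum_nil] at this
    rw [pw, show (ε 9 + (ε 1 + 0)) % 2 = 1 by omega, pow_one, ← wd_one b 2, ← wd_append,
      M.eq1 (u := _ ++ _) (v := [9, 1, 2]) (by decide +kernel)] at this
    have c2 : IsConj (b 2) (wd b [8, 1]) := (c.symm.trans fu).trans ((isConj_iff.2 ⟨e, this⟩).symm.trans (isConj_iff.2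
      ⟨_, M.conj (u := [8, 11, 12, 9]) (z := [8, 1]) (y := [9, 1]) (by decide +kernel)⟩).symm)
    rw [wd_cons, wd_one] at c2
    rcases S.cov _ (mul_mem (S.r.le x12) zR) c2 with k | k
    · rcases S.inf _ ((mul_mem_cancel_right z1).1 k) x12 with e | e
      · exact absurd (by simpa using e) (h.bm.ne1 (u := [8]) (v := []) (by decide +kernel))
      · exact absurd (by simpa using e) (h.bm.ne1 (u := [8]) (v := [2]) (by decide +kernel))
    · exact z2 ((mul_mem_cancel_left x12).1 k)
  have ex : ∀ k, tb 6110 k = true → e * b k * e⁻¹ = wd b (mE k) := fun k hk => by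
    rw [hε k hk, pw, show ε k % 2 = 0 by
      rcases (show ∀ g < 16, tb 6110 g = true → g = 1 ∨ g = 2 ∨ g = 3 ∨ g = 4 ∨ g = 6 ∨ g = 7 ∨ g = 8 ∨ g = 9 ∨
        g = 10 ∨ g = 12 by decide +kernel) k (lt16 (by decide) hk) hk with
        rfl | rfl | rfl | rfl | rfl | rfl | rfl | rfl | rfl | rfl <;> omega, pow_zero, mul_one]
  have s1 : sub 6110 8190 = true := by decide +kernel
  intro r hr
  rw [show Ee = ([1, 2, 3, 4, 6, 7, 8, 9, 10, 12].map fun k => [13, k, 13] ++ (mE k).reverse) ++
    [(List.replicate 3 [13, 5]).flatten] by decide +kernel, List.mem_append, List.mem_singleton] at hr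
  rcases hr with hr | rfl
  · obtain ⟨k, hk, rfl⟩ := List.mem_map.1 hr
    have k1 := (show ∀ g ∈ [1, 2, 3, 4, 6, 7, 8, 9, 10, 12], tb 6110 g = true by decide +kernel) k hk
    have i := inS_sub s1 (mi k k1)
    rw [wd_append, aw _ (inS_reverse.2 i), M.sq.rev i, ← ex k k1, ei]
    simp [a13, a k (tb_sub s1 k1), mul_assoc]
  have N2 : NA a0 b' 8224 sg1 6110 := NA.union (NA.of_chk hs0.bm.rm R' (by decide) (by decide) naK)
    (S2 := 8192) (fun g hg j hj => by
      obtain rfl := (show ∀ g < 16, tb 8192 g = true → g = 13 by decide +kernel) g (lt16 (by decide) hg) hg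
      refine ⟨mE j, mi j hj, by simpa [fm_sg1, sg1] using He.bm.rm.conj (allS_spec (by decide) (show allS 6110
        (fun j => eqW ac 32766 B [[13], [j]] [mE j, [13]]) = true by decide +kernel) hj), ?_⟩
      rw [fm_sg1, a13, aw _ (inS_sub s1 (mi j hj)), ← ex j hj, sg1, wd_one, a j (tb_sub s1 hj)])
    (by decide) (by decide +kernel)
  have q := fun j hj => N2.cm He.bm R' (by decide +kernel) (by decide) (by decide +kernel)
    (w := (List.replicate 3 [13, 5]).flatten) (by decide +kernel) (j := j) hj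
  have ω : Commute (wd b' [13, 5]) (wd b' (List.replicate 3 [13, 5]).flatten) := by
    rw [wd_pow]; exact (Commute.refl _).pow_right 3
  have v : ∀ u w, eqW ac 8190 B [[5], u] [w, [5]] = true →
      wd b' [13, 5] * wd b u * (wd b' [13, 5])⁻¹ = e * wd b w * e⁻¹ := fun u w k => by
    rw [← M.conj k]; simp [a13, a 5 rfl, mul_assoc]
  rcases h.cZ (x := wd b' (List.replicate 3 [13, 5]).flatten) (mem_cW1 (S := 6110) (fun j hj => by
    simpa only [sg1, wd_one, a j (tb_sub s1 hj)] using q j hj) (by decide +kernel)) with k | k | k | k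
  · exact k
  all_goals rw [k, ← conj_eq_iff_commute] at ω
  · rw [v _ [1] (by decide +kernel), wd_one, ez] at ω
    exact absurd (by simpa using ω) S.le.z_ne
  · rw [v _ [1, 2] (by decide +kernel), hw _ rfl, pw, show ([1, 2].map ε).sum % 2 = 0 by simp; omega] at ω
    exact absurd (by simpa using ω) (h.bm.ne1 (u := [1, 2].flatMap mE) (v := [2]) (by decide +kernel))
  · rw [v _ [2] (by decide +kernel), wd_one, es] at ω
    exact absurd (by simpa using ω) h.le.z_ne

theorem exists_e {g : G} (h1 : g * b 1 * g⁻¹ = b 2) (h2 : g⁻¹ * wd b [3, 7] * g ∈ gp b 254)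
    (h3 : IsConj (b 1) (b 7)) (n : ¬ IsConj (b 1) (wd b [3, 7])) :
    ∃ e, e * e = 1 ∧ ∀ r ∈ Ee, wd (Function.update b 13 e) r = 1 := by
  have c : IsConj (b 1) (b 2) := isConj_iff.2 ⟨g, h1⟩
  have S := (h.sd c h3 n).conj g
  rw [h1] at S
  rcases S.cov (b 1) (h.le.mem_conj (by rw [h.cardQ]; decide) (h1 ▸ mem_gp (by decide +kernel))) c.symm with k | k
  exacts [h.exE S k (mem_map_conj.2 h2) c n, h.exE S.symm k (mem_map_conj.2 h2) c n]

end HS

theorem realizeEqns_He_B : True := by
  have := @CA.PM.He.UE.eq_1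
  have := @CA.PM.He.UE.eq_def
  have := @CA.PM.He.UE.congr_simp
  have := @CA.PM.He.yK.eq_1
  have := @CA.PM.He.yK.eq_def
  have := @CA.PM.He.yK.congr_simp
  trivial

end CA.PM.He
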