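/-
The amalgam of the three parabolic subgroups.
-/
import Cfsg.Agent.He.B
import Cfsg.Agent.PM.J

set_option autoImplicit false
set_option maxRecDepth 100000

namespace CA.PM.He

open CA.TC CA.Fi Subgroup

variable {G : Type*} [Group G] {b : ℕ → G}

/-- the symmetry of the diagram -/
def sw (g : ℕ) : ℕ := [0, 1, 7, 6, 5, 4, 3, 2, 9, 8, 10, 12, 11, 14, 13].getD g g

theorem wd_sw (b : ℕ → G) (w : List ℕ) : wd (fun g => b (sw g)) w = wd b (w.map sw) := by
  simp [wd, Function.comp_def]

theorem sw_spec {g : ℕ} (hg : tb 8190 g = true) : tb 8190 (sw g) = true ∧ sw (sw g) = g :=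
  (show ∀ g < 16, tb 8190 g = true → tb 8190 (sw g) = true ∧ sw (sw g) = g by decide +kernel) g
    (lt16 (by decide) hg) hg

theorem rm_sw (R : RM b 8190 2058 ac B) : RM (fun g => b (sw g)) 8190 2058 ac B := by
  have k : ∀ E : List (List ℕ), allL (E.map (List.map sw)) (fun r => eqW ac 8190 B [r] []) = true →
      ∀ r ∈ E, wd (fun g => b (sw g)) r = 1 := fun E h r hr => by
    rw [wd_sw]; exact rels R h _ (List.mem_map_of_mem hr)
  exact (rmH (fun g hg => R.sq _ (sw_spec hg).1) (k _ (by decide +kernel)) (k _ (by decide +kernel))).1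

theorem HS.sw [Finite G] (h : HS b) : HS fun g => b (sw g) := by
  have R := rm_sw h.bm.rm
  refine HS_of ⟨⟨R.tbl, R.sq, fun w hw e => hs0.bm.cmp w hw ?_⟩, R.rel, R.lt⟩ h.card.le
  have i : inS 8190 (w.map He.sw) = true := inS_iff.2 fun g hg => by
    obtain ⟨k, hk, rfl⟩ := List.mem_map.1 hg
    exact (sw_spec (inS_iff.1 hw k hk)).1
  have := tr h.bm.toMod (rm_sw hs0.bm.rm) (sub_refl _) i (inS_nil _) (wd_sw b w ▸ e)
  rwa [wd_sw, List.map_map, List.map_congr_left (f := He.sw ∘ He.sw) (g := id) fun g hg => (sw_spec (inS_iff.1 hw g hg)).2,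
    List.map_id] at this

/-- the three minimal parabolic subgroups -/
structure PP (b : ℕ → G) : Prop where
  hs : HS b
  u : RM b 14334 2058 ac B
  f : RM b 20478 2058 ac B

theorem HS.congr {b' : ℕ → G} (h : HS b) (a : ∀ g, tb 8190 g = true → b' g = b g) : HS b' :=
  ⟨BM_congr h.bm a, by rw [gp_congr a, a 1 rfl, h.cen], by rw [a 1 rfl, h.card]⟩

theorem sq_up {S T k : ℕ} {e : G} (h : Sq b S) (he : e * e = 1) (hT : T < 65536)
    (c : allS T (fun g => bor (Nat.beq g k) (tb S g)) = true) : Sq (Function.update b k e) T := fun g hg => by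
  by_cases a : g = k
  · rw [a, Function.update_self, he]
  · rw [Function.update_of_ne a]
    exact h g ((bor_iff.1 (allS_spec hT c hg)).resolve_left fun e => a (beq_iff.1 e))

theorem up_eq {S k : ℕ} (e : G) (h : tb S k = false) : ∀ g, tb S g = true → Function.update b k e g = b g :=
  fun g hg => Function.update_of_ne (by rintro rfl; rw [hg] at h; cases h) _ _

theorem HS.pp [Finite G] (h : HS b) {g g' : G} (h1 : g * b 1 * g⁻¹ = b 2) (h2 : g⁻¹ * wd b [3, 7] * g ∈ gp b 254)
    (h3 : g' * b 1 * g'⁻¹ = b 7) (h4 : g'⁻¹ * wd b [6, 2] * g' ∈ gp b 254) (n : ¬ IsConj (b 1) (wd b [3, 7])) :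
    ∃ c : ℕ → G, (∀ g, tb 8190 g = true → c g = b g) ∧ PP c := by
  obtain ⟨e, e1, e2⟩ := h.exists_e h1 h2 (isConj_iff.2 ⟨g', h3⟩) n
  obtain ⟨f, f1, f2⟩ := h.sw.exists_e (g := g') h3 (by
    refine (show gp b 254 ≤ _ from gp_le fun k hk => ?_) h4
    have := (show ∀ g < 16, tb 254 g = true → tb 254 (He.sw g) = true ∧ He.sw (He.sw g) = g by decide +kernel) k
      (lt16 (by decide) hk) hk
    exact this.2 ▸ mem_gp (a := fun g => b (He.sw g)) this.1) (isConj_iff.2 ⟨g, h1⟩) fun c =>
      n (c.trans (isConj_iff.2 ⟨_, h.bm.rm.conj (u := [8, 11, 9, 12, 9]) (z := [6, 2]) (y := [3, 7])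
        (by decide +kernel)⟩))
  have a1 := up_eq (b := b) (S := 8190) (k := 13) e rfl
  have a2 := up_eq (b := Function.update b 13 e) (S := 16382) (k := 14) f rfl
  have a : ∀ g, tb 8190 g = true → Function.update (Function.update b 13 e) 14 f g = b g := fun g hg =>
    (a2 g (tb_sub (by decide +kernel) hg)).trans (a1 g hg)
  refine ⟨_, a, h.congr a, RM_congr (rmU (sq_up h.bm.sq e1 (by decide) (by decide +kernel)) (RM_congr h.bm.rm a1) e2)
    fun g hg => a2 g (tb_sub (by decide +kernel) hg), rmF (sq_up (RM_congr h.bm.rm a1).sq f1 (by decide)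
      (by decide +kernel)) (RM_congr h.bm.rm a) fun r hr => ?_⟩
  rw [show Ef = Ee.map (List.map He.sw) by decide +kernel] at hr
  replace hr := List.mem_map.1 hr
  obtain ⟨r, hr, rfl⟩ := hr
  rw [← wd_sw, ← f2 r hr]
  refine wd_congr (S := 14334) (fun g hg => ?_) (allL_spec (show allL Ee (inS 14334) = true by decide +kernel) r hr)
  rcases bor_iff.1 (allS_spec (by decide) (show allS 14334 (fun g => bor (Nat.beq g 13) (tb 8190 g)) = true by
    decide +kernel) hg) with k | k
  · obtain rfl := beq_iff.1 k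
    exact (Function.update_self _ _ _).trans (by rw [Function.update_self])
  · exact (a _ (sw_spec k).1).trans (up_eq (b := fun g => b (He.sw g)) (k := 13) f rfl g k).symm

theorem pp0 : PP a0 := ⟨hs0, bm.rm.mono (by decide +kernel), bm.rm.mono (by decide +kernel)⟩

namespace PP

variable [Finite G] (h : PP b)
include h

omit [Finite G] in
theorem naV : NA a0 b 30718 sg1 1478 := NA.union (NA.of_chk pp0.u h.u (by decide) (by decide) naV1)
  (NA.of_chk pp0.f h.f (by decide) (by decide) naV2) (by decide) (by decide +kernel)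

omit [Finite G] in
theorem naW : NA a0 b 28670 sg1 1678 := NA.union (NA.of_chk pp0.f h.f (by decide) (by decide) naW1)
  (NA.of_chk pp0.u h.u (by decide) (by decide) naW2) (by decide) (by decide +kernel)

omit [Finite G] in
theorem bu : BM b 14334 2058 ac B := BM_of_sc bm h.u (by decide +kernel) (h.hs.bm.toMod.mono (by decide +kernel))
  (by decide +kernel) (NA.of_chk pp0.u h.u (by decide) (by decide) naV1) hs0.scV

omit [Finite G] in
theorem bf : BM b 20478 2058 ac B := BM_of_sc bm h.f (by decide +kernel) (h.hs.bm.toMod.mono (by decide +kernel))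
  (by decide +kernel) (NA.of_chk pp0.f h.f (by decide) (by decide) naW1) hs0.scV'

theorem dich : wd b [1, 14, 2, 6] * wd b [13, 5] * (wd b [1, 14, 2, 6])⁻¹ = wd b [13, 5] ∨
    wd b [1, 14, 2, 6] * wd b [13, 5] * (wd b [1, 14, 2, 6])⁻¹ = b 10 * wd b [13, 5] := by
  obtain ⟨i, hi, e⟩ := h.hs.cV (x := wd b ([1, 14, 2, 6] ++ [13, 5] ++ [1, 14, 2, 6].reverse ++ [13, 5].reverse))
    fun j hj => by
      simpa only [sg1, wd_one] using h.naV.cm bm h.hs.bm.rm (by decide +kernel) (by decide) (by decide +kernel)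
        (w := [1, 14, 2, 6] ++ [13, 5] ++ [1, 14, 2, 6].reverse ++ [13, 5].reverse) (by decide +kernel) hj
  rw [wd_append, wd_append, wd_append, h.f.sq.rev rfl, h.u.sq.rev rfl, eq_mul_inv_iff_mul_eq] at e
  have k2 : wd b [1, 14, 2, 6] * wd b [1, 14, 2, 6] = 1 := by
    simpa using h.f.eq (u := [[1, 14, 2, 6], [1, 14, 2, 6]]) (v := []) (by decide +kernel)
  have q : ∀ p p', eqW ac 20478 B [[1, 14, 2, 6], p'] [p, [1, 14, 2, 6]] = true →
      eqW ac 14334 B [p', [13, 5]] [[13, 5].reverse, p'] = true →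
      wd b p * (wd b (eV i) * wd b [13, 5]) * (wd b p)⁻¹ * (wd b (eV i) * wd b [13, 5]) = 1 := fun p p' c1 c2 => by
    have := h.u.conj c2
    rw [h.u.sq.rev rfl] at this
    generalize wd b [13, 5] = ω at *
    rw [e, ← h.f.conj c1]
    calc _ = wd b [1, 14, 2, 6] * (wd b p' * ω * (wd b p')⁻¹ * ω) * (wd b [1, 14, 2, 6])⁻¹ := by group
      _ = 1 := by rw [this]; group
  rcases bor_iff.1 (eV_g i hi) with c | c <;> rcases bor_iff.1 c with c | c
  · left; rw [← e, leq_spec c]; simp
  · right; rw [← e, leq_spec c, wd_one]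
  · refine absurd ?_ (h.bf.ne c)
    simp only [wds_cons, wds_nil, mul_one]
    rw [← eq_mul_inv_iff_mul_eq] at e
    generalize wd b [1, 14, 2, 6] = k at *
    generalize wd b [13, 5] = ω at *
    rw [e, inv_eq_self_of_sq k2]
    calc _ = (k * k) * ω * k * ω⁻¹ * (k * k) * ω * k * ω⁻¹ := by group
      _ = ω * (k * k) * ω⁻¹ := by rw [k2, one_mul, mul_one, mul_assoc _ ω⁻¹, inv_mul_cancel, mul_one, mul_assoc ω, k2]
      _ = 1 := by rw [k2]; group
  · rcases bor_iff.1 c with c | c <;> refine absurd ?_ (h.bu.ne c) <;> simp only [wds_cons, wds_nil, mul_one]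
    · have := q [1, 5, 9] [5] (by decide +kernel) (by decide +kernel)
      rw [← h.u.sq.rev rfl] at this
      simp only [mul_assoc] at this
      exact this
    · have := q [5] [1, 5, 9] (by decide +kernel) (by decide +kernel)
      rw [← h.u.sq.rev rfl] at this
      simp only [mul_assoc] at this
      exact this

theorem adj : ∃ c : ℕ → G, (∀ g, tb 8190 g = true → c g = b g) ∧ PP c ∧ Commute (wd c [1, 14, 2, 6]) (wd c [13, 5]) := by
  rcases h.dich with e | e
  · exact ⟨b, fun _ _ => rfl, h, conj_eq_iff_commute.1 e⟩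
  have a := up_eq (b := b) (S := 16382) (k := 14) (b 1 * b 14 * (b 1)⁻¹) rfl
  have a' : ∀ g, tb 8190 g = true → _ := fun g hg => a g (tb_sub (by decide +kernel) hg)
  have z : ∀ g, tb 20478 g = true → Function.update b 14 (b 1 * b 14 * (b 1)⁻¹) g = MulAut.conj (b 1) (b g) :=
    fun g hg => by
    rcases bor_iff.1 (allS_spec (by decide) (show allS 20478 (fun g => bor (Nat.beq g 14) (tb 8190 g)) = true by
      decide +kernel) hg) with k | k
    · obtain rfl := beq_iff.1 k
      exact Function.update_self _ _ _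
    · exact (a' g k).trans (conj_eq_iff_commute.2 (mem_cent_iff.1 (h.hs.cen ▸ mem_gp k)).symm).symm
  refine ⟨_, a', ⟨h.hs.congr a', RM_congr h.u fun g hg => a g (tb_sub (by decide +kernel) hg),
    RM_congr (RM_map h.f (MulAut.conj (b 1)).toMonoidHom) z⟩, conj_eq_iff_commute.1 ?_⟩
  rw [wd_congr a (w := [13, 5]) rfl, wd_congr z (w := [1, 14, 2, 6]) rfl,
    show wd (fun g => MulAut.conj (b 1) (b g)) [1, 14, 2, 6] = b 1 * wd b [1, 14, 2, 6] * (b 1)⁻¹ from
      wd_map (MulAut.conj (b 1)).toMonoidHom b _]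
  have e1 := h.u.eq (u := [[13, 5], [1]]) (v := [[1], [2], [13, 5]]) (by decide +kernel)
  have e2 := h.f.conj (u := [1, 14, 2, 6]) (z := [2]) (y := [2, 10]) (by decide +kernel)
  have e3 := h.u.eq (u := [[1], [2, 10], [10], [13, 5]]) (v := [[13, 5], [1]]) (by decide +kernel)
  simp only [wds_cons, wds_nil, mul_one, wd_one] at e1 e2 e3
  generalize wd b [1, 14, 2, 6] = k at *
  generalize wd b [13, 5] = ω at *
  calc _ = b 1 * k * (b 1)⁻¹ * (ω * b 1) * k⁻¹ * (b 1)⁻¹ := by group
    _ = b 1 * (k * b 2 * k⁻¹ * (k * ω * k⁻¹)) * (b 1)⁻¹ := by rw [e1]; group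
    _ = _ := by rw [e2, e, e3, mul_inv_cancel_right]

omit [Finite G] h in
theorem npm {S : ℕ} (R : RM b S 2058 ac B) {u ω : List ℕ}
    (c : bor (eqW ac S B [u, ω] [ω, u]) (eqW ac S B [u, ω] [ω.reverse, u]) = true) : wd b u ∈ Npm (wd b ω) :=
  (bor_iff.1 c).imp R.conj fun c => (R.conj c).trans (R.sq.rev (eqW_inS c _ (by simp)))

omit [Finite G] h in
theorem nnpm {S : ℕ} (R : BM b S 2058 ac B) {u ω : List ℕ} (m : wd b u ∈ Npm (wd b ω))
    (c : bor (leq u []) (band (neW ac S B [u, ω] [ω, u]) (neW ac S B [u, ω] [ω.reverse, u])) = true) : wd b u = 1 := by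
  rcases bor_iff.1 c with c | c
  · rw [leq_spec c]; rfl
  rw [band_iff] at c
  rcases m with m | m
  · exact absurd (conj_eq_iff_commute.1 m) (R.ncomm c.1)
  · refine absurd ?_ (R.ne c.2)
    rw [← R.sq.rev (allL_spec (band_iff.1 (band_iff.1 c.1).2).1 ω (by simp)), mul_inv_eq_iff_eq_mul] at m
    simpa using m

theorem fV (x : G) (hx : x ∈ gp b 1478) (m : x ∈ Npm (wd b [13, 5])) : x = 1 := by
  obtain ⟨i, hi, rfl⟩ := h.hs.cV (x := x) fun j hj => comm_gp (fun g hg => by
    simpa using h.u.comm (allS_spec (by decide) (allS_spec (by decide) (show allS 1478 (fun g => allS 1478 fun j =>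
      eqW ac 14334 B [[g], [j]] [[j], [g]]) = true by decide +kernel) hg) hj)) hx
  exact nnpm h.bu m (band_iff.1 (eV_f i hi)).2

theorem fW (x : G) (hx : x ∈ gp b 1678) (m : x ∈ Npm (wd b [14, 4])) : x = 1 := by
  obtain ⟨i, hi, rfl⟩ := h.hs.cV' (x := x) fun j hj => comm_gp (fun g hg => by
    simpa using h.f.comm (allS_spec (by decide) (allS_spec (by decide) (show allS 1678 (fun g => allS 1678 fun j =>
      eqW ac 20478 B [[g], [j]] [[j], [g]]) = true by decide +kernel) hg) hj)) hx
  exact nnpm h.bf m (band_iff.1 (eW_f i hi)).2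

omit [Finite G] in
theorem sq : Sq b 32766 := fun g hg => by
  rcases bor_iff.1 (allS_spec (by decide) (show allS 32766 (fun g => bor (tb 8190 g) (bor (tb 14334 g) (tb 20478 g)))
    = true by decide +kernel) hg) with k | k
  exacts [h.hs.bm.sq g k, (bor_iff.1 k).elim (h.u.sq g) (h.f.sq g)]

theorem rmV (c : Commute (wd b [1, 14, 2, 6]) (wd b [13, 5])) : RM b 30718 2058 ac B := by
  refine RM_split bm (h.u.mono (by decide +kernel)) (by decide +kernel) (by decide +kernel)
    (h.sq.mono (by decide +kernel)) h.naV h.hs.scV pp0.fV h.fV fun g hg => ?_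
  have k := band_iff.1 (allS_spec (by decide) nV_m hg)
  refine ⟨nV g, k.1, by simpa using npm bm.rm k.2, ?_⟩
  rcases bor_iff.1 (allS_spec (by decide) (show allS 30718 (fun g => bor (Nat.beq g 14) (tb 14334 g)) = true by
    decide +kernel) hg) with e | e
  · obtain rfl := beq_iff.1 e
    rw [← wd_one b 14, ← wd_append, h.f.eq1 (u := _ ++ _) (v := [1, 14, 2, 6]) (by decide +kernel)]
    exact Npm_of_comm c
  · simpa using npm h.u (band_iff.1 (allS_spec (by decide) nV_ok e)).2

theorem rmW (R : RM b 30718 2058 ac B) : RM b 28670 2058 ac B := by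
  refine RM_split bm (h.f.mono (by decide +kernel)) (by decide +kernel) (by decide +kernel)
    (h.sq.mono (by decide +kernel)) h.naW h.hs.scV' pp0.fW h.fW fun g hg => ?_
  have k := band_iff.1 (allS_spec (by decide) nW_m hg)
  refine ⟨nW g, k.1, by simpa using npm bm.rm k.2, ?_⟩
  rcases bor_iff.1 (allS_spec (by decide) (show allS 28670 (fun g => bor (tb 8192 g) (tb 20478 g)) = true by
    decide +kernel) hg) with e | e
  · simpa using npm R (band_iff.1 (allS_spec (by decide) nW_e e)).2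
  · simpa using npm h.f (band_iff.1 (allS_spec (by decide) nW_ok e)).2

end PP

theorem realizeEqns_He_D : True := by
  have := @CA.PM.He.sw.eq_1
  have := @CA.PM.He.sw.eq_def
  have := @CA.PM.He.sw.congr_simp
  trivial

end CA.PM.He
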