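/-
Construction of the thirteenth letter, linear type.
-/
import Cfsg.Agent.He.B
import Cfsg.Agent.He.Tb5

set_option autoImplicit false
set_option maxRecDepth 100000

namespace CA.PM.He

open CA.TC CA.Fi CA.FG.Comp Subgroup

variable {G : Type*} [Group G] {b : ℕ → G}

/-- corrections -/
def yB (g : ℕ) : List ℕ := [[], [2], [], [], [], [], [8], [10], [], [], [], [], []].getD g []

/-- conjugation of a word in `Q` -/
def cqB (w u : List ℕ) : List ℕ := w.foldr (fun g u => u.flatMap (UQ g)) u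

namespace HS

variable [Finite G] (h : HS b)
include h

theorem sgW (c : IsConj (b 1) (b 2)) : Sg (b 1) (gp b 254) (gp b 30) :=
  h.sg (by decide) (by decide +kernel) (by decide +kernel) (by decide +kernel) u1_ok u1e_ok u1_f naU1 c

theorem cWW (c : IsConj (b 1) (b 2)) {x : G} (h1 : Commute x (b 1)) (h2 : Commute x (b 2)) (h3 : Commute x (b 3))
    (h4 : Commute x (b 4)) : x ∈ gp b 30 := by
  have S := h.sgW c
  have h0 : Nat.card (cW b [[1]]) = 21504 := by rw [cW_one, wd_one, h.card]
  have := h.bm.cc cq0_ok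
  have := h.bm.cc cq1_ok
  have := h.bm.cc cq2_ok
  have le : gp b 30 ≤ cW b [[4], [3], [2], [1]] := fun y hy =>
    mem_cW1 (S := 30) (fun j hj => S.comm hy (mem_gp hj)) (by decide +kernel)
  have := S.card
  rw [eq_of_le_of_card_ge le (by omega)]
  exact mem_cW.2 (by simpa using ⟨h4, h3, h2, h1⟩)

theorem enW {x : G} (hx : x ∈ gp b 30) : ∃ i < 16, inS 30 (u1 i) = true ∧ wd b (u1 i) = x :=
  cov0 (h.bm.rm.mono (T := 30) (by decide +kernel)) (by decide) (by decide) (by decide +kernel) u1_ok hx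

theorem inQR {R E1 E2 : Subgroup G} (S : Sd (b 2) R E1 E2) (z1 : b 1 ∈ E1) (d1 : wd b [3, 7] ∉ R)
    (c7 : IsConj (b 2) (b 7)) (n : ¬ IsConj (b 2) (wd b [2, 7])) {x : G} (xQ : x ∈ gp b 254) (xR : x ∈ R) :
    x ∈ [1, b 1, b 2, b 1 * b 2] ∨ b 3 ∈ R := by
  have M := h.bm.rm
  have zR := S.l.le z1
  have zs : b 1 ≠ b 2 := by simpa using h.bm.ne1 (u := [1]) (v := [2]) (by decide +kernel)
  obtain ⟨i, hi, -, rfl⟩ := h.bm.enum h.bm.ltB (by decide +kernel) eQ_ok (fun _ => mem_gp) h.cardQ.le xQ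
  rcases bor_iff.1 ((show ∀ i < 128, bor (bor (band (neW ac 8190 B [eQ i, eQ i] [])
      (eqW ac 8190 B [eQ i, eQ i] [[1]])) (neW ac 8190 B [eQ i, [2]] [[2], eQ i]))
      (bor (anyL [[], [1], [2], [1, 2]] fun t => eqW ac 8190 B [eQ i] [t])
      (anyL [[], [9], [12], [9, 12], [12, 9], [9, 12, 9]] fun s => anyL [[], [1], [2], [1, 2]] fun t =>
        anyL [[3], [7], [3, 7]] fun r => band (inS 6110 s) (band (inS 6 t)
          (eqW ac 8190 B [s, eQ i, rv s, t] [r])))) = true by decide +kernel) i hi) with e | e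
  · rcases bor_iff.1 e with e | e
    · have e2 := M.eq (band_iff.1 e).2
      simp only [wds_cons, wds_nil, mul_one, wd_one] at e2
      have := S.le.z_comm _ xR
      rcases S.le.cen _ (mul_mem xR xR) (fun y hy => by
        rw [S.le.mul_commute_iff xR xR hy]) with k | k <;> rw [e2] at k
      exacts [absurd k h.le.z_ne, absurd k zs]
    · exact absurd (wd_one b 2 ▸ (S.le.z_comm _ xR).symm) (h.bm.ncomm e)
  rcases bor_iff.1 e with e | e
  · obtain ⟨t, ht, e⟩ := anyL_spec e
    left
    rw [M.eq1 e]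
    simpa using List.mem_map_of_mem (f := wd b) ht
  obtain ⟨s, -, e⟩ := anyL_spec e
  obtain ⟨t, -, e⟩ := anyL_spec e
  obtain ⟨r, hr, e⟩ := anyL_spec e
  rw [band_iff, band_iff] at e
  have m : wd b r ∈ R := by
    have e2 := M.eq e.2.2
    simp only [wds_cons, wds_nil, mul_one] at e2
    rw [← e2, rv_eq, M.sq.rev (inS_sub (by decide +kernel) e.1), ← mul_assoc, ← mul_assoc]
    refine mul_mem (S.le.norm _ (h.cs e.1) _ xR) (wd_mem (fun g hg => ?_) e.2.1)
    rcases (show ∀ g < 16, tb 6 g = true → g = 1 ∨ g = 2 by decide +kernel) g (lt16 (by decide) hg) hg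
      with rfl | rfl
    exacts [zR, S.le.z_mem]
  simp only [List.mem_cons, List.not_mem_nil, or_false] at hr
  rcases hr with rfl | rfl | rfl
  · exact Or.inr (by simpa using m)
  · rw [wd_one] at m
    have k : ∀ E, Sg (b 2) R E → b 7 ∉ E := fun E s m => n (by
      simpa using s.cj _ (mul_mem s.mem m) (by simpa using h.bm.ne1 (u := [2, 7]) (v := []) (by decide +kernel)))
    exact ((S.cov _ m c7).elim (k _ S.l) (k _ S.r)).elim
  · exact absurd m d1

theorem b3R {R E1 E2 : Subgroup G} (S : Sd (b 2) R E1 E2) (z1 : b 1 ∈ E1) (d1 : wd b [3, 7] ∉ R)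
    (c : IsConj (b 1) (b 2)) (c7 : IsConj (b 2) (b 7)) (n : ¬ IsConj (b 2) (wd b [2, 7])) : b 3 ∈ R := by
  classical
  have M := h.bm.rm
  have zR := S.l.le z1
  by_contra hn
  have I : ∀ x ∈ gp b 254, x ∈ R → x ∈ [1, b 1, b 2, b 1 * b 2] := fun x a a' =>
    (h.inQR S z1 d1 c7 n a a').resolve_right hn
  have e1 := card_eq_range (D := R) (K := centralizer {b 1}) (fun x => Commute x (b 1)) fun x hx y hy => by
    rw [mem_cent_iff, S.le.mul_commute_iff hx (inv_mem hy) zR, Commute.inv_left_iff, eq_iff_iff]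
  have e2 : ((fun x => Commute x (b 1)) '' R).ncard ≤ [True, False].length :=
    ncard_le_length fun p _ => by by_cases p <;> simp [*]
  have e3 := card_eq_range (D := R ⊓ centralizer {b 1}) (K := centralizer {b 3} ⊓ centralizer {b 4})
    (fun x => (x⁻¹ * b 3 * x, x⁻¹ * b 4 * x)) fun x _ y _ => by
      have k : ∀ t, x⁻¹ * t * x = y⁻¹ * t * y ↔ Commute (x * y⁻¹) t := fun t => by
        rw [← conj_eq_iff_commute]
        constructor
        · intro e
          calc _ = x * (y⁻¹ * t * y) * x⁻¹ := by group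
            _ = t := by rw [← e]; group
        · intro e
          calc _ = x⁻¹ * (x * y⁻¹ * t * (x * y⁻¹)⁻¹) * x := by rw [e]
            _ = _ := by group
      rw [Prod.mk.injEq, k, k, mem_inf, mem_cent_iff, mem_cent_iff]
  have e4 : Nat.card (R ⊓ centralizer {b 1} ⊓ (centralizer {b 3} ⊓ centralizer {b 4}) : Subgroup G) ≤
      [1, b 1, b 2, b 1 * b 2].length := ncard_le_length fun x hx =>
    I x (gp_mono (by decide +kernel) (h.cWW c (mem_cent_iff.1 hx.1.2) (S.le.z_comm x hx.1.1).symm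
      (mem_cent_iff.1 hx.2.1) (mem_cent_iff.1 hx.2.2))) hx.1.1
  let N : List G := [1, b 1, b 2, b 1 * b 2]
  let L : List (G × G) := ([1, b 2, b 1 * b 2].flatMap fun p => N.map fun q => (p * b 3, q * b 4)) ++
    [b 1, b 2, b 1 * b 2].map fun q => (b 1 * b 3, q * b 4)
  have e5 : ((fun x => (x⁻¹ * b 3 * x, x⁻¹ * b 4 * x)) '' (R ⊓ centralizer {b 1} : Subgroup G)).ncard ≤ L.length := by
    refine ncard_le_length ?_
    rintro _ ⟨x, hx, rfl⟩
    have x1 := mem_cent_iff.1 hx.2
    have k : ∀ j, tb 24 j = true → ∃ p ∈ N, x⁻¹ * b j * x = p * b j := fun j hj => by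
      have j1 : tb 254 j = true := tb_sub (by decide +kernel) hj
      refine ⟨x⁻¹ * b j * x * (b j)⁻¹, I _ (mul_mem (by
        simpa using h.le.norm _ x1.inv_left _ (mem_gp j1)) (inv_mem (mem_gp j1))) ?_, by group⟩
      have := R.mul_mem (R.inv_mem hx.1) (S.le.norm (b j) (wd_one b j ▸ h.cs (inS_one (tb_sub (by decide +kernel) hj))) _ hx.1)
      simpa [mul_assoc] using this
    obtain ⟨p, p1, p2⟩ := k 3 rfl
    obtain ⟨q, q1, q2⟩ := k 4 rfl
    have ne : ¬ (p = b 1 ∧ q = 1) := by
      rintro ⟨rfl, rfl⟩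
      have a3 := M.conj (u := [6]) (z := [3]) (y := [1, 3]) (by decide +kernel)
      have a : ∀ j, eqW ac 8190 B [[6], [j]] [[j], [6]] = true → Commute (b 6) (b j) := fun j e => by
        simpa using M.comm e
      simp only [wd_cons, wd_nil, mul_one] at a3
      have m := h.cWW c (x := x * b 6) (x1.mul_left (a 1 (by decide +kernel)))
        ((S.le.z_comm x hx.1).symm.mul_left (a 2 (by decide +kernel))) (conj_eq_iff_commute.1 (by
          calc _ = x * (b 6 * b 3 * (b 6)⁻¹) * x⁻¹ := by group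
            _ = _ := by rw [a3, ← p2]; group)) ((conj_eq_iff_commute.1 (by
              calc _ = x * (1 * b 4) * x⁻¹ := by rw [one_mul]
                _ = _ := by rw [← q2]; group)).mul_left (a 4 (by decide +kernel)))
      have xQ : x ∈ gp b 254 := (mul_mem_cancel_right (mem_gp (by decide +kernel))).1 (gp_mono (by decide +kernel) m)
      have c3 : Commute x (b 3) := by
        have a : ∀ j, eqW ac 8190 B [[j], [3]] [[3], [j]] = true → Commute (b j) (b 3) := fun j e => by
          simpa using M.comm e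
        have := I x xQ hx.1
        simp only [List.mem_cons, List.not_mem_nil, or_false] at this
        rcases this with e | e | e | e <;> rw [e]
        exacts [Commute.one_left _, a 1 (by decide +kernel), a 2 (by decide +kernel),
          (a 1 (by decide +kernel)).mul_left (a 2 (by decide +kernel))]
      rw [c3.inv_left.eq, inv_mul_cancel_right, eq_comm, mul_eq_right] at p2
      exact h.le.z_ne p2
    simp only [p2, q2, L, List.mem_append, List.mem_flatMap, List.mem_map]
    by_cases hp : p = b 1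
    · refine Or.inr ⟨q, ?_, by rw [hp]⟩
      rcases List.mem_cons.1 q1 with e | e
      exacts [absurd ⟨hp, e⟩ ne, e]
    · refine Or.inl ⟨p, ?_, q, q1, rfl⟩
      simp only [N, List.mem_cons, List.not_mem_nil, or_false] at p1 ⊢
      tauto
  have e6 : L.length = 15 := by simp [L, N]
  have e7 := S.card
  simp only [List.length_cons, List.length_nil] at e2 e4
  have := Nat.mul_le_mul e5 e4
  have := Nat.mul_le_mul_right (Nat.card (R ⊓ centralizer {b 1} : Subgroup G)) e2
  omega

theorem exB {R E1 E2 : Subgroup G} (S : Sd (b 2) R E1 E2) (z1 : b 1 ∈ E1) (d1 : wd b [3, 7] ∉ R)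
    (c : IsConj (b 1) (b 2)) (c7 : IsConj (b 1) (b 7)) (n : ¬ IsConj (b 1) (wd b [3, 7])) :
    ∃ e, e * e = 1 ∧ ∀ r ∈ EB, wd (Function.update b 13 e) r = 1 := by
  have M := h.bm.rm
  have zs : b 1 ≠ b 2 := by simpa using h.bm.ne1 (u := [1]) (v := [2]) (by decide +kernel)
  have zR := S.l.le z1
  have sR := S.le.z_mem
  have s2 := S.le.z_sq
  have z2 : b 1 ∉ E2 := fun k => (S.inf _ z1 k).elim h.le.z_ne zs
  have z2' : b 1 * b 2 ∉ E2 := fun k => z2 (by simpa [mul_assoc, s2] using mul_mem k S.r.mem)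
  have r3 := h.b3R S z1 d1 c (c.symm.trans c7) fun k => n (c.trans (k.trans (isConj_iff.2
    ⟨_, M.conj (u := [8, 11]) (z := [2, 7]) (y := [3, 7]) (by decide +kernel)⟩)))
  have x3 : b 3 ∈ E1 := by
    have k : ∀ u y, eqW ac 8190 B [u, [2]] [y, u] = true → IsConj (b 2) (wd b y) := fun u y e =>
      isConj_iff.2 ⟨_, by simpa using M.conj e⟩
    rcases S.cov _ r3 (by simpa using k [8, 11] [3] (by decide +kernel)) with a | a
    · exact a
    rcases S.cov _ (mul_mem zR r3) (by simpa using k [6, 8, 11] [1, 3] (by decide +kernel)) with a' | a'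
    · exact (mul_mem_cancel_left z1).1 a'
    · exact absurd ((mul_mem_cancel_right a).1 a') z2
  have x4 : b 4 ∈ E1 := by
    have := S.l.norm _ (h.cs (w := [12]) rfl) _ x3
    have e := M.conj (u := [12]) (z := [3]) (y := [3, 4]) (by decide +kernel)
    simp only [wd_cons, wd_nil, mul_one] at this e
    exact (mul_mem_cancel_left x3).1 (e ▸ this)
  have WE : gp b 30 ≤ E1 := gp_le fun g hg => by
    rcases (show ∀ g < 16, tb 30 g = true → g = 1 ∨ g = 2 ∨ g = 3 ∨ g = 4 by decide +kernel) g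
      (lt16 (by decide) hg) hg with rfl | rfl | rfl | rfl
    exacts [z1, S.l.mem, x3, x4]
  have k2 : ∀ x ∈ E2, (∀ i, Commute x (![b 1, b 3, b 4] i)) → x ∈ [1, b 2] := fun x hx k => by
    simpa using S.inf x (WE (h.cWW c (k 0) (S.r.comm hx S.r.mem) (k 1) (k 2))) hx
  have p2 := pattern S.le.toES S.r.le _ (by intro i; fin_cases i; exacts [zR, r3, S.l.le x4]) k2
    (lt_of_lt_of_le (by simp) S.r.card)
  have cj : ∀ {x}, x ∈ E2 → ∀ w, inS 6110 w = true → wd b w * x * wd b (rv w) ∈ E2 := fun hx w hw => by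
    rw [rv_eq, M.sq.rev (inS_sub (by decide +kernel) hw)]
    exact S.r.norm _ (h.cs hw) _ hx
  have x12 : b 8 ∈ E2 := by
    obtain ⟨y, hy, k⟩ := p2 ![True, False, True]
    have a : ∀ j, eqW ac 8190 B [[8], [j]] [[j], [8]] = true → Commute (b 8) (b j) := fun j e => by
      simpa using M.comm e
    obtain ⟨i, hi, -, e⟩ := h.enW (h.cWW c (x := b 8 * y) ((a 1 (by decide +kernel)).mul_left ((k 0).2 trivial))
      ((a 2 (by decide +kernel)).mul_left (S.r.comm hy S.r.mem)) (conj_eq_iff_commute.1 (by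
        calc _ = b 8 * (y * b 3 * y⁻¹) * (b 8)⁻¹ := by group
          _ = _ := by
            rw [S.le.conj_eq (S.r.le hy) r3 (k 1).1]
            simpa [mul_assoc] using M.conj (u := [8]) (z := [3, 2]) (y := [3]) (by decide +kernel)))
      ((a 4 (by decide +kernel)).mul_left ((k 2).2 trivial)))
    obtain rfl : y = wd b (8 :: u1 i) := by rw [wd_cons, e, ← mul_assoc, M.sq 8 (by decide +kernel), one_mul]
    have nz : ∀ t ∈ [[1], [1, 2]], wd b t ∉ E2 := fun t ht m => by
      simp only [List.mem_cons, List.not_mem_nil, or_false] at ht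
      rcases ht with rfl | rfl
      exacts [absurd (by simpa using m) z2, absurd (by simpa using m) z2']
    rcases bor_iff.1 ((show ∀ i < 16, bor (bor (neW ac 8190 B [8 :: u1 i, 8 :: u1 i] [])
      (bor (eqW ac 8190 B [u1 i] [[]]) (eqW ac 8190 B [u1 i] [[2]]))) (anyL [[1], [1, 2]] fun t => bor
        (eqW ac 8190 B [[9], 8 :: u1 i, rv [9], [12, 9], 8 :: u1 i, rv [12, 9], 8 :: u1 i] [t])
        (eqW ac 8190 B [[7], 8 :: u1 i, rv [7], 8 :: u1 i] [t])) = true by decide +kernel) i hi) with e | e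
    · rcases bor_iff.1 e with e | e
      · exact absurd (by simpa using S.r.sq _ hy) (h.bm.ne e)
      rcases bor_iff.1 e with e | e <;> rw [wd_cons, M.eq1 e] at hy
      · simpa using hy
      · simpa [mul_assoc, s2] using mul_mem hy S.r.mem
    · obtain ⟨t, ht, e⟩ := anyL_spec e
      refine absurd ?_ (nz t ht)
      rcases bor_iff.1 e with e | e <;> have e2 := M.eq e
      · have := mul_mem (cj hy [9] rfl) (mul_mem (cj hy [12, 9] rfl) hy)
        simp only [wds_cons, wds_nil, mul_one, mul_assoc] at e2 this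
        exact e2 ▸ this
      · have := mul_mem (cj hy [7] rfl) hy
        simp only [wds_cons, wds_nil, mul_one, mul_assoc] at e2 this
        exact e2 ▸ this
  have x13 : b 10 ∈ E2 := by
    have := cj x12 [12, 9] rfl
    have e2 := M.eq (u := [[12, 9], [8], rv [12, 9]]) (v := [[10]]) (by decide +kernel)
    simp only [wds_cons, wds_nil, mul_one, mul_assoc, wd_one] at e2 this
    exact e2 ▸ this
  obtain ⟨e, eE, ke⟩ := p2 ![False, True, True]
  have e2 := S.r.sq e eE
  have ei := inv_eq_self_of_sq e2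
  refine ⟨e, e2, ?_⟩
  set b' := Function.update b 13 e
  have a : ∀ g, tb 8190 g = true → b' g = b g := fun g hg => Function.update_of_ne (by rintro rfl; cases hg) _ _
  have a13 : b' 13 = e := Function.update_self _ _ _
  have aw : ∀ w, inS 8190 w = true → wd b' w = wd b w := fun _ hw => wd_congr a hw
  have ez := S.le.conj_eq (S.r.le eE) zR (ke 0).1
  have es := conj_eq_iff_commute.2 (S.r.comm eE S.r.mem)
  have e3 : e * b 3 * e⁻¹ = b 3 := conj_eq_iff_commute.2 ((ke 1).2 trivial)
  have e4 : e * b 4 * e⁻¹ = b 4 := conj_eq_iff_commute.2 ((ke 2).2 trivial)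
  have eW : ∀ u, inS 30 u = true → e * wd b u * e⁻¹ = wd b (u.flatMap mB) := fun u hu => by
    induction u with
    | nil => simp
    | cons j u ih =>
      rw [inS_cons] at hu
      rw [wd_cons, show e * (b j * wd b u) * e⁻¹ = e * b j * e⁻¹ * (e * wd b u * e⁻¹) by group, ih hu.2,
        List.flatMap_cons, wd_append]
      congr 1
      rcases (show ∀ g < 16, tb 30 g = true → g = 1 ∨ g = 2 ∨ g = 3 ∨ g = 4 by decide +kernel) j
        (lt16 (by decide) hu.1) hu.1 with rfl | rfl | rfl | rfl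
      exacts [by simpa [mB] using ez, by simpa [mB] using es, by simpa [mB] using e3, by simpa [mB] using e4]
  have s1 : sub 6110 8190 = true := by decide +kernel
  have mi : ∀ k, tb 6110 k = true → inS 6110 (mB k) = true := fun _ =>
    allS_spec (by decide) (show allS 6110 (fun k => inS 6110 (mB k)) = true by decide +kernel)
  have hε : ∀ k, ∃ ε : ℕ, tb 6110 k = true → e * b k * e⁻¹ = wd b (mB k) * b 2 ^ ε := fun k => by
    by_cases hk : tb 6110 k = true
    swap
    · exact ⟨0, fun c => absurd c hk⟩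
    have p := allS_spec (by decide) (show allS 6110 (fun k => band (band (inS 1284 (yB k))
      (eqW ac 8190 B [[k]] [yB k, mB k])) (allS 30 fun j => band (band (inS 30 (cqB (mB k).reverse [j]))
        (inS 30 (cqB [k] ((cqB (mB k).reverse [j]).flatMap mB)))) (band
        (eqW ac 8190 B [(mB k).reverse, [j]] [cqB (mB k).reverse [j], (mB k).reverse])
        (band (eqW ac 8190 B [[k], (cqB (mB k).reverse [j]).flatMap mB]
          [cqB [k] ((cqB (mB k).reverse [j]).flatMap mB), [k]])
          (eqW ac 8190 B [(cqB [k] ((cqB (mB k).reverse [j]).flatMap mB)).flatMap mB] [[j]]))))) = true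
      by decide +kernel) hk
    rw [band_iff, band_iff] at p
    have i := inS_sub s1 (mi k hk)
    have q : ∀ j, tb 30 j = true → Commute (e * b k * e⁻¹ * (wd b (mB k))⁻¹) (b j) := fun j hj => by
      have r := allS_spec (by decide) p.2 hj
      rw [band_iff, band_iff, band_iff, band_iff] at r
      have r1 := M.conj r.2.1
      have r2 := M.conj r.2.2.1
      rw [M.sq.rev i, wd_one] at r1
      rw [wd_one, ← eW _ r.1.1, ← r1] at r2
      have r3 := eW _ r.1.2
      rw [M.eq1 r.2.2.2, wd_one, ← r2] at r3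
      refine conj_eq_iff_commute.1 (Eq.trans ?_ r3)
      rw [ei]; simp only [mul_inv_rev, ei, inv_inv, mul_assoc]
    have m : e * b k * e⁻¹ * (wd b (mB k))⁻¹ ∈ E2 := by
      have e3 := M.eq p.1.2
      simp only [wds_cons, wds_nil, mul_one, wd_one] at e3
      have := mul_mem (mul_mem eE (S.r.norm _ (wd_one b k ▸ h.cs (inS_one hk)) _ (inv_mem eE))) (wd_mem (fun g hg => by
        rcases (show ∀ g < 16, tb 1284 g = true → g = 2 ∨ g = 8 ∨ g = 10 by decide +kernel) g
          (lt16 (by decide) hg) hg with rfl | rfl | rfl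
        exacts [S.r.mem, x12, x13]) p.1.1)
      convert this using 1
      rw [← mul_inv_eq_iff_eq_mul.2 e3]; group
    have := k2 _ m fun i => by
      fin_cases i
      exacts [q 1 rfl, q 3 rfl, q 4 rfl]
    simp only [List.mem_cons, List.not_mem_nil, or_false] at this
    exact this.elim (fun e => ⟨0, fun _ => by rw [mul_inv_eq_iff_eq_mul.1 e]; simp⟩) fun e =>
      ⟨1, fun _ => by rw [mul_inv_eq_iff_eq_mul.1 e, pow_one, (h.cs (mi k hk)).eq]⟩
  choose ε hε using hε
  have hw : ∀ w, inS 6110 w = true → e * wd b w * e⁻¹ = wd b (w.flatMap mB) * b 2 ^ (w.map ε).sum := fun w hw => by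
    induction w with
    | nil => simp
    | cons k w ih =>
      rw [inS_cons] at hw
      rw [wd_cons, show e * (b k * wd b w) * e⁻¹ = e * b k * e⁻¹ * (e * wd b w * e⁻¹) by group, ih hw.2, hε k hw.1,
        List.flatMap_cons, wd_append, List.map_cons, List.sum_cons, pow_add, mul_assoc, ← mul_assoc (b 2 ^ _),
        ← ((h.cs (inS_flatMap mi hw.2)).pow_right _).eq]
      simp only [mul_assoc]
  have ev : ∀ u v, e * wd b u * e⁻¹ = wd b v → band (inS 6110 u) (eqW ac 8190 B [u.flatMap mB] [v]) = true →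
      2 ∣ (u.map ε).sum := fun u v k c => by
    rw [hw u (band_iff.1 c).1, M.eq1 (band_iff.1 c).2, mul_eq_left] at k
    exact S.le.orderOf_z ▸ orderOf_dvd_of_pow_eq_one k
  have t : ∀ u, eqW ac 8190 B [u] [] = true → e * wd b u * e⁻¹ = wd b [] := fun u k => by simp [M.one k]
  have p1 := ev [1] [1, 2] (by simpa using ez) (by decide +kernel)
  have p2 := ev [2] [2] (by simpa using es) (by decide +kernel)
  have p3 := ev [8] [8] (by simpa using conj_eq_iff_commute.2 (S.r.comm eE x12)) (by decide +kernel)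
  have p4 := ev [10] [10] (by simpa using conj_eq_iff_commute.2 (S.r.comm eE x13)) (by decide +kernel)
  have p5 := ev [3] [3] (by simpa using e3) (by decide +kernel)
  have p6 := ev [4] [4] (by simpa using e4) (by decide +kernel)
  have p7 := ev [12, 7, 12, 7, 6] [] (t _ (by decide +kernel)) (by decide +kernel)
  have p8 := ev [9, 6, 9, 6, 7] [] (t _ (by decide +kernel)) (by decide +kernel)
  have p9 := ev [9, 12, 9, 12, 9, 12] [] (t _ (by decide +kernel)) (by decide +kernel)
  have pw : ∀ n, b 2 ^ n = b 2 ^ (n % 2) := fun n => pow_eq_pow_mod n ((pow_two _).trans s2)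
  simp only [List.map_cons, List.map_nil, List.sum_cons, List.sum_nil] at p1 p2 p3 p4 p5 p6 p7 p8 p9
  have p10 : 2 ∣ ε 9 := by
    by_contra k
    have q1 := hw [9] rfl
    have q2 := hw [3, 7, 10] rfl
    simp only [List.map_cons, List.map_nil, List.sum_cons, List.sum_nil] at q1 q2
    rw [pw, show (ε 9 + 0) % 2 = 1 by omega, pow_one, ← wd_one b 2, ← wd_append,
      M.eq1 (u := _ ++ _) (v := [9, 2]) (by decide +kernel)] at q1
    rw [pw, show (ε 3 + (ε 7 + (ε 10 + 0))) % 2 = 0 by omega, pow_zero, mul_one,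
      M.eq1 (u := List.flatMap _ _) (v := [3, 7]) (by decide +kernel)] at q2
    have c8 : IsConj (b 2) (wd b [8]) := by
      simpa using S.r.cj _ x12 (by simpa using h.bm.ne1 (u := [8]) (v := []) (by decide +kernel))
    exact n (c.trans (c8.trans ((isConj_iff.2 ⟨_, M.conj (u := [8, 11, 12, 9]) (z := [8]) (y := [9])
      (by decide +kernel)⟩).trans ((isConj_iff.2 ⟨e, q1⟩).trans ((isConj_iff.2 ⟨_, M.conj (u := [4, 5, 11, 8])
        (z := [9, 2]) (y := [3, 7, 10]) (by decide +kernel)⟩).trans (isConj_iff.2 ⟨e, q2⟩))))))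
  have ex : ∀ k, tb 6110 k = true → e * b k * e⁻¹ = wd b (mB k) := fun k hk => by
    rw [hε k hk, pw, show ε k % 2 = 0 by
      rcases (show ∀ g < 16, tb 6110 g = true → g = 1 ∨ g = 2 ∨ g = 3 ∨ g = 4 ∨ g = 6 ∨ g = 7 ∨ g = 8 ∨ g = 9 ∨
        g = 10 ∨ g = 12 by decide +kernel) k (lt16 (by decide) hk) hk with
        rfl | rfl | rfl | rfl | rfl | rfl | rfl | rfl | rfl | rfl <;> omega, pow_zero, mul_one]
  intro r hr
  rw [show EB = ([1, 2, 3, 4, 6, 7, 8, 9, 10, 12].map fun k => [13, k, 13] ++ (mB k).reverse) ++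
    [(List.replicate 3 [13, 5]).flatten] by decide +kernel, List.mem_append, List.mem_singleton] at hr
  rcases hr with hr | rfl
  · obtain ⟨k, hk, rfl⟩ := List.mem_map.1 hr
    have k1 := (show ∀ g ∈ [1, 2, 3, 4, 6, 7, 8, 9, 10, 12], tb 6110 g = true by decide +kernel) k hk
    have i := inS_sub s1 (mi k k1)
    rw [wd_append, aw _ (inS_reverse.2 i), M.sq.rev i, ← ex k k1, ei]
    simp [a13, a k (tb_sub s1 k1), mul_assoc]
  have exw : ∀ w, inS 6110 w = true → e * wd b w * e⁻¹ = wd b (w.flatMap mB) := fun w hw => by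
    induction w with
    | nil => simp
    | cons k w ih =>
      rw [inS_cons] at hw
      rw [wd_cons, show e * (b k * wd b w) * e⁻¹ = e * b k * e⁻¹ * (e * wd b w * e⁻¹) by group, ih hw.2, ex k hw.1,
        List.flatMap_cons, wd_append]
  have v : ∀ u w, band (inS 6110 w) (eqW ac 8190 B [[5], u] [w, [5]]) = true →
      wd b' [13, 5] * wd b u * (wd b' [13, 5])⁻¹ = wd b (w.flatMap mB) := fun u w k => by
    rw [← exw _ (band_iff.1 k).1, ← M.conj (band_iff.1 k).2]; simp [a13, a 5 rfl, mul_assoc]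
  have ω : Commute (wd b' [13, 5]) (wd b' (List.replicate 3 [13, 5]).flatten) := by
    rw [wd_pow]; exact (Commute.refl _).pow_right 3
  have q : ∀ j, tb 222 j = true → Commute (wd b' (List.replicate 3 [13, 5]).flatten) (b j) := fun j hj => by
    have r := allS_spec (by decide) (show allS 222 (fun j => band (band
      (band (inS 6110 (UK 5 j)) (eqW ac 8190 B [[5], [j]] [UK 5 j, [5]]))
      (band (inS 6110 (((UK 5 j).flatMap mB).flatMap (UK 5)))
        (eqW ac 8190 B [[5], (UK 5 j).flatMap mB] [((UK 5 j).flatMap mB).flatMap (UK 5), [5]]))) (band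
      (band (inS 6110 (((((UK 5 j).flatMap mB).flatMap (UK 5)).flatMap mB).flatMap (UK 5)))
        (eqW ac 8190 B [[5], (((UK 5 j).flatMap mB).flatMap (UK 5)).flatMap mB]
          [((((UK 5 j).flatMap mB).flatMap (UK 5)).flatMap mB).flatMap (UK 5), [5]]))
      (eqW ac 8190 B [(((((UK 5 j).flatMap mB).flatMap (UK 5)).flatMap mB).flatMap (UK 5)).flatMap mB] [[j]]))) = true
        by decide +kernel) hj
    have r1 := v _ _ (band_iff.1 (band_iff.1 r).1).1
    have r2 := v _ _ (band_iff.1 (band_iff.1 r).1).2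
    have r3 := v _ _ (band_iff.1 (band_iff.1 r).2).1
    rw [M.eq1 (band_iff.1 (band_iff.1 r).2).2, ← r2, ← r1, wd_one] at r3
    rw [wd_pow]
    refine conj_eq_iff_commute.1 (Eq.trans ?_ r3)
    simp only [pow_succ, pow_zero, one_mul, mul_inv_rev, mul_assoc]
  rcases h.cZ (x := wd b' (List.replicate 3 [13, 5]).flatten) (mem_cW1 (S := 222) q (by decide +kernel))
    with k | k | k | k
  · exact k
  all_goals rw [k, ← conj_eq_iff_commute] at ω
  · rw [v _ [1] (by decide +kernel)] at ω
    exact absurd ω (h.bm.ne1 (by decide +kernel))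
  · rw [v _ [1, 2] (by decide +kernel)] at ω
    exact absurd ω (h.bm.ne1 (by decide +kernel))
  · rw [v _ [2] (by decide +kernel)] at ω
    exact absurd ω (h.bm.ne1 (by decide +kernel))

theorem exists_eB {g : G} (h1 : g * b 1 * g⁻¹ = b 2) (h2 : g⁻¹ * wd b [3, 7] * g ∉ gp b 254)
    (h3 : IsConj (b 1) (b 7)) (n : ¬ IsConj (b 1) (wd b [3, 7])) :
    ∃ e, e * e = 1 ∧ ∀ r ∈ EB, wd (Function.update b 13 e) r = 1 := by
  have c : IsConj (b 1) (b 2) := isConj_iff.2 ⟨g, h1⟩
  have S := (h.sd c h3 n).conj g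
  rw [h1] at S
  rcases S.cov (b 1) (h.le.mem_conj (by rw [h.cardQ]; decide) (h1 ▸ mem_gp (by decide +kernel))) c.symm with k | k
  exacts [h.exB S k (fun m => h2 (mem_map_conj.1 m)) c h3 n, h.exB S.symm k (fun m => h2 (mem_map_conj.1 m)) c h3 n]

end HS

theorem realizeEqns_He_EB : True := by
  have := @CA.PM.He.yB.eq_1
  have := @CA.PM.He.yB.eq_def
  have := @CA.PM.He.yB.congr_simp
  have := @CA.PM.He.cqB.eq_1
  have := @CA.PM.He.cqB.eq_def
  have := @CA.PM.He.cqB.congr_simp
  trivial

end CA.PM.He
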