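/-
The amalgam of the three parabolic subgroups in an arbitrary model.
-/
import Cfsg.Agent.He.D
import Cfsg.Agent.He.EB

set_option autoImplicit false
set_option maxRecDepth 100000

namespace CA.PM.He

open CA.TC CA.Fi Subgroup

/-- the data of a model -/
structure DD where
  n : ℕ
  act : ℕ → ℕ → ℕ
  Bs : List ℕ
  UV : ℕ → ℕ → List ℕ
  UW : ℕ → ℕ → List ℕ
  nV : ℕ → List ℕ
  nW : ℕ → List ℕ
  k : List ℕ
  p : List ℕ
  p' : List ℕ

/-- normalizes the cyclic group generated by `ω` -/
noncomputable def npC (act : ℕ → ℕ → ℕ) (S : ℕ) (Bs u ω : List ℕ) : Bool :=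
  bor (eqW act S Bs [u, ω] [ω, u]) (eqW act S Bs [u, ω] [ω.reverse, u])

/-- the checks -/
structure DK (D : DD) : Prop where
  v1 : naChk D.act D.Bs 14334 14334 sg1 1478 D.UV = true
  v2 : naChk D.act D.Bs 20478 16384 sg1 1478 D.UV = true
  w1 : naChk D.act D.Bs 20478 20478 sg1 1678 D.UW = true
  w2 : naChk D.act D.Bs 14334 8192 sg1 1678 D.UW = true
  vf : ∀ i < 64, bor (leq (eV i) []) (band (neW D.act 14334 D.Bs [eV i, [13, 5]] [[13, 5], eV i])
    (neW D.act 14334 D.Bs [eV i, [13, 5]] [[13, 5].reverse, eV i])) = true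
  wf : ∀ i < 64, bor (leq (eW i) []) (band (neW D.act 20478 D.Bs [eW i, [14, 4]] [[14, 4], eW i])
    (neW D.act 20478 D.Bs [eW i, [14, 4]] [[14, 4].reverse, eW i])) = true
  vg : ∀ i < 64, bor (bor (leq (eV i) []) (leq (eV i) [10])) (bor (neW D.act 20478 D.Bs [D.k, eV i, D.k, eV i] [])
    (bor (neW D.act 14334 D.Bs [D.p, eV i, [13, 5], D.p.reverse, eV i, [13, 5]] [])
      (neW D.act 14334 D.Bs [[5], eV i, [13, 5], [5].reverse, eV i, [13, 5]] []))) = true
  vo : allS 14334 (fun g => npC D.act 14334 D.Bs (D.nV g ++ [g]) [13, 5]) = true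
  vm : allS 30718 (fun g => band (inS 1478 (D.nV g)) (npC D.act 32766 D.Bs (D.nV g ++ [g]) [13, 5])) = true
  wo : allS 20478 (fun g => npC D.act 20478 D.Bs (D.nW g ++ [g]) [14, 4]) = true
  we : allS 8192 (fun g => npC D.act 30718 D.Bs (D.nW g ++ [g]) [14, 4]) = true
  wm : allS 28670 (fun g => band (inS 1678 (D.nW g)) (npC D.act 32766 D.Bs (D.nW g ++ [g]) [14, 4])) = true
  cm : cmChk D.act D.Bs 32766 30718 sg1 1478 (D.k ++ [13, 5] ++ D.k.reverse ++ [13, 5].reverse) = true
  ki : inS 20478 D.k = true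
  pi : inS 14334 D.p = true
  kk : eqW D.act 20478 D.Bs [D.k, D.k] [] = true
  q1 : eqW D.act 20478 D.Bs [D.k, D.p'] [D.p, D.k] = true
  q2 : eqW D.act 14334 D.Bs [D.p', [13, 5]] [[13, 5].reverse, D.p'] = true
  q3 : eqW D.act 20478 D.Bs [D.k, [5]] [[5], D.k] = true
  q4 : eqW D.act 14334 D.Bs [[5], [13, 5]] [[13, 5].reverse, [5]] = true
  e1 : eqW D.act 14334 D.Bs [[13, 5], [1]] [[1], [2], [13, 5]] = true
  e2 : eqW D.act 20478 D.Bs [D.k, [2]] [[2, 10], D.k] = true
  e3 : eqW D.act 14334 D.Bs [[1], [2, 10], [10], [13, 5]] [[13, 5], [1]] = true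
  kn : eqW D.act 20478 D.Bs [D.nV 14 ++ [14]] [D.k] = true

variable {G X : Type*} [Group G] [Group X] {b : ℕ → G} {a : ℕ → X} {D : DD}

theorem HS.bm' {n : ℕ} {act : ℕ → ℕ → ℕ} {Bs : List ℕ} (h : HS b) (M : BM a 32766 n act Bs) (ha : HS a) :
    BM b 8190 n act Bs := by
  have M' := BM_mono M (T := 8190) (by decide +kernel)
  exact ⟨⟨M'.toTb, h.bm.sq, fun w hw e => M'.cmp w hw (by
    simpa using tr h.bm.toMod ha.bm.rm (sub_refl _) hw (inS_nil _) e)⟩,
    fun w hw e => by simpa using tr ha.bm.toMod h.bm.rm (sub_refl _) hw (inS_nil _) (M'.rel w hw e), M'.ltB⟩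

/-- the three minimal parabolic subgroups -/
structure PG (D : DD) (b : ℕ → G) : Prop where
  hs : HS b
  h : BM b 8190 D.n D.act D.Bs
  u : RM b 14334 D.n D.act D.Bs
  f : RM b 20478 D.n D.act D.Bs

theorem pg0 (M : BM a 32766 D.n D.act D.Bs) (ha : HS a) : PG D a :=
  ⟨ha, BM_mono M (by decide +kernel), M.rm.mono (by decide +kernel), M.rm.mono (by decide +kernel)⟩

namespace PG

variable [Finite G] [Finite X] (K : DK D) (M : BM a 32766 D.n D.act D.Bs) (ha : HS a) (h : PG D b)
include K M ha h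

omit [Finite G] [Finite X] in
theorem naV : NA a b 30718 sg1 1478 := NA.union (NA.of_chk (pg0 M ha).u h.u (by decide) (by decide) K.v1)
  (NA.of_chk (pg0 M ha).f h.f (by decide) (by decide) K.v2) (by decide) (by decide +kernel)

omit [Finite G] [Finite X] in
theorem naW : NA a b 28670 sg1 1678 := NA.union (NA.of_chk (pg0 M ha).f h.f (by decide) (by decide) K.w1)
  (NA.of_chk (pg0 M ha).u h.u (by decide) (by decide) K.w2) (by decide) (by decide +kernel)

omit [Finite G] in
theorem bu : BM b 14334 D.n D.act D.Bs := BM_of_sc M h.u (by decide +kernel) (h.h.toMod.mono (by decide +kernel))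
  (by decide +kernel) (NA.of_chk (pg0 M ha).u h.u (by decide) (by decide) K.v1) ha.scV

omit [Finite G] in
theorem bf : BM b 20478 D.n D.act D.Bs := BM_of_sc M h.f (by decide +kernel) (h.h.toMod.mono (by decide +kernel))
  (by decide +kernel) (NA.of_chk (pg0 M ha).f h.f (by decide) (by decide) K.w1) ha.scV'

theorem dich : wd b D.k * wd b [13, 5] * (wd b D.k)⁻¹ = wd b [13, 5] ∨
    wd b D.k * wd b [13, 5] * (wd b D.k)⁻¹ = b 10 * wd b [13, 5] := by
  obtain ⟨i, hi, e⟩ := h.hs.cV (x := wd b (D.k ++ [13, 5] ++ D.k.reverse ++ [13, 5].reverse))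
    fun j hj => by
      simpa only [sg1, wd_one] using (h.naV K M ha).cm M h.h.rm (by decide +kernel) (by decide) (by decide +kernel)
        K.cm hj
  rw [wd_append, wd_append, wd_append, h.f.sq.rev K.ki, h.u.sq.rev rfl, eq_mul_inv_iff_mul_eq] at e
  have k2 : wd b D.k * wd b D.k = 1 := by simpa using h.f.eq K.kk
  have q : ∀ p p', eqW D.act 20478 D.Bs [D.k, p'] [p, D.k] = true →
      eqW D.act 14334 D.Bs [p', [13, 5]] [[13, 5].reverse, p'] = true →
      wd b p * (wd b (eV i) * wd b [13, 5]) * (wd b p)⁻¹ * (wd b (eV i) * wd b [13, 5]) = 1 := fun p p' c1 c2 => by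
    have := h.u.conj c2
    rw [h.u.sq.rev rfl] at this
    generalize wd b [13, 5] = ω at *
    rw [e, ← h.f.conj c1]
    calc _ = wd b D.k * (wd b p' * ω * (wd b p')⁻¹ * ω) * (wd b D.k)⁻¹ := by group
      _ = 1 := by rw [this]; group
  rcases bor_iff.1 (K.vg i hi) with c | c <;> rcases bor_iff.1 c with c | c
  · left; rw [← e, leq_spec c]; simp
  · right; rw [← e, leq_spec c, wd_one]
  · refine absurd ?_ ((h.bf K M ha).ne c)
    simp only [wds_cons, wds_nil, mul_one]
    rw [← eq_mul_inv_iff_mul_eq] at e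
    generalize wd b D.k = k at *
    generalize wd b [13, 5] = ω at *
    rw [e, inv_eq_self_of_sq k2]
    calc _ = (k * k) * ω * k * ω⁻¹ * (k * k) * ω * k * ω⁻¹ := by group
      _ = ω * (k * k) * ω⁻¹ := by rw [k2, one_mul, mul_one, mul_assoc _ ω⁻¹, inv_mul_cancel, mul_one, mul_assoc ω, k2]
      _ = 1 := by rw [k2]; group
  · rcases bor_iff.1 c with c | c <;> refine absurd ?_ ((h.bu K M ha).ne c) <;> simp only [wds_cons, wds_nil, mul_one]
    · have := q _ _ K.q1 K.q2
      rw [← h.u.sq.rev K.pi] at this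
      simp only [mul_assoc] at this
      exact this
    · have := q _ _ K.q3 K.q4
      rw [← h.u.sq.rev rfl] at this
      simp only [mul_assoc] at this
      exact this

theorem adj : ∃ c : ℕ → G, (∀ g, tb 8190 g = true → c g = b g) ∧ PG D c ∧ Commute (wd c D.k) (wd c [13, 5]) := by
  rcases h.dich K M ha with e | e
  · exact ⟨b, fun _ _ => rfl, h, conj_eq_iff_commute.1 e⟩
  have a := up_eq (b := b) (S := 16382) (k := 14) (b 1 * b 14 * (b 1)⁻¹) rfl
  have a' : ∀ g, tb 8190 g = true → _ := fun g hg => a g (tb_sub (by decide +kernel) hg)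
  have z : ∀ g, tb 20478 g = true → Function.update b 14 (b 1 * b 14 * (b 1)⁻¹) g = MulAut.conj (b 1) (b g) :=
    fun g hg => by
    rcases bor_iff.1 (allS_spec (by decide) (show allS 20478 (fun g => bor (Nat.beq g 14) (tb 8190 g)) = true by
      decide +kernel) hg) with k | k
    · obtain rfl := beq_iff.1 k
      exact Function.update_self _ _ _
    · exact (a' g k).trans (conj_eq_iff_commute.2 (mem_cent_iff.1 (h.hs.cen ▸ mem_gp k)).symm).symm
  refine ⟨_, a', ⟨h.hs.congr a', BM_congr h.h a', RM_congr h.u fun g hg => a g (tb_sub (by decide +kernel) hg),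
    RM_congr (RM_map h.f (MulAut.conj (b 1)).toMonoidHom) z⟩, conj_eq_iff_commute.1 ?_⟩
  rw [wd_congr a (w := [13, 5]) rfl, wd_congr z K.ki,
    show wd (fun g => MulAut.conj (b 1) (b g)) D.k = b 1 * wd b D.k * (b 1)⁻¹ from
      wd_map (MulAut.conj (b 1)).toMonoidHom b _]
  have e1 := h.u.eq K.e1
  have e2 := h.f.conj K.e2
  have e3 := h.u.eq K.e3
  simp only [wds_cons, wds_nil, mul_one, wd_one] at e1 e2 e3
  generalize wd b D.k = k at *
  generalize wd b [13, 5] = ω at *
  calc _ = b 1 * k * (b 1)⁻¹ * (ω * b 1) * k⁻¹ * (b 1)⁻¹ := by group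
    _ = b 1 * (k * b 2 * k⁻¹ * (k * ω * k⁻¹)) * (b 1)⁻¹ := by rw [e1]; group
    _ = _ := by rw [e2, e, e3, mul_inv_cancel_right]

omit [Finite G] [Finite X] K M ha h in
theorem nnpm {S : ℕ} (R : BM b S D.n D.act D.Bs) {u ω : List ℕ} (m : wd b u ∈ Npm (wd b ω))
    (c : bor (leq u []) (band (neW D.act S D.Bs [u, ω] [ω, u]) (neW D.act S D.Bs [u, ω] [ω.reverse, u])) = true) :
    wd b u = 1 := by
  rcases bor_iff.1 c with c | c
  · rw [leq_spec c]; rfl
  rw [band_iff] at c
  rcases m with m | m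
  · exact absurd (conj_eq_iff_commute.1 m) (R.ncomm c.1)
  · refine absurd ?_ (R.ne c.2)
    rw [← R.sq.rev (allL_spec (band_iff.1 (band_iff.1 c.1).2).1 ω (by simp)), mul_inv_eq_iff_eq_mul] at m
    simpa using m

theorem fV (x : G) (hx : x ∈ gp b 1478) (m : x ∈ Npm (wd b [13, 5])) : x = 1 := by
  obtain ⟨i, hi, rfl⟩ := h.hs.cV (x := x) fun j hj => comm_gp (fun g hg => by
    simpa using h.hs.bm.rm.comm (allS_spec (by decide) (allS_spec (by decide) (show allS 1478 (fun g => allS 1478
      fun j => eqW ac 8190 B [[g], [j]] [[j], [g]]) = true by decide +kernel) hg) hj)) hx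
  exact nnpm (h.bu K M ha) m (K.vf i hi)

theorem fW (x : G) (hx : x ∈ gp b 1678) (m : x ∈ Npm (wd b [14, 4])) : x = 1 := by
  obtain ⟨i, hi, rfl⟩ := h.hs.cV' (x := x) fun j hj => comm_gp (fun g hg => by
    simpa using h.hs.bm.rm.comm (allS_spec (by decide) (allS_spec (by decide) (show allS 1678 (fun g => allS 1678
      fun j => eqW ac 8190 B [[g], [j]] [[j], [g]]) = true by decide +kernel) hg) hj)) hx
  exact nnpm (h.bf K M ha) m (K.wf i hi)

omit [Finite G] [Finite X] K M ha in
theorem sq : Sq b 32766 := fun g hg => by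
  rcases bor_iff.1 (allS_spec (by decide) (show allS 32766 (fun g => bor (tb 8190 g) (bor (tb 14334 g) (tb 20478 g)))
    = true by decide +kernel) hg) with k | k
  exacts [h.hs.bm.sq g k, (bor_iff.1 k).elim (h.u.sq g) (h.f.sq g)]

omit [Finite G] [Finite X] K M ha h in
theorem npm {S : ℕ} (R : RM b S D.n D.act D.Bs) {u ω : List ℕ} (c : npC D.act S D.Bs u ω = true) :
    wd b u ∈ Npm (wd b ω) :=
  (bor_iff.1 c).imp R.conj fun c => (R.conj c).trans (R.sq.rev (eqW_inS c _ (by simp)))

theorem rmV (c : Commute (wd b D.k) (wd b [13, 5])) : RM b 30718 D.n D.act D.Bs := by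
  refine RM_split M (h.u.mono (by decide +kernel)) (by decide +kernel) (by decide +kernel)
    (h.sq.mono (by decide +kernel)) (h.naV K M ha) h.hs.scV ((pg0 M ha).fV K M ha) (h.fV K M ha) fun g hg => ?_
  have k := band_iff.1 (allS_spec (by decide) K.vm hg)
  refine ⟨D.nV g, k.1, by simpa using npm M.rm k.2, ?_⟩
  rcases bor_iff.1 (allS_spec (by decide) (show allS 30718 (fun g => bor (Nat.beq g 14) (tb 14334 g)) = true by
    decide +kernel) hg) with e | e
  · obtain rfl := beq_iff.1 e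
    rw [← wd_one b 14, ← wd_append, h.f.eq1 K.kn]
    exact Npm_of_comm c
  · simpa using npm h.u (allS_spec (by decide) K.vo e)

theorem rmW (R : RM b 30718 D.n D.act D.Bs) : RM b 28670 D.n D.act D.Bs := by
  refine RM_split M (h.f.mono (by decide +kernel)) (by decide +kernel) (by decide +kernel)
    (h.sq.mono (by decide +kernel)) (h.naW K M ha) h.hs.scV' ((pg0 M ha).fW K M ha) (h.fW K M ha) fun g hg => ?_
  have k := band_iff.1 (allS_spec (by decide) K.wm hg)
  refine ⟨D.nW g, k.1, by simpa using npm M.rm k.2, ?_⟩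
  rcases bor_iff.1 (allS_spec (by decide) (show allS 28670 (fun g => bor (tb 8192 g) (tb 20478 g)) = true by
    decide +kernel) hg) with e | e
  · simpa using npm R (allS_spec (by decide) K.we e)
  · simpa using npm h.f (allS_spec (by decide) K.wo e)

theorem amal : ∃ c : ℕ → G, (∀ g, tb 8190 g = true → c g = b g) ∧ HS c ∧ RM c 30718 D.n D.act D.Bs ∧
    RM c 28670 D.n D.act D.Bs ∧ RM c 8190 D.n D.act D.Bs := by
  obtain ⟨c, a1, P, hc⟩ := h.adj K M ha
  exact ⟨c, a1, P.hs, P.rmV K M ha hc, P.rmW K M ha (P.rmV K M ha hc), P.h.rm⟩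

end PG

/-- table -/
def UV5 (g j : Nat) : List Nat := ([[[], [], [], [], [], [], [], [], [], [], []], [[], [1], [2], [], [], [], [6], [7], [8], [], [10]], [[], [1], [2], [], [], [], [6], [7], [8], [], [10]], [[], [1], [2], [], [], [], [1, 6], [7], [2, 8], [], [10]], [[], [1], [2], [], [], [], [6], [1, 7], [8], [], [2, 10]], [[], [1], [1, 2], [], [], [], [6], [7], [6, 8], [], [7, 10]], [[], [1], [2], [], [], [], [6], [7], [8], [], [10]], [[], [1], [2], [], [], [], [6], [7], [8], [], [10]], [[], [1], [2], [], [], [], [6], [7], [8], [], [10]], [[], [1], [2], [], [], [], [6, 7], [7], [8, 10], [], [10]], [[], [1], [2], [], [], [], [6], [7], [8], [], [10]], [[], [], [], [], [], [], [], [], [], [], []], [[], [1], [2], [], [], [], [6], [6, 7], [8], [], [8, 10]], [[], [1, 2], [2], [], [], [], [6, 8], [7, 10], [8], [], [10]], [[], [1, 7], [2, 10], [], [], [], [6], [7], [8], [], [10]]].getD g []).getD j []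
/-- table -/
def UW5 (g j : Nat) : List Nat := ([[[], [], [], [], [], [], [], [], [], [], []], [[], [1], [2], [3], [], [], [], [7], [], [9], [10]], [[], [1], [2], [3], [], [], [], [7], [], [9], [10]], [[], [1], [2], [3], [], [], [], [7], [], [9], [10]], [[], [1], [2], [3], [], [], [], [1, 7], [], [3, 9], [2, 10]], [[], [1], [1, 2], [3], [], [], [], [7], [], [9], [7, 10]], [[], [1], [2], [1, 3], [], [], [], [7], [], [7, 9], [10]], [[], [1], [2], [3], [], [], [], [7], [], [9], [10]], [[], [1], [2], [2, 3], [], [], [], [7], [], [9, 10], [10]], [[], [1], [2], [3], [], [], [], [7], [], [9], [10]], [[], [1], [2], [3], [], [], [], [7], [], [9], [10]], [[], [1], [2, 3], [3], [], [], [], [7], [], [9], [9, 10]], [[], [], [], [], [], [], [], [], [], [], []], [[], [1, 2], [2], [3], [], [], [], [7, 10], [], [9], [10]], [[], [1, 7], [2, 10], [3, 9], [], [], [], [7], [], [9], [10]]].getD g []).getD j []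
/-- table -/
def nV5 (g : Nat) : List Nat := [[], [1], [2], [], [], [], [6], [7], [8], [], [10], [], [], [], []].getD g []
/-- table -/
def nW5 (g : Nat) : List Nat := [[], [1], [2], [3], [], [], [], [7], [], [9], [10], [], [], [], []].getD g []
/-- table -/
def UV24 (g j : Nat) : List Nat := ([[[], [], [], [], [], [], [], [], [], [], []], [[], [1], [2], [], [], [], [6], [7], [8], [], [10]], [[], [1], [2], [], [], [], [6], [7], [8], [], [10]], [[], [1], [2], [], [], [], [1, 6], [7], [2, 8], [], [10]], [[], [1], [2], [], [], [], [6], [1, 7], [8], [], [2, 10]], [[], [1], [1, 2], [], [], [], [6], [7], [6, 8], [], [7, 10]], [[], [1], [2], [], [], [], [6], [7], [8], [], [10]], [[], [1], [2], [], [], [], [6], [7], [8], [], [10]], [[], [1], [2], [], [], [], [6], [7], [8], [], [10]], [[], [1], [2], [], [], [], [6, 7], [7], [8, 10], [], [10]], [[], [1], [2], [], [], [], [6], [7], [8], [], [10]], [[], [], [], [], [], [], [], [], [], [], []], [[], [1], [2], [], [], [], [6], [6,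 7], [8], [], [8, 10]], [[], [1, 2], [2], [], [], [], [6, 8], [7, 10], [8], [], [10]], [[], [1, 7], [2, 10], [], [], [], [6], [7], [8], [], [10]]].getD g []).getD j []
/-- table -/
def UW24 (g j : Nat) : List Nat := ([[[], [], [], [], [], [], [], [], [], [], []], [[], [1], [2], [3], [], [], [], [7], [], [9], [10]], [[], [1], [2], [3], [], [], [], [7], [], [9], [10]], [[], [1], [2], [3], [], [], [], [7], [], [9], [10]], [[], [1], [2], [3], [], [], [], [1, 7], [], [3, 9], [2, 10]], [[], [1], [1, 2], [3], [], [], [], [7], [], [9], [7, 10]], [[], [1], [2], [1, 3], [], [], [], [7], [], [7, 9], [10]], [[], [1], [2], [3], [], [], [], [7], [], [9], [10]], [[], [1], [2], [2, 3], [], [], [], [7], [], [9, 10], [10]], [[], [1], [2], [3], [], [], [], [7], [], [9], [10]], [[], [1], [2], [3], [], [], [], [7], [], [9], [10]], [[], [1], [2, 3], [3], [], [], [], [7], [], [9], [9, 10]], [[], [], [], [], [], [], [], [], [], [], []], [[], [1, 2], [2], [2, 3, 10], [], [], [], [7, 10], [],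 [2, 9], [10]], [[], [1, 7], [2, 10], [3, 9], [], [], [], [7], [], [9], [10]]].getD g []).getD j []
/-- table -/
def nV24 (g : Nat) : List Nat := [[], [1], [2], [1, 7], [1, 6], [], [6], [7], [8], [1], [10], [], [1], [], [6]].getD g []
/-- table -/
def nW24 (g : Nat) : List Nat := [[], [1], [2], [3], [], [], [], [7], [], [9], [10], [], [], [10], []].getD g []

/-- the model of `L₅(2)` -/
noncomputable def dd5 : DD := ⟨31, ac5, B5, UV5, UW5, nV5, nW5, [14], [3, 5, 9], [3, 5]⟩
/-- the model of `M₂₄` -/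
noncomputable def dd24 : DD := ⟨300, ac24, B24, UV24, UW24, nV24, nW24, [6, 14], [1, 5, 9], [1, 5, 9]⟩

theorem dk5 : DK dd5 := by constructor <;> decide +kernel

theorem dk24 : DK dd24 := by constructor <;> decide +kernel

theorem realizeEqns_He_DG : True := by
  have := @CA.PM.He.nW5.eq_1
  have := @CA.PM.He.nW5.eq_def
  have := @CA.PM.He.nW5.congr_simp
  have := @CA.PM.He.npC.eq_1
  have := @CA.PM.He.npC.eq_def
  have := @CA.PM.He.npC.congr_simp
  have := @CA.PM.He.UW24.eq_1
  have := @CA.PM.He.UW24.eq_def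
  have := @CA.PM.He.UW24.congr_simp
  have := @CA.PM.He.dd5.eq_1
  have := @CA.PM.He.dd5.eq_def
  have := @CA.PM.He.dd5.congr_simp
  have := @CA.PM.He.UV24.eq_1
  have := @CA.PM.He.UV24.eq_def
  have := @CA.PM.He.UV24.congr_simp
  have := @CA.PM.He.UV5.eq_1
  have := @CA.PM.He.UV5.eq_def
  have := @CA.PM.He.UV5.congr_simp
  have := @CA.PM.He.nW24.eq_1
  have := @CA.PM.He.nW24.eq_def
  have := @CA.PM.He.nW24.congr_simp
  have := @CA.PM.He.nV5.eq_1
  have := @CA.PM.He.nV5.eq_def
  have := @CA.PM.He.nV5.congr_simp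
  have := @CA.PM.He.dd24.eq_1
  have := @CA.PM.He.dd24.eq_def
  have := @CA.PM.He.dd24.congr_simp
  have := @CA.PM.He.UW5.eq_1
  have := @CA.PM.He.UW5.eq_def
  have := @CA.PM.He.UW5.congr_simp
  have := @CA.PM.He.nV24.eq_1
  have := @CA.PM.He.nV24.eq_def
  have := @CA.PM.He.nV24.congr_simp
  trivial

end CA.PM.He
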