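/-
A subgroup containing the centralizers of the conjugates of an involution and of their commuting products.
-/
import Cfsg.Agent.PM.SE

set_option autoImplicit false

namespace CA.PM.He

open CA.Fi CA.FG Subgroup Cfsg

variable {G : Type*} [Group G] [Finite G]

theorem se' {G0 : Subgroup G} {z : G} (hz : orderOf z = 2) (h1 : ∀ c, Commute c z → c ∈ G0)
    (h2 : ∀ x ∈ G0, IsConj z x → ∃ g ∈ G0, g * z * g⁻¹ = x)
    (p : ∀ x y, IsConj z x → IsConj z y → Commute x y → x ≠ y → x * y ∈ G0 → ∀ c, Commute c (x * y) → c ∈ G0)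
    (hne : G0 ≠ ⊤) :
    ∃ O ≤ G0, Odd (Nat.card O) ∧ (centralizer {z}).relIndex G0 ∣ Nat.card O := by
  have z0 : z ∈ G0 := h1 z (Commute.refl z)
  have sq : ∀ x, IsConj z x → x * x = 1 := fun x hx => by
    rw [← pow_two, ← hz, orderOf_eq_of_isConj hx, pow_orderOf_eq_one]
  have cj : ∀ x g, IsConj z x → IsConj z (g * x * g⁻¹) := fun x g hx => hx.trans (isConj_iff.2 ⟨g, rfl⟩)
  have f : ∀ x ∈ G0, IsConj z x → ∀ g, g * x * g⁻¹ ∈ G0 → g ∈ G0 := fun x hx ix g hg => by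
    obtain ⟨a, ha, rfl⟩ := h2 x hx ix
    obtain ⟨b, hb, e⟩ := h2 _ hg (cj _ g ix)
    have := h1 (b⁻¹ * g * a) (conj_eq_iff_commute.1 (by
      calc _ = b⁻¹ * (g * (a * z * a⁻¹) * g⁻¹) * b := by group
        _ = z := by rw [← e]; group))
    simpa [mul_assoc] using G0.mul_mem (G0.mul_mem hb this) (G0.inv_mem ha)
  have ev : ∀ x u, IsConj z x → IsConj z u → Even (orderOf (x * u)) →
      ∃ k : ℕ, ((x * u) ^ k ∈ G0 → ∀ c, Commute c ((x * u) ^ k) → c ∈ G0) ∧ Commute x ((x * u) ^ k) ∧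
        Commute u ((x * u) ^ k) := fun x u hx hu h => by
    obtain ⟨k, k1, k2⟩ := dih_exists_of_even h
    have c := dih_commute (sq x hx) (sq u hu) k1
    refine ⟨k, ?_, c⟩
    have := p x (x * (x * u) ^ k) hx ((dih_isConj_or (sq x hx) (sq u hu) k).elim hx.trans hu.trans)
      ((Commute.refl x).mul_right c.1) (by simpa using k2)
    rwa [← mul_assoc, sq x hx, one_mul] at this
  have c : ∀ x ∈ G0, IsConj z x → ∀ c, Commute c x → c ∈ G0 := fun x hx ix c hc =>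
    f x hx ix c (by rwa [hc.eq, mul_inv_cancel_right])
  have o : ∀ x ∈ G0, IsConj z x → ∀ u ∉ G0, IsConj z u → Odd (orderOf (x * u)) := fun x hx ix u hu iu => by
    rw [← Nat.not_even_iff_odd]
    intro h
    obtain ⟨k, k1, k2, k3⟩ := ev x u ix iu h
    exact hu (k1 (c x hx ix _ k2.symm) u k3)
  obtain ⟨u, hu, iu⟩ : ∃ u ∉ G0, IsConj z u := by
    by_contra h
    push Not at h
    exact hne (eq_top_iff.2 fun g _ => f z z0 (IsConj.refl z) g (by
      by_contra e; exact h _ e (cj z g (IsConj.refl z))))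
  have u2 := sq u iu
  have ui : u⁻¹ = u := inv_eq_of_mul_eq_one_left u2
  have u2' : ∀ t, u * (u * t) = t := fun t => by rw [← mul_assoc, u2, one_mul]
  let D : G → Prop := fun d => d ∈ G0 ∧ u * d * u ∈ G0
  have Dm : ∀ a b, D a → D b → D (a * b) := fun a b ha hb =>
    ⟨G0.mul_mem ha.1 hb.1, by simpa [mul_assoc, u2'] using G0.mul_mem ha.2 hb.2⟩
  have Di : ∀ a, D a → D a⁻¹ := fun a ha => ⟨G0.inv_mem ha.1, by simpa [mul_assoc, ui] using G0.inv_mem ha.2⟩
  have Du : ∀ a, D a → D (u * a * u) := fun a ha => ⟨ha.2, by simpa [mul_assoc, u2', u2] using ha.1⟩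
  let L : Subgroup G :=
    { carrier := {g | D g ∨ D (g * u)}
      one_mem' := Or.inl ⟨G0.one_mem, by simpa [u2] using G0.one_mem⟩
      mul_mem' := by
        rintro a b (ha | ha) (hb | hb)
        · exact Or.inl (Dm _ _ ha hb)
        · exact Or.inr (by simpa [mul_assoc] using Dm _ _ ha hb)
        · exact Or.inr (by simpa [mul_assoc, u2'] using Dm _ _ ha (Du _ hb))
        · exact Or.inl (by simpa [mul_assoc, u2', u2] using Dm _ _ ha (Du _ hb))
      inv_mem' := by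
        rintro a (ha | ha)
        · exact Or.inl (Di _ ha)
        · exact Or.inr (by simpa [mul_assoc, u2', ui] using Du _ (Di _ ha)) }
  have uL : u ∈ L := Or.inr (by rw [u2]; exact ⟨G0.one_mem, by simpa [u2] using G0.one_mem⟩)
  have iso : ∀ g : L, Commute (⟨u, uL⟩ : L) (g * ⟨u, uL⟩ * g⁻¹) → g * ⟨u, uL⟩ * g⁻¹ = ⟨u, uL⟩ := by
    rintro ⟨g, hg⟩ hc
    have hc' : Commute u (g * u * g⁻¹) := congrArg Subtype.val hc
    by_contra ne
    have i := p _ _ iu (cj u g iu) hc' fun e => ne (Subtype.ext e.symm)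
    have d : D (u * (g * u * g⁻¹)) := by
      rcases hg with hg | hg
      · simpa [mul_assoc] using Dm _ _ (Du _ hg) (Di _ hg)
      · simpa [mul_assoc, u2', ui] using Dm _ _ (Du _ hg) (Di _ hg)
    exact hu (i d.1 u ((Commute.refl u).mul_right hc'))
  have hn : (pPrimeCore 2 L).Normal := by
    rw [pPrimeCore_eq_top Nat.prime_two]; exact normalIn_top.mp (pcore_normal _ _)
  have od : Odd (Nat.card ((pPrimeCore 2 L).map L.subtype)) := by
    rw [card_map_of_injective L.subtype_injective]; exact CA.Blk.odd_card_oddCore L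
  have le : (pPrimeCore 2 L).map L.subtype ≤ G0 := by
    rintro _ ⟨⟨x, hx⟩, h, rfl⟩
    refine mem_of_sq_mem (od.of_dvd_nat (Subgroup.orderOf_dvd_natCard _ ⟨_, h, rfl⟩)) ?_
    rcases hx with hx | hx
    · exact G0.mul_mem hx.1 hx.1
    · simpa [mul_assoc, u2', u2] using (Dm _ _ hx (Du _ hx)).1
  refine ⟨_, le, od, ?_⟩
  rw [CA.Loc.card_eq_orbit _ z, CA.Loc.relIndex_cent]
  refine Dvd.dvd.mul_right (dvd_of_eq (congrArg _ (Set.Subset.antisymm ?_ ?_))) _
  swap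
  · rintro y ⟨a, ha, e⟩; exact ⟨a, le ha, e⟩
  rintro y ⟨a, ha, rfl⟩
  have y0 : a * z * a⁻¹ ∈ G0 := G0.mul_mem (G0.mul_mem ha z0) (G0.inv_mem ha)
  have iy := cj z a (IsConj.refl z)
  generalize a * z * a⁻¹ = y at *
  have iy' := cj y u iy
  obtain ⟨k, hk⟩ := dih_conj_of_odd (sq _ iy') (sq z (IsConj.refl z)) (o z z0 (IsConj.refl z) _
    (fun e => hu (f y y0 iy u e)) iy') (by
      rw [← orderOf_inv, mul_inv_rev, inv_eq_of_mul_eq_one_left (sq _ iy'),
        inv_eq_of_mul_eq_one_left (sq z (IsConj.refl z)), pow_orderOf_eq_one])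
  have t2 := sq _ iy'
  have iw : IsConj z _ := cj _ (u * y * u⁻¹)
    ((dih_isConj_or t2 (sq z (IsConj.refl z)) k).elim iy'.trans id)
  have ey : u * (u * y * u⁻¹) * u⁻¹ = y := by simp [mul_assoc, ui, u2', u2]
  generalize u * y * u⁻¹ = t at *
  generalize (t * z) ^ k = r at *
  have e : t * (t * r) * t⁻¹ * z * (t * (t * r) * t⁻¹)⁻¹ = t := by
    have := sq _ iw
    rw [← inv_eq_of_mul_eq_one_left this, inv_inv, ← mul_assoc t t, t2, one_mul]
    calc (r * t⁻¹)⁻¹ * z * (r * t⁻¹) = t * (r⁻¹ * z * r⁻¹⁻¹) * t⁻¹ := by group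
      _ = t := by rw [hk]; group
  generalize t * (t * r) * t⁻¹ = w at *
  have e2 : u * w * z * (u * w)⁻¹ = y := by rw [← ey, ← e]; group
  have d0 := f z z0 (IsConj.refl z) _ (e2 ▸ y0)
  have e3 : u * (u * w) * u = (u * w)⁻¹ := by
    rw [u2', mul_inv_rev, ui, inv_eq_of_mul_eq_one_left (sq w iw)]
  have dL : u * w ∈ L := Or.inl ⟨d0, e3 ▸ G0.inv_mem d0⟩
  refine ⟨u * w, mem_of_sq_mem ?_ ?_, e2⟩
  · rw [← Nat.not_even_iff_odd]
    intro h
    obtain ⟨k, k1, k2, -⟩ := ev u w iu iw h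
    exact hu (k1 (G0.pow_mem d0 k) u k2)
  · obtain ⟨k, k1, k2⟩ := CA.Blk.Zstar_conj (t := (⟨u, uL⟩ : L))
      (by rw [← orderOf_coe, ← orderOf_eq_of_isConj iu, hz]) iso ⟨_, dL⟩
    refine ⟨_, mul_mem k1 (hn.conj_mem _ (inv_mem k1) ⟨u, uL⟩), ?_⟩
    have k3 : u * w * u * (u * w)⁻¹ = k * u * (k : G)⁻¹ := congrArg Subtype.val k2
    show (k : G) * (u * (k : G)⁻¹ * u⁻¹) = _
    rw [← mul_assoc, ← mul_assoc, ← k3, ui]
    simp [mul_assoc, u2', u2, ui, inv_eq_of_mul_eq_one_left (sq w iw)]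

end CA.PM.He
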