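/-
A group containing the Held group and the centralizer of its central involution.
-/
import Cfsg.Agent.He.M1
import Cfsg.Agent.He.T3
import Cfsg.Agent.He.T4
import Cfsg.Agent.He.SE

set_option autoImplicit false
set_option maxRecDepth 100000

namespace CA.PM.He

open CA.TC CA.Fi Subgroup

variable {G : Type*} [Group G] [Finite G] {b : ℕ → G}

/-- facts on the centralizer of the second involution -/
structure TT (G0 : Subgroup G) (z t : G) : Prop where
  z2 : z * z = 1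
  t2 : t * t = 1
  z1 : z ≠ 1
  zt : Commute z t
  t0 : t ∈ G0
  cz : ∀ c, Commute c z → c ∈ G0
  nc : ¬ IsConj z t
  tzt : IsConj t (z * t)
  c1 : Nat.card (G0 ⊓ centralizer {t} : Subgroup G) = 161280
  c2 : Nat.card ((G0 ⊓ centralizer {t}) ⊓ centralizer {z} : Subgroup G) = 512
  c5 : ∃ x ∈ G0 ⊓ centralizer {t}, orderOf x = 5 ∧
    Nat.card ((G0 ⊓ centralizer {t}) ⊓ centralizer {x} : Subgroup G) < 35
  inv : ∀ u ∈ G0, u * u = 1 → u = 1 ∨ (∃ g ∈ G0, g * t * g⁻¹ = u) ∨ ∃ g ∈ G0, g * z * g⁻¹ = u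
  cs : ∀ u, Commute u z → Commute u t → u * u = 1 → u = 1 ∨ (∃ g ∈ G0, g * t * g⁻¹ = u) ∨
    ((∃ g ∈ G0, g * z * g⁻¹ = u) ∧ (((∃ l ∈ G0 ⊓ centralizer {t}, l * z * l⁻¹ = u) ∧
      (u = z ∨ IsConj z (z * u) ∨ IsConj z (z * u * t))) ∨ ∃ l ∈ G0 ⊓ centralizer {t}, l * u * l⁻¹ = u * t))

theorem tt_of (M : BM b 32766 2058 ac B) (hc : Nat.card (centralizer ({b 1} : Set G)) ≤ 21504)
    (hn : ¬ IsConj (b 1) (wd b [2, 7])) (h0 : Nat.card (gp b 32766) = 4030387200) :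
    TT (gp b 32766) (b 1) (wd b [2, 7]) := by
  have H := HS_of (BM_mono M (by decide +kernel)) hc
  have cz : ∀ c, Commute c (b 1) → c ∈ gp b 32766 := fun c h => gp_mono (by decide +kernel) (H.mem h)
  have a1 := cls_cc M tX_ok
  have a2 := cls_cc M zL_ok
  have a3 := cls_cc M fL_ok
  have a4 := H.chains.2.2.2.2.2.1
  have e0 : cW b [] = ⊤ := eq_top_iff.2 fun _ _ => mem_cW.2 (by simp)
  have e1 : gp b 32766 ⊓ centralizer {wd b [2, 7]} ⊓ centralizer {b 1} = cW b [[2, 7], [1]] := by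
    ext x
    simp only [mem_inf, mem_cW, mem_cent_iff, List.forall_mem_cons, wd_one]
    exact ⟨fun h => ⟨h.1.2, h.2, by simp⟩, fun h => ⟨⟨cz x h.2.1, h.1⟩, h.2.1⟩⟩
  have a5 : 512 ≤ Nat.card (cW b [[2, 7], [1]]) := le_ncard (Set.toFinite _) (fun i => wd b (eS i))
    (fun i hi => mem_cW.2 fun y hy => H.bm.rm.comm (allL_spec (band_iff.1 (eS_ok i hi)).2 y hy))
    (H.bm.wd_inj H.bm.ltB (sub_refl _) fun i hi => (band_iff.1 (eS_ok i hi)).1).2
  rw [e0, inf_top_eq] at a1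
  rw [cW_one] at a2 a3
  rw [wd_one, e1] at a2
  have m : ∀ {u v w : List ℕ}, eqW ac 32766 B [u, v] [w, u] = true → wd b u ∈ gp b 32766 := fun h =>
    wd_mem_gp (eqW_inS h _ List.mem_cons_self)
  have m' : ∀ {u : List ℕ}, eqW ac 32766 B [u, [2, 7]] [[2, 7], u] = true →
      wd b u ∈ gp b 32766 ⊓ centralizer {wd b [2, 7]} := fun h => ⟨m h, mem_cent_iff.2 (M.rm.comm h)⟩
  refine ⟨H.le.z_sq, by simpa [mul_assoc] using M.rm.one (u := [2, 7, 2, 7]) (by decide +kernel), H.le.z_ne,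
    by simpa using M.rm.comm (u := [1]) (v := [2, 7]) (by decide +kernel), wd_mem_gp (by decide +kernel), cz, hn,
    isConj_iff.2 ⟨_, by simpa using M.rm.conj (u := [4]) (z := [2, 7]) (y := [1, 2, 7]) (by decide +kernel)⟩,
    by omega, by rw [e1]; omega, ⟨wd b x5, m' (by decide +kernel), ?_, by omega⟩, fun u hu h2 => ?_,
    fun u h1 h2 h3 => ?_⟩
  · haveI : Fact (Nat.Prime 5) := ⟨by decide⟩
    exact orderOf_eq_prime (M.rm.pow (by decide +kernel)) (M.ne1 (v := []) (by decide +kernel))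
  · have le : gp b 2046 ≤ gp b 32766 := gp_mono (by decide +kernel)
    have c1 := ((M.rm.mono (T := 2046) (by decide +kernel)).cov_card (by decide) (by decide) (by decide +kernel) cT_ok
      ⟨inferInstance, H.cardQ.le⟩).2
    have c2 := M.le_card_en M.ltB (by decide +kernel) eT_ok (K := gp b 2046) fun _ => mem_gp
    obtain ⟨P, hP⟩ := CA.Loc.exists_sylow (p := 2) (k := 10) (X := (gp b 2046).subgroupOf (gp b 32766))
      (by rw [Nat.card_congr (subgroupOfEquivOfLe le).toEquiv]; omega) (by rw [h0]; decide)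
    obtain ⟨⟨a, ha⟩, k⟩ := exists_conj_le_sylow P (T := zpowers ⟨u, hu⟩)
      (CA.Typ.isP_zpowers (k := 1) (Subtype.ext ((pow_two u).trans h2)))
    have k' := k _ (mem_zpowers _)
    rw [hP] at k'
    obtain ⟨i, hi, -, e⟩ := M.enum M.ltB (by decide +kernel) eT_ok (fun _ => mem_gp) c1 k'
    have e' : u = a * wd b (eT i) * a⁻¹ := by rw [e]; simp [mul_assoc]
    rcases bor_iff.1 (eT_f i hi) with k | k <;> rcases bor_iff.1 k with k | k
    · refine absurd ?_ (M.ne k)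
      rw [e', show a * wd b (eT i) * a⁻¹ * (a * wd b (eT i) * a⁻¹) = a * (wd b (eT i) * wd b (eT i)) * a⁻¹ by group] at h2
      simpa using h2
    · exact Or.inl (by rw [e', leq_spec k]; simp)
    · exact Or.inr (Or.inl ⟨_, mul_mem ha (m k), by rw [e', ← M.rm.conj k]; group⟩)
    · exact Or.inr (Or.inr ⟨_, mul_mem ha (m k), by rw [e', ← M.rm.conj k, wd_one]; group⟩)
  obtain ⟨i, hi, -, rfl⟩ := enum_cW H.bm eS_ok a4 (x := u) (mem_cW.2 (List.forall_mem_cons.2 ⟨h2, by simpa using h1⟩))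
  rcases bor_iff.1 (eS_f i hi) with k | k
  · rcases bor_iff.1 k with k | k
    · exact absurd (by simpa using h3) (M.ne k)
    · exact (bor_iff.1 k).imp (fun k => by rw [leq_spec k]; rfl) fun k => Or.inl ⟨_, m k, M.rm.conj k⟩
  rw [band_iff] at k
  have e := M.rm.conj k.1
  rw [wd_one] at e
  refine Or.inr (Or.inr ⟨⟨_, m k.1, e⟩, (bor_iff.1 k.2).imp (fun k => ?_) fun k => ?_⟩) <;> rw [band_iff] at k
  · refine ⟨⟨_, m' k.1, e⟩, (bor_iff.1 k.2).imp (fun k => by rw [leq_spec k, wd_one]) fun k =>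
      (bor_iff.1 k).imp (fun k => ?_) fun k => ?_⟩ <;>
      exact isConj_iff.2 ⟨_, by simpa [mul_assoc] using M.rm.conj k⟩
  · exact ⟨_, m' k.1, by simpa using M.rm.conj k.2⟩

namespace TT

variable {G0 : Subgroup G} {z t : G} (h : TT G0 z t)
include h

theorem cl {u : G} (hu : u ∈ G0 ⊓ centralizer {t}) (h2 : u * u = 1) : u = 1 ∨ (∃ g ∈ G0, g * t * g⁻¹ = u) ∨
    ((∃ g ∈ G0, g * z * g⁻¹ = u) ∧ ((∃ l ∈ G0 ⊓ centralizer {t}, l * z * l⁻¹ = u) ∨
      ∃ l ∈ G0 ⊓ centralizer {t}, l * u * l⁻¹ = u * t)) := by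
  obtain ⟨P, hP⟩ := CA.Loc.exists_sylow (p := 2) (k := 9)
    (X := ((G0 ⊓ centralizer {t}) ⊓ centralizer {z}).subgroupOf (G0 ⊓ centralizer {t}))
    (by rw [Nat.card_congr (subgroupOfEquivOfLe inf_le_left).toEquiv, h.c2]; rfl) (by rw [h.c1]; decide)
  obtain ⟨⟨a, ha⟩, k⟩ := exists_conj_le_sylow P (T := zpowers ⟨u, hu⟩) 
    (CA.Typ.isP_zpowers (k := 1) (Subtype.ext ((pow_two u).trans h2)))
  have k' := k _ (mem_zpowers _)
  rw [hP] at k'
  have e : u = a * (a⁻¹ * u * a) * a⁻¹ := by group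
  have ta := mem_cent_iff.1 ha.2
  rcases h.cs (a⁻¹ * u * a) (mem_cent_iff.1 k'.2) (mem_cent_iff.1 k'.1.2) (by
      calc _ = a⁻¹ * (u * u) * a := by group
        _ = 1 := by rw [h2]; group) with c | ⟨g, g1, c⟩ | ⟨⟨g, g1, c⟩, c'⟩
  · exact Or.inl (by rw [e, c]; group)
  · exact Or.inr (Or.inl ⟨a * g, mul_mem ha.1 g1, by rw [e, ← c]; group⟩)
  refine Or.inr (Or.inr ⟨⟨a * g, mul_mem ha.1 g1, by rw [e, ← c]; group⟩, ?_⟩)
  rcases c' with ⟨⟨l, l1, c⟩, -⟩ | ⟨l, l1, c⟩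
  · exact Or.inl ⟨a * l, mul_mem ha l1, by rw [e, ← c]; group⟩
  · refine Or.inr ⟨a * l * a⁻¹, mul_mem (mul_mem ha l1) (inv_mem ha), ?_⟩
    calc _ = a * (l * (a⁻¹ * u * a) * l⁻¹) * a⁻¹ := by group
      _ = u * (a * t * a⁻¹) := by rw [c]; group
      _ = _ := by rw [conj_eq_iff_commute.2 ta]

omit [Finite G] in
theorem cc {g u c : G} (hg : g ∈ G0) (e : g * z * g⁻¹ = u) (hc : Commute c u) : c ∈ G0 := by
  have := h.cz (g⁻¹ * c * g) (commute_conj_left_iff.1 (e ▸ hc.symm)).symm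
  simpa [mul_assoc] using mul_mem (mul_mem hg this) (inv_mem hg)

omit [Finite G] in
theorem nz {g : G} (hg : Commute g t) : ¬ IsConj z (g * z * g⁻¹ * t) := fun c =>
  h.nc (c.trans (h.tzt.trans (isConj_iff.2 ⟨g, by
    rw [← mul_assoc, mul_assoc _ t, hg.inv_left.eq.symm, ← mul_assoc]⟩)).symm)

theorem f1 {u : G} (hu : u ∈ G0 ⊓ centralizer {t}) (c : IsConj z u) :
    (∃ g ∈ G0, g * z * g⁻¹ = u) ∧ ((∃ l ∈ G0 ⊓ centralizer {t}, l * z * l⁻¹ = u) ∨
      ∃ l ∈ G0 ⊓ centralizer {t}, l * u * l⁻¹ = u * t) := by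
  obtain ⟨g, rfl⟩ := isConj_iff.1 c
  rcases h.cl hu (by rw [show g * z * g⁻¹ * (g * z * g⁻¹) = g * (z * z) * g⁻¹ by group, h.z2]; simp)
    with e | ⟨k, -, e⟩ | e
  · exact absurd (by simpa using e) h.z1
  · exact absurd (c.trans (isConj_iff.2 ⟨k, e⟩).symm) h.nc
  · exact e

theorem cent_le {c : G} (hc : Commute c t) : c ∈ G0 := by
  set L := centralizer ({t} : Set G) with hL
  let t' : L := ⟨t, mem_cent_iff.2 (Commute.refl t)⟩
  let z' : L := ⟨z, mem_cent_iff.2 h.zt⟩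
  have ct : ∀ a : L, Commute (a : G) t := fun a => mem_cent_iff.1 a.2
  haveI nn : (zpowers t').Normal := ⟨fun x hx g => by
    have : Commute g x := mem_cent_iff.1 (show x ∈ centralizer {g} from
      zpowers_le.2 (mem_cent_iff.2 (Subtype.ext (ct g).symm.eq)) hx) |>.symm
    rwa [this.eq, mul_inv_cancel_right]⟩
  let π := QuotientGroup.mk' (zpowers t')
  have hπ : ∀ a a' : L, π a = π a' ↔ (a' : G) = a ∨ (a' : G) = a * t := fun a a' => by
    rw [QuotientGroup.mk'_apply, QuotientGroup.mk'_apply, QuotientGroup.eq,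
      mem_zpowers_iff_of_sq (Subtype.ext h.t2), inv_mul_eq_one, inv_mul_eq_iff_eq_mul, Subtype.ext_iff,
      Subtype.ext_iff, eq_comm]
    rfl
  have su : ∀ y, ∃ a, π a = y := QuotientGroup.mk'_surjective _
  let G1 := ((G0 ⊓ L).subgroupOf L).map π
  have m : ∀ a : L, π a ∈ G1 ↔ (a : G) ∈ G0 := fun a => ⟨by
    rintro ⟨x, hx, e⟩
    rcases (hπ _ _).1 e with e | e <;> rw [e]
    exacts [hx.1, mul_mem hx.1 h.t0], fun k => ⟨a, ⟨k, a.2⟩, rfl⟩⟩
  have cz' : ∀ a : L, Commute (π a) (π z') → Commute (a : G) z := fun a k => by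
    have := conj_eq_iff_commute.2 k
    rw [← map_inv, ← map_mul, ← map_mul, eq_comm, hπ] at this
    refine conj_eq_iff_commute.1 (this.resolve_right fun e => h.nz (Commute.one_left t) ?_)
    exact isConj_iff.2 ⟨a, by simpa using e⟩
  have cj : ∀ y, IsConj (π z') y → ∃ g : L, y = π (g * z' * g⁻¹) := fun y k => by
    obtain ⟨g, rfl⟩ := isConj_iff.1 k
    obtain ⟨g, rfl⟩ := su g
    exact ⟨g, by simp⟩
  by_contra hn
  obtain ⟨O, O1, O2, O3⟩ := se' (G0 := G1) (z := π z')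
    (orderOf_two_of (by rw [← map_mul, show z' * z' = 1 from Subtype.ext h.z2, map_one]) fun e => by
      rw [← map_one π, eq_comm, hπ] at e
      exact e.elim h.z1 fun e => h.nc (by rw [show z = t by simpa using e]))
    (fun c k => by
      obtain ⟨c, rfl⟩ := su c
      exact (m c).2 (h.cz _ (cz' c k)))
    (fun x hx k => by
      obtain ⟨g, rfl⟩ := cj x k
      rcases (h.f1 ⟨(m _).1 hx, (g * z' * g⁻¹).2⟩ (isConj_iff.2 ⟨g, rfl⟩)).2 with ⟨l, l1, e⟩ | ⟨l, l1, e⟩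
      · exact ⟨π ⟨l, l1.2⟩, (m _).2 l1.1, by rw [← map_inv, ← map_mul, ← map_mul]; exact congrArg π (Subtype.ext e)⟩
      · exact absurd ((isConj_iff.2 ⟨(g : G), rfl⟩).trans (isConj_iff.2 ⟨l, e⟩)) (h.nz (ct g)))
    (fun x y hx hy k ne hm c hc => by
      obtain ⟨g, rfl⟩ := cj x hx
      obtain ⟨g', rfl⟩ := cj y hy
      obtain ⟨c, rfl⟩ := su c
      rw [m]
      set y : L := g⁻¹ * g' * z' * (g⁻¹ * g')⁻¹ with hy'
      have y1 : Commute (y : G) z := cz' y (by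
        have := commute_conj_left_iff.1 (show Commute (π g * π z' * (π g)⁻¹) _ by simpa using k)
        simpa [hy', mul_assoc] using this.symm)
      have y2 : IsConj z y := isConj_iff.2 ⟨(g⁻¹ * g' : L), rfl⟩
      obtain ⟨P, P1, P2⟩ : ∃ P : L, IsConj z P ∧ π P = π (g * z' * g⁻¹) * π (g' * z' * g'⁻¹) := by
        have e : π (g * (z' * y) * g⁻¹) = π (g * z' * g⁻¹) * π (g' * z' * g'⁻¹) := by
          rw [← map_mul, hy']; congr 1; group
        rcases h.cs y y1 (ct y) (by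
          obtain ⟨a, e⟩ := isConj_iff.1 y2
          rw [← e, show a * z * a⁻¹ * (a * z * a⁻¹) = a * (z * z) * a⁻¹ by group, h.z2]; simp)
          with a | ⟨a, -, a'⟩ | ⟨-, ⟨-, a | a | a⟩ | ⟨l, -, a⟩⟩
        · exact absurd (isConj_one_left.1 (a ▸ y2)) h.z1
        · exact absurd (y2.trans (isConj_iff.2 ⟨a, a'⟩).symm) h.nc
        · refine absurd (congrArg π ?_) ne
          calc _ = g * y * g⁻¹ := by rw [show y = z' from Subtype.ext a]
            _ = _ := by rw [hy']; group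
        · exact ⟨_, a.trans (isConj_iff.2 ⟨g, rfl⟩), e⟩
        · refine ⟨g * (z' * y * t') * g⁻¹, a.trans (isConj_iff.2 ⟨g, rfl⟩), ?_⟩
          rw [← e]
          simp only [map_mul, show π t' = 1 from (QuotientGroup.eq_one_iff _).2 (mem_zpowers _), mul_one]
        · exact absurd (y2.trans (isConj_iff.2 ⟨l, a⟩)) (h.nz (ct (g⁻¹ * g')))
      rw [← P2] at hm hc
      obtain ⟨⟨a, a1, a2⟩, a3⟩ := h.f1 ⟨(m _).1 hm, P.2⟩ P1
      have := conj_eq_iff_commute.2 hc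
      rw [← map_inv, ← map_mul, ← map_mul, eq_comm, hπ] at this
      rcases this with e | e
      · exact h.cc a1 a2 (conj_eq_iff_commute.1 e)
      rcases a3 with ⟨l, l1, a3⟩ | ⟨l, l1, a3⟩
      · exact absurd (P1.trans (isConj_iff.2 ⟨c, e.trans (by rw [a3])⟩)) (h.nz (mem_cent_iff.1 l1.2))
      · have := h.cc a1 a2 (c := l⁻¹ * c) (conj_eq_iff_commute.1 (by
          calc _ = l⁻¹ * (c * P * (c : G)⁻¹) * l := by group
            _ = _ := by rw [show (c : G) * P * (c : G)⁻¹ = P * t from e, ← a3]; group))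
        simpa using mul_mem l1.1 this)
    fun e => hn ((m ⟨c, mem_cent_iff.2 hc⟩).1 (e ▸ mem_top _))
  have r : (centralizer {π z'}).relIndex G1 = 315 := by
    rw [← relIndex_comap, show (centralizer {π z'}).comap π = (centralizer {z}).subgroupOf L from ext fun a =>
      ⟨fun k => mem_cent_iff.2 (cz' a (mem_cent_iff.1 k)), fun k => mem_cent_iff.2
        ((show Commute a z' from Subtype.ext (mem_cent_iff.1 k).eq).map π)⟩, relIndex_subgroupOf inf_le_right]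
    have := CA.FG.card_inf_mul_relIndex (centralizer {z}) (G0 ⊓ L)
    rw [inf_comm, h.c2, h.c1] at this
    omega
  have d : Nat.card O ∣ 161280 := by
    rw [← h.c1, ← Nat.card_congr (subgroupOfEquivOfLe (inf_le_right : G0 ⊓ L ≤ L)).toEquiv]
    exact (card_dvd_of_le O1).trans (card_map_dvd _ _)
  obtain ⟨Y, Y1, Y2, Y3⟩ := no_odd O2 (p := 5) (q := 7) (by decide) (by decide) (by decide)
    ((by decide : 5 * 7 ∣ 315).trans (r ▸ O3)) (fun h => absurd (h.trans d) (by decide)) fun k h1 h2 => by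
      rcases k with _ | _ | k
      · rfl
      · exact absurd h2 (by decide)
      · exact absurd (((pow_dvd_pow 7 (by omega : 2 ≤ k + 1 + 1)).trans h1).trans d) (by decide)
  haveI : Fact (Nat.Prime 5) := ⟨by decide⟩
  haveI : Fact (Nat.Prime 7) := ⟨by decide⟩
  obtain ⟨⟨y, hy⟩, oy⟩ := exists_prime_orderOf_dvd_card' 7 Y3
  obtain ⟨⟨x, hx⟩, ox⟩ := exists_prime_orderOf_dvd_card' 5 (Y2 ▸ dvd_refl _ : 5 ∣ Nat.card Y)
  rw [← orderOf_coe] at oy ox
  have xy : Commute y x := by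
    have a1 := CA.FG.relIndex_cent_dvd_pred (by decide) Y2 (zpowers_le.2 hy.2)
    have a2 := relIndex_dvd_card (centralizer (Y : Set _)) (zpowers y)
    rw [Nat.card_zpowers, oy] at a2
    exact mem_cent_subgroup_iff.1 (relIndex_eq_one.1 (Nat.eq_one_of_dvd_coprimes (by decide) a1 a2)
      (mem_zpowers y)) x hx
  obtain ⟨y, rfl⟩ := su y
  obtain ⟨x, rfl⟩ := su x
  have y0 := (m y).1 (O1 hy.1)
  have x0 := (m x).1 (O1 (Y1 hx))
  have sq : ∀ a a' : L, π a = π a' → (a' : G) ^ 2 = a ^ 2 := fun a a' e => by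
    rcases (hπ _ _).1 e with e | e <;> rw [e]
    rw [(ct a).mul_pow, pow_two t, h.t2, mul_one]
  have c1 : Commute (y : G) (x ^ 2) := by
    have := sq x (y * x * y⁻¹) (by simpa using (conj_eq_iff_commute.2 xy).symm)
    exact conj_eq_iff_commute.1 (by rw [← conj_pow]; exact this)
  have o1 : orderOf ((x : G) ^ 2) = 5 := orderOf_eq_prime (by
    rw [← pow_mul, mul_comm, pow_mul]
    exact (sq 1 (x ^ 5) (by rw [map_pow, ← ox, pow_orderOf_eq_one, map_one])).trans (one_pow 2)) fun e => by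
      have := orderOf_dvd_of_pow_eq_one (show π x ^ 2 = 1 by
        rw [← map_pow, show x ^ 2 = 1 from Subtype.ext e, map_one])
      rw [ox] at this; omega
  obtain ⟨x5, m5, o5, c5⟩ := h.c5
  obtain ⟨⟨g, hg⟩, e⟩ := CA.Loc.conj_of_card (G := (G0 ⊓ L : Subgroup G)) (p := 5) (k := 1) (by decide)
    (by rw [h.c1]; decide) (zpowers ⟨x ^ 2, pow_mem (show (x : G) ∈ G0 ⊓ L from ⟨x0, x.2⟩) 2⟩) (zpowers ⟨x5, m5⟩)
    (by rw [Nat.card_zpowers, ← orderOf_coe, o1]; rfl) (by rw [Nat.card_zpowers, ← orderOf_coe, o5]; rfl)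
  obtain ⟨_, ⟨i, rfl⟩, e'⟩ : _ ∈ _ := e.symm ▸ mem_zpowers _
  have e2 : g * ((x : G) ^ 2) ^ i * g⁻¹ = x5 := congrArg Subtype.val e'
  have d7 : 7 ∣ Nat.card ((G0 ⊓ L) ⊓ centralizer {x5} : Subgroup G) := by
    refine Dvd.dvd.trans ?_ (Subgroup.orderOf_dvd_natCard _ (x := g * y * g⁻¹)
      ⟨(G0 ⊓ L).mul_mem (mul_mem hg ⟨y0, y.2⟩) (inv_mem hg), mem_cent_iff.2 (e2 ▸ commute_conj_iff.2 (c1.zpow_right i))⟩)
    rw [← orderOf_eq_of_isConj (isConj_iff.2 ⟨g, rfl⟩), orderOf_coe, ← oy]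
    exact orderOf_map_dvd π y
  have d5 := o5 ▸ Subgroup.orderOf_dvd_natCard ((G0 ⊓ L) ⊓ centralizer {x5}) ⟨m5, mem_cent_iff.2 (Commute.refl _)⟩
  exact absurd (Nat.le_of_dvd Nat.card_pos ((by decide : Nat.Coprime 5 7).mul_dvd_of_dvd_of_dvd d5 d7)) c5.not_ge

theorem top : G0 = ⊤ := by
  have f : ∀ u ∈ G0, u * u = 1 → u ≠ 1 → ∀ c, Commute c u → c ∈ G0 := fun u hu h2 h1 c hc => by
    rcases h.inv u hu h2 with e | ⟨g, g1, e⟩ | ⟨g, g1, e⟩
    · exact absurd e h1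
    · have := h.cent_le (c := g⁻¹ * c * g) (commute_conj_left_iff.1 (e ▸ hc.symm)).symm
      simpa [mul_assoc] using mul_mem (mul_mem g1 this) (inv_mem g1)
    · exact h.cc g1 e hc
  refine eq_top_iff.2 fun g _ => ?_
  have hu : IsConj z (g * z * g⁻¹) := isConj_iff.2 ⟨g, rfl⟩
  have u2 : g * z * g⁻¹ * (g * z * g⁻¹) = 1 := by
    rw [show g * z * g⁻¹ * (g * z * g⁻¹) = g * (z * z) * g⁻¹ by group, h.z2]; simp
  obtain ⟨k, k1, k2⟩ := dih_exists_of_even (dih_even_of_not_isConj u2 h.t2 fun c => h.nc (hu.trans c))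
  have c := dih_commute u2 h.t2 k1
  rcases h.inv _ (f _ (h.cent_le c.2.symm) k1 k2 _ c.1) u2 with e | ⟨a, -, e⟩ | ⟨a, a1, e⟩
  · exact absurd (by simpa using e) h.z1
  · exact absurd (hu.trans (isConj_iff.2 ⟨a, e⟩).symm) h.nc
  · have := h.cz (a⁻¹ * g) (conj_eq_iff_commute.1 (by
      calc _ = a⁻¹ * (g * z * g⁻¹) * a := by group
        _ = z := by rw [← e]; group))
    simpa using mul_mem a1 this

end TT

end CA.PM.He
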