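/-
Identification of the Held group.
-/
import Cfsg.Agent.He.A
import Cfsg.Agent.He.D
import Cfsg.Agent.He.Top
import Cfsg.Agent.He.T5

set_option autoImplicit false
set_option maxRecDepth 100000

namespace CA.PM.He

open CA.TC CA.Fi Subgroup

variable {G : Type*} [Group G] {b : ℕ → G}

theorem hom_of (R1 : RM b 30718 2058 ac B) (R2 : RM b 28670 2058 ac B) (R3 : RM b 8190 2058 ac B) :
    ∃ φ : X →* G, ∀ g, tb 254 g = true → φ (σ g) = wd b (gW g) := by
  have hR : ∀ t, RM b (Ts t) 2058 ac B := fun t => by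
    rcases t with _ | _ | _ | t
    exacts [R1, R2, R3, R3]
  have k : ∀ r, bor (eqW ac 8190 B [r.flatMap gW] []) (anyL RW fun x => leq (dcs x.2.1).flatten (r.flatMap gW)) = true →
      wd (fun g => wd b (gW g)) r = 1 := fun r h => by
    rw [← wd_flatMap]
    rcases bor_iff.1 h with h | h
    · exact R3.one h
    · obtain ⟨x, hx, e⟩ := anyL_spec h
      rw [← leq_spec e, ← wds_eq]
      exact rwGo_spec hR (allL_spec RW_ok x hx)
  have sq : Sq (fun g => wd b (gW g)) 254 := fun g hg => by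
    simpa using k [g, g] (allS_spec (by decide) (show allS 254 (fun g => bor (eqW ac 8190 B [[g, g].flatMap gW] [])
      (anyL RW fun x => leq (dcs x.2.1).flatten ([g, g].flatMap gW))) = true by decide +kernel) hg)
  refine exists_hom sq fun r hr => ?_
  rcases bor_iff.1 (allL_spec (show allL ER (fun r => bor (leq r (List.replicate 10 [3, 4]).flatten)
    (bor (eqW ac 8190 B [r.flatMap gW] []) (anyL RW fun x => leq (dcs x.2.1).flatten (r.flatMap gW)))) = true by
      decide +kernel) r hr) with e | e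
  · have := k (1 :: (List.replicate 5 [3, 4]).flatten) (by decide +kernel)
    rw [wd_cons, wd_pow] at this
    rw [leq_spec e, wd_pow, show 10 = 5 * 2 from rfl, pow_mul, ← inv_eq_of_mul_eq_one_right this, inv_pow, pow_two,
      sq 1 rfl, inv_one]
  · exact k r e

theorem gp_map {Y : Type*} [Group Y] (φ : G →* Y) (S : ℕ) : gp (fun g => φ (b g)) S = (gp b S).map φ :=
  le_antisymm (gp_le fun _ hg => mem_map_of_mem φ (mem_gp hg))
    (map_le_iff_le_comap.2 (gp_le fun _ hg => mem_gp (a := fun g => φ (b g)) hg))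

theorem ident [Finite G] {Q : Subgroup G} {q : ℕ → G} (h : HA Q q) : Nonempty (X ≃* G) := by
  obtain ⟨b, a1, H, e⟩ := h.hs
  obtain ⟨g, g1, g2, -⟩ := h.s
  obtain ⟨g', g3, g4⟩ := h.s'
  have n : ¬ IsConj (b 1) (wd b [3, 7]) := by simpa [a1 1 rfl, a1 3 rfl, a1 7 rfl] using h.nc
  obtain ⟨c, a2, P⟩ := H.pp (g := g) (g' := g') (by rw [a1 1 rfl, a1 2 rfl, g1])
    (by simpa [a1 3 rfl, a1 7 rfl, e] using g2) (by rw [a1 1 rfl, a1 7 rfl, g3])
    (by simpa [a1 6 rfl, a1 2 rfl, e] using g4) n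
  obtain ⟨d, a3, P', hc⟩ := P.adj
  have a : ∀ g, tb 8190 g = true → d g = b g := fun g hg => (a3 g hg).trans (a2 g hg)
  obtain ⟨φ, hφ⟩ := hom_of (P'.rmV hc) (P'.rmW (P'.rmV hc)) P'.hs.bm.rm
  have e1 : φ (a0 1) = b 1 := by rw [← wd_one a0, show [1] = gW 5 from rfl, gW_eq rfl, hφ 5 rfl, ← a 1 rfl, ← wd_one d]; rfl
  have e2 : wd (fun g => φ (a0 g)) [2, 7] = wd b [2, 7] := by
    rw [wd_map, show [2, 7] = gW 1 from rfl, gW_eq rfl, hφ 1 rfl, wd_congr a rfl]
  have inj : Function.Injective φ := (MonoidHom.ker_eq_bot_iff φ).1 ((φ.normal_ker.eq_bot_or_eq_top).resolve_right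
    fun k => H.le.z_ne (e1 ▸ (k ▸ mem_top (a0 1) : a0 1 ∈ φ.ker)))
  have := (tt_of (BM_map bm φ inj) (by rw [e1, H.card]) (by
    rw [e1, e2]
    exact fun c => n (c.trans (isConj_iff.2 ⟨_, H.bm.rm.conj (u := [8, 11, 8]) (z := [2, 7]) (y := [3, 7])
      (by decide +kernel)⟩))) (by rw [gp_map, card_map_of_injective inj, top0, card_top, cardX])).top
  rw [gp_map, top0, ← MonoidHom.range_eq_map] at this
  exact ⟨MulEquiv.ofBijective φ ⟨inj, MonoidHom.range_eq_top.1 this⟩⟩

end CA.PM.He
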