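/-
Generic steps of the identification: embedding a model, the linear group as a model.
-/
import Cfsg.Agent.He.Id
import Cfsg.Agent.L5.T1
import Cfsg.Agent.He.Tb5

set_option autoImplicit false
set_option maxRecDepth 100000

namespace CA.PM.He

open CA.TC CA.Fi Subgroup

variable {G : Type*} [Group G] {b : ℕ → G} {X : Type*} [Group X] {a : ℕ → X} {n : ℕ} {act : ℕ → ℕ → ℕ}
  {B' : List ℕ}

theorem HS.inj [Finite X] (h : HS a) (s : IsConj (a 1) (a 2)) (φ : X →* G) (h1 : φ (a 1) ≠ 1) :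
    Function.Injective φ := by
  have L := h.le
  refine (MonoidHom.ker_eq_bot_iff φ).1 (normal_eq_bot L.z_sq s (s.trans (isConj_iff.2 ⟨_, by
    simpa using h.bm.rm.conj (u := [5]) (z := [2]) (y := [2, 1]) (by decide +kernel)⟩)) fun x hx c => ?_)
  have := LE_inj L L.le_cent (fun _ => mem_cent_iff.1) (φ.comp (centralizer {a 1}).subtype) h1
  exact congrArg Subtype.val ((injective_iff_map_eq_one _).1 this ⟨x, mem_cent_iff.2 c⟩ hx)

theorem embed [Finite X] (M : BM a 32766 n act B') (top : gp a 32766 = ⊤) (h : HS a) (s : IsConj (a 1) (a 2))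
    (R : RM b 32766 n act B') (h1 : b 1 ≠ 1) :
    BM b 32766 n act B' ∧ Nat.card (gp b 32766) = Nat.card X ∧
      ∃ φ : X →* G, Function.Injective φ ∧ φ.range = gp b 32766 := by
  obtain ⟨φ, hφ⟩ := M.exists_hom top R
  have e : ∀ g, tb 32766 g = true → b g = φ (a g) := fun g hg => by
    rw [← wd_one a, hφ _ (inS_one hg), wd_one]
  have inj := h.inj s φ (e 1 rfl ▸ h1)
  have r : φ.range = gp b 32766 := by rw [gp_congr e, gp_map, top, MonoidHom.range_eq_map]
  exact ⟨BM_congr (BM_map M φ inj) e, by rw [← r, ← Nat.card_congr (MonoidHom.ofInjective inj).toEquiv], φ, inj, r⟩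

theorem iso_of_top {φ : X →* G} (inj : Function.Injective φ) (r : φ.range = gp b 32766) (t : gp b 32766 = ⊤) :
    Nonempty (G ≃* X) :=
  ⟨(MulEquiv.ofBijective φ ⟨inj, MonoidHom.range_eq_top.1 (r.trans t)⟩).symm⟩

section lin

open Matrix

variable (F : Type*) [Field F]

/-- elementary matrices -/
def sl5 (ci cj : ℕ → Fin 5) (g : ℕ) : SpecialLinearGroup (Fin 5) F :=
  if h : ci g ≠ cj g then ⟨transvection (ci g) (cj g) 1, det_transvection_of_ne _ _ h _⟩ else 1

/-- the row vector of a bit mask -/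
def vec5 (m : ℕ) (k : Fin 5) : F := bif m.testBit k then 1 else 0

variable {F}

theorem sl5_val {ci cj : ℕ → Fin 5} {g : ℕ} (h : ci g ≠ cj g) :
    (sl5 F ci cj g).1 = transvection (ci g) (cj g) 1 := congrArg Subtype.val (dif_pos h)

theorem rm_sl (h2 : (1 : F) + 1 = 0) {S : ℕ} (T : Tb S n act) (hB : ∀ p ∈ B', p < n) (ci cj : ℕ → Fin 5)
    (lab : ℕ → ℕ) (h : ∀ g, tb S g = true → ci g ≠ cj g ∧ ∀ p < n, ∀ k : Fin 5,
      (lab (act g p)).testBit k = xor ((lab p).testBit k) (decide (k = cj g) && (lab p).testBit (ci g)))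
    (hk : ∀ k : Fin 5, ∃ p ∈ B', ∀ l : Fin 5, (lab p).testBit l = decide (l = k)) :
    RM (sl5 F ci cj) S n act B' := by
  have k1 : ∀ g, tb S g = true → ∀ p < n, vec5 F (lab (act g p)) = vec5 F (lab p) ᵥ* (sl5 F ci cj g).1 := by
    intro g hg p hp
    obtain ⟨ne, e⟩ := h g hg
    ext k
    rw [sl5_val ne]
    change _ = (vec5 F (lab p) ᵥ* (1 + single (ci g) (cj g) 1)) k
    rw [vecMul_add, vecMul_one, Pi.add_apply, vec5, e p hp k]
    have : (vec5 F (lab p) ᵥ* single (ci g) (cj g) (1 : F)) k = if k = cj g then vec5 F (lab p) (ci g) else 0 := by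
      simp only [vecMul, dotProduct, single, of_apply]
      rw [Finset.sum_eq_single (ci g)]
      · by_cases c : k = cj g
        · simp [c]
        · simp [c, Ne.symm c]
      · intro j _ hj; simp [Ne.symm hj]
      · simp
    rw [this]
    simp only [vec5]
    by_cases c : k = cj g
    · rw [if_pos c, decide_eq_true c]
      cases (lab p).testBit k <;> cases (lab p).testBit (ci g) <;> simp [h2]
    · rw [if_neg c, decide_eq_false c]; simp
  have k2 : ∀ w, inS S w = true → ∀ p < n,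
      vec5 F (lab (run act w p)) = vec5 F (lab p) ᵥ* (wd (sl5 F ci cj) w).1 := by
    intro w hw
    induction w with
    | nil => intro p _; simp [run_nil]
    | cons g w ih =>
      intro p hp
      rw [inS_cons] at hw
      rw [run_cons, ih hw.2 _ (T.lt g hw.1 p hp), k1 g hw.1 p hp, wd_cons, vecMul_vecMul]
      rfl
  refine ⟨T, fun g hg => Subtype.ext ?_, fun w hw e => Subtype.ext ?_, hB⟩
  · change (sl5 F ci cj g).1 * (sl5 F ci cj g).1 = 1
    rw [sl5_val (h g hg).1, transvection_mul_transvection_same _ _ (h g hg).1, h2, transvection_zero]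
  · ext k l
    obtain ⟨p, hp, e1⟩ := hk k
    have := k2 w hw p (hB p hp)
    have v : vec5 F (lab p) = Pi.single k 1 := by
      ext l
      rw [vec5, e1, Pi.single_apply]
      by_cases c : l = k <;> simp [c]
    rw [fixB_iff.1 e p hp, v, single_one_vecMul] at this
    have := congrFun this l
    rw [Pi.single_apply] at this
    change (wd (sl5 F ci cj) w).1 k l = (1 : Matrix (Fin 5) (Fin 5) F) k l
    rw [one_apply, ← show _ = (wd (sl5 F ci cj) w).1 k l from this]
    simp [eq_comm]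

theorem iso_psl [Fintype F] (hF : Fintype.card F = 2) [Finite X] (M : BM a 32766 n act B') (top : gp a 32766 = ⊤)
    (hs : HS a) (s : IsConj (a 1) (a 2)) (hc : Nat.card X = 9999360) (ci cj : ℕ → Fin 5)
    (lab : ℕ → ℕ) (h : ∀ g, tb 32766 g = true → ci g ≠ cj g ∧ ∀ p < n, ∀ k : Fin 5,
      (lab (act g p)).testBit k = xor ((lab p).testBit k) (decide (k = cj g) && (lab p).testBit (ci g)))
    (hk : ∀ k : Fin 5, ∃ p ∈ B', ∀ l : Fin 5, (lab p).testBit l = decide (l = k)) :
    Nonempty (X ≃* ProjectiveSpecialLinearGroup (Fin 5) F) := by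
  have c2 : (1 : F) + 1 = 0 := by
    have := FiniteField.cast_card_eq_zero F
    rw [hF] at this
    rw [one_add_one_eq_two]; exact_mod_cast this
  have h2 := CA.L5.card_PSL5 hF
  haveI : Finite (ProjectiveSpecialLinearGroup (Fin 5) F) := Nat.finite_of_card_ne_zero (by rw [h2]; norm_num)
  have R := RM_map (rm_sl c2 M.toTb M.ltB ci cj lab h hk)
    (QuotientGroup.mk' (center (SpecialLinearGroup (Fin 5) F)))
  obtain ⟨-, -, φ, inj, -⟩ := embed M top hs s R (by
    intro e
    obtain ⟨r, hr, e⟩ := Matrix.SpecialLinearGroup.mem_center_iff.1 ((QuotientGroup.eq_one_iff (sl5 F ci cj 1)).1 e)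
    have ne := (h 1 rfl).1
    have : scalar (Fin 5) r (ci 1) (cj 1) = (sl5 F ci cj 1).1 (ci 1) (cj 1) := by rw [e]
    rw [sl5_val ne] at this
    simp [transvection, ne] at this)
  exact ⟨MulEquiv.ofBijective φ ((Nat.bijective_iff_injective_and_card φ).2 ⟨inj, hc.trans h2.symm⟩)⟩

/-- row and column of the letters -/
def ci5 (g : ℕ) : Fin 5 := [0, 0, 0, 0, 0, 3, 2, 1, 2, 1, 1, 3, 2, 4, 1].getD g 0
/-- row and column of the letters -/
def cj5 (g : ℕ) : Fin 5 := [4, 4, 3, 2, 1, 4, 4, 4, 3, 2, 3, 2, 1, 3, 0].getD g 0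

theorem iso_psl5 [Fintype F] (hF : Fintype.card F = 2) [Finite X] (M : BM a 32766 31 ac5 B5)
    (top : gp a 32766 = ⊤) (hs : HS a) (hc : Nat.card X = 9999360) :
    Nonempty (X ≃* ProjectiveSpecialLinearGroup (Fin 5) F) :=
  iso_psl hF M top hs (isConj_iff.2 ⟨wd a [5, 13], by
    simpa only [wd_one] using M.rm.conj (u := [5, 13]) (z := [1]) (y := [2]) (by decide +kernel)⟩) hc ci5 cj5 (· + 1)
    (fun g hg => (show ∀ g < 16, tb 32766 g = true → ci5 g ≠ cj5 g ∧ ∀ p < 31, ∀ k : Fin 5,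
      (ac5 g p + 1).testBit k = xor ((p + 1).testBit k) (decide (k = cj5 g) && (p + 1).testBit (ci5 g)) by
        decide +kernel) g (lt16 (by decide) hg) hg) (by decide +kernel)

end lin

theorem realizeEqns_HeFin0 : True := by
  have := @CA.PM.He.sl5.eq_1.{0}
  have := @CA.PM.He.sl5.eq_def.{0}
  have := @CA.PM.He.sl5.congr_simp.{0}
  have := @CA.PM.He.vec5.eq_1.{0}
  have := @CA.PM.He.vec5.eq_def.{0}
  have := @CA.PM.He.vec5.congr_simp.{0}
  have := @CA.PM.He.cj5.eq_1
  have := @CA.PM.He.cj5.eq_def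
  have := @CA.PM.He.cj5.congr_simp
  have := @CA.PM.He.ci5.eq_1
  have := @CA.PM.He.ci5.eq_def
  have := @CA.PM.He.ci5.congr_simp
  trivial

end CA.PM.He
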