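/-
The permutation model of `L₅(2)`.
-/
import Cfsg.Agent.He.C5
import Cfsg.Agent.He.M1

set_option autoImplicit false
set_option maxRecDepth 100000

namespace CA.PM.He

open CA.TC CA.Fi Subgroup

variable {G X : Type*} [Group G] [Group X] {b : ℕ → G} {a : ℕ → X} {S SA n : ℕ} {act : ℕ → ℕ → ℕ} {B' C' : List ℕ}

theorem wd_sub (T : Tb S n act) (w : List ℕ) :
    ((wd (fun g => (⟨T.perm g, perm_mem T g⟩ : gp T.perm S)) w : gp T.perm S) : Equiv.Perm (Fin n)) = wd T.perm w :=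
  (wd_map (gp T.perm S).subtype (fun g => (⟨T.perm g, perm_mem T g⟩ : gp T.perm S)) w).symm

theorem BM_sub (T : Tb S n act) (hB : ∀ p ∈ B', p < n)
    (h : ∀ w, inS S w = true → fixB act B' w = true → ∀ p < n, run act w p = p) :
    BM (fun g => (⟨T.perm g, perm_mem T g⟩ : gp T.perm S)) S n act B' :=
  ⟨T.mod.comap (fun g hg => Subtype.ext (T.mod.sq g hg)) (gp T.perm S).subtype fun _ _ => rfl,
    fun w hw e => Subtype.ext ((wd_sub T w).trans ((T.perm_eq_one hw).2 (h w hw e))), hB⟩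

theorem top_sub (T : Tb S n act) : gp (fun g => (⟨T.perm g, perm_mem T g⟩ : gp T.perm S)) S = ⊤ :=
  eq_top_iff.2 fun x _ => by
    obtain ⟨w, hw, e⟩ := T.mod.sq.exists_wd x.2
    rw [show x = wd _ w from Subtype.ext ((wd_sub T w).trans e).symm]
    exact wd_mem_gp hw

theorem rebase (M : BM a SA n act B') (R : RM b S n act C') (hS : sub S SA = true) : RM b S n act B' :=
  ⟨R.tbl, R.sq, fun w hw e => R.rel w hw (fixB_iff.2 fun p hp =>
    M.cmp w (inS_sub hS hw) (M.rel w (inS_sub hS hw) e) p (R.lt p hp)), M.ltB⟩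

theorem stepG {C : Cert} {Rs : List (ℕ × List ℕ)} {E : List (List ℕ)} (M : BM a SA n act C') (h : C.OK)
    (s : Sep C SA n act C') (hv : C.val = valS C.S act Rs E) (sq : Sq b C.S) (r : ∀ r ∈ Rs, Rel b act r.1 r.2)
    (r0 : ∀ r ∈ Rs, sub r.1 SA = true ∧ r.2 = C') (e : ∀ r ∈ E, wd b r = 1)
    (e0 : allL E (fun r => eqW act SA C' [r] []) = true) (h0 : Rel b act C.S0 C') : RM b C.S n act C' :=
  RM.step h M.toMod s hv sq r (fun x hx => (r0 x hx).2 ▸ M.rel.mono (r0 x hx).1) e (rels M.rm e0) h0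

theorem cardG {C : Cert} {Rs : List (ℕ × List ℕ)} (M : BM a SA n act C') (h : C.OK)
    (s : sub C.S SA = true) (hv : C.val = valS C.S act Rs []) (r0 : ∀ r ∈ Rs, sub r.1 SA = true ∧ r.2 = C') {m : ℕ}
    (f : Finite (gp a C.S0) ∧ Nat.card (gp a C.S0) ≤ m) : Finite (gp a C.S) ∧ Nat.card (gp a C.S) ≤ C.n * m := by
  haveI := f.1
  have := h.card_le (a := a) (M.sq.mono s) (hv ▸ valS_spec (M.sq.mono s)
    (fun x hx => (r0 x hx).2 ▸ M.rel.mono (r0 x hx).1) (by simp))
  exact ⟨this.1, this.2.trans (Nat.mul_le_mul_left _ f.2)⟩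

theorem BM_of_RM (R : RM b 8190 2058 ac B) (h1 : b 1 ≠ 1) : BM b 8190 2058 ac B := by
  have M0 := hs0.bm
  obtain ⟨φ, hφ⟩ := PM.exists_hom R.sq M0.sq fun w hw e => tr M0.toMod R (sub_refl _) hw (inS_nil _) e
  have := LE_inj hs0.le (gp_mono (by decide +kernel)) (fun x hx => mem_cent_iff.1 (hs0.cen ▸ hx)) φ (by
    have := hφ [1] (by decide +kernel)
    simp only [wd_one] at this
    rw [this]; exact h1)
  exact ⟨⟨R.tbl, R.sq, fun w hw e => M0.cmp w hw (congrArg Subtype.val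
    ((injective_iff_map_eq_one φ).1 this _ ((hφ w hw).trans e)))⟩, R.rel, R.lt⟩

theorem sq_un {S1 S2 : ℕ} (h1 : Sq b S1) (h2 : Sq b S2) (hS : S < 65536)
    (h : allS S (fun g => bor (tb S1 g) (tb S2 g)) = true) : Sq b S := fun g hg =>
  (bor_iff.1 (allS_spec hS h hg)).elim (h1 g) (h2 g)

theorem bmC5 : BM a5 32766 31 ac5 C5 := BM_sub tbl5 (by decide) fun _ _ e p hp =>
  fixB_iff.1 e p ((show ∀ p < 31, p ∈ C5 by decide) p hp)

theorem top5 : gp a5 32766 = ⊤ := top_sub tbl5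

theorem rmH5 : RM a5 8190 2058 ac B ∧ Finite (gp a5 8190) ∧ Nat.card (gp a5 8190) ≤ 21504 :=
  rmH (bmC5.sq.mono (by decide +kernel)) (rels bmC5.rm (by decide +kernel)) (rels bmC5.rm (by decide +kernel))

theorem chain5 : Nat.card X5 = 9999360 ∧ msts bmC5.toMod [0, 1, 3, 7, 15] = ⊥ := by
  have h0 := msts_ge bmC5.toMod (by decide) lv50_ok
  have h1 := msts_ge bmC5.toMod (by decide) lv51_ok
  have h2 := msts_ge bmC5.toMod (by decide) lv52_ok
  have h3 := msts_ge bmC5.toMod (by decide) lv53_ok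
  have h4 := msts_ge bmC5.toMod (by decide) lv54_ok
  have k1 := cardG bmC5 ZP5_ok (by decide +kernel) ZP5_val (by simp only [List.forall_mem_cons]; decide +kernel) rmH5.2
  have k2 : Nat.card (gp a5 32766) ≤ 31 * (15 * 21504) :=
    (cardG bmC5 ZA5_ok (by decide +kernel) ZA5_val (by simp only [List.forall_mem_cons]; decide +kernel) k1).2
  rw [top5, card_top] at k2
  have h5 := card_le_card_group (msts bmC5.toMod [])
  have h6 := Nat.card_pos (α := msts bmC5.toMod [0, 1, 3, 7, 15])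
  exact ⟨by omega, (card_le_one_iff_eq_bot _).1 (by omega)⟩

theorem card5 : Nat.card X5 = 9999360 := chain5.1

theorem bm5 : BM a5 32766 31 ac5 B5 := ⟨bmC5.toMod, fun w hw h => mem_bot.1 (chain5.2 ▸ msts_wd bmC5.toMod hw h),
  by decide⟩

theorem hs5 : HS a5 := by
  refine HS_of (BM_of_RM rmH5.1 (by simpa using bm5.ne1 (u := [1]) (v := []) (by decide +kernel))) ?_
  have h2 := cls_ge bm5 (D := ⊤) (fun i hi => ⟨(band_iff.1 (band_iff.1 (zc5_ok i hi)).2).1, mem_top _⟩)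
    fun i hi => (band_iff.1 (zc5_ok i hi)).1
  rw [top_inf_eq, card_top, card5, wd_one] at h2
  omega

theorem rmU5 (sq : Sq b 14334) (R : RM b 8190 31 ac5 B5) (e : ∀ r ∈ EB, wd b r = 1) : RM b 14334 31 ac5 B5 :=
  have R' := (rebase bmC5 R (by decide +kernel)).rel.mono (S := 6142) (by decide +kernel)
  rebase bm5 (stepG bmC5 ZU5_ok ZU5_sep ZU5_val sq (List.forall_mem_singleton.2 R')
    (List.forall_mem_singleton.2 ⟨by decide +kernel, rfl⟩) e (by decide +kernel) R') (by decide +kernel)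

theorem rmF5 (sq : Sq b 20478) (R : RM b 8190 31 ac5 B5) (e : ∀ r ∈ EBs, wd b r = 1) : RM b 20478 31 ac5 B5 :=
  have R' := (rebase bmC5 R (by decide +kernel)).rel.mono (S := 4094) (by decide +kernel)
  rebase bm5 (stepG bmC5 ZF5_ok ZF5_sep ZF5_val sq (List.forall_mem_singleton.2 R')
    (List.forall_mem_singleton.2 ⟨by decide +kernel, rfl⟩) e (by decide +kernel) R') (by decide +kernel)

theorem rmAll5 (R1 : RM b 30718 31 ac5 B5) (R2 : RM b 28670 31 ac5 B5) (R3 : RM b 8190 31 ac5 B5) :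
    RM b 32766 31 ac5 B5 := by
  have r1 := (rebase bmC5 R1 (by decide +kernel)).rel
  have r2 := (rebase bmC5 R2 (by decide +kernel)).rel
  have r3 := (rebase bmC5 R3 (by decide +kernel)).rel
  have sq : Sq b 32766 := sq_un R1.sq R2.sq (by decide) (by decide +kernel)
  have P := stepG bmC5 ZP5_ok ZP5_sep ZP5_val (sq.mono (by decide +kernel)) (List.forall_mem_cons.2 ⟨r3,
    List.forall_mem_cons.2 ⟨r1.mono (by decide +kernel), List.forall_mem_singleton.2 (r2.mono (by decide +kernel))⟩⟩)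
    (by simp only [List.forall_mem_cons]; decide +kernel) (by simp) rfl r3
  exact rebase bm5 (stepG bmC5 ZA5_ok ZA5_sep ZA5_val sq (List.forall_mem_cons.2 ⟨P.rel,
    List.forall_mem_cons.2 ⟨r1, List.forall_mem_singleton.2 r2⟩⟩)
    (by simp only [List.forall_mem_cons]; decide +kernel) (by simp) rfl P.rel) (by decide +kernel)

end CA.PM.He
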