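/-
The permutation model of `M₂₄`.
-/
import Cfsg.Agent.He.C24
import Cfsg.Agent.He.L5m

set_option autoImplicit false
set_option maxRecDepth 100000

namespace CA.PM.He

open CA.TC CA.Fi Subgroup

variable {G : Type*} [Group G] {b : ℕ → G}

theorem run_pr24 {w : List ℕ} (hw : inS 32766 w = true) {p q : ℕ} (hp : p < 24) (hq : q < 24) :
    run ac24 w (pr24 p q) = pr24 (run ac24 w p) (run ac24 w q) := by
  induction w generalizing p q with
  | nil => rfl
  | cons g w ih =>
    rw [inS_cons] at hw
    have k := fun p hp => band_iff.1 (allS_spec (by decide) (pr24_a p hp) hw.1)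
    rw [run_cons, run_cons, run_cons, beq_iff.1 (allLt_spec (k p hp).2 q hq),
      ih hw.2 (blt_iff.1 (k p hp).1) (blt_iff.1 (k q hq).1)]

theorem bmC24 : BM a24 32766 300 ac24 C24 := BM_sub tbl24 (by decide) fun w hw e p hp => by
  have k := pr24_b p hp
  rw [band_iff, band_iff, blt_iff, blt_iff, beq_iff] at k
  have f := fun p hp => fixB_iff.1 e p ((show ∀ p < 24, p ∈ C24 by decide) p hp)
  rw [← k.2, run_pr24 hw k.1.1 k.1.2, f _ k.1.1, f _ k.1.2]

theorem top24 : gp a24 32766 = ⊤ := top_sub tbl24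

theorem rmH24 : RM a24 8190 2058 ac B ∧ Finite (gp a24 8190) ∧ Nat.card (gp a24 8190) ≤ 21504 :=
  rmH (bmC24.sq.mono (by decide +kernel)) (rels bmC24.rm (by decide +kernel)) (rels bmC24.rm (by decide +kernel))

theorem chain24 : Nat.card X24 = 244823040 ∧ msts bmC24.toMod [21, 0, 20, 19, 18, 17, 16] = ⊥ := by
  have h0 := msts_ge bmC24.toMod (by decide) lv240_ok
  have h1 := msts_ge bmC24.toMod (by decide) lv241_ok
  have h2 := msts_ge bmC24.toMod (by decide) lv242_ok
  have h3 := msts_ge bmC24.toMod (by decide) lv243_ok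
  have h4 := msts_ge bmC24.toMod (by decide) lv244_ok
  have h5 := msts_ge bmC24.toMod (by decide) lv245_ok
  have h6 := msts_ge bmC24.toMod (by decide) lv246_ok
  have k1 := cardG bmC24 ZP24_ok (by decide +kernel) ZP24_val (by simp only [List.forall_mem_cons]; decide +kernel)
    rmH24.2
  have k2 : Nat.card (gp a24 32766) ≤ 759 * (15 * 21504) :=
    (cardG bmC24 ZA24_ok (by decide +kernel) ZA24_val (by simp only [List.forall_mem_cons]; decide +kernel) k1).2
  rw [top24, card_top] at k2
  have h7 := card_le_card_group (msts bmC24.toMod [])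
  have h8 := Nat.card_pos (α := msts bmC24.toMod [21, 0, 20, 19, 18, 17, 16])
  exact ⟨by omega, (card_le_one_iff_eq_bot _).1 (by omega)⟩

theorem card24 : Nat.card X24 = 244823040 := chain24.1

theorem bm24 : BM a24 32766 300 ac24 B24 := ⟨bmC24.toMod, fun w hw h => mem_bot.1 (chain24.2 ▸ msts_wd bmC24.toMod hw
  (fixB_iff.2 fun p hp => fixB_iff.1 h p ((show ∀ p ∈ [21, 0, 20, 19, 18, 17, 16], p ∈ B24 by decide) p hp))),
  by decide⟩

theorem hs24 : HS a24 := by
  refine HS_of (BM_of_RM rmH24.1 (by simpa using bm24.ne1 (u := [1]) (v := []) (by decide +kernel))) ?_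
  obtain ⟨A, T⟩ := bm24.fa top24
  have k : ∀ p, p < 24 → ac24 1 p = p → ∀ L : List ℕ, (∀ q ∈ L, q < 300 ∧ q ≠ p) → ∀ x ∈ centralizer {a24 1},
      x ∈ A.sts L → band (band (blt (img a24 32766 ac24 x p) 24) (Nat.beq (ac24 1 (img a24 32766 ac24 x p))
        (img a24 32766 ac24 x p))) (allL L fun q => TC.bne (img a24 32766 ac24 x p) q) = true := by
    intro p hp e L hL x hx hs
    have hp' : p < 300 := by omega
    refine band_iff.2 ⟨band_iff.2 ⟨?_, beq_iff.2 ?_⟩, allL_iff.2 fun q hq => bne_iff.2 fun c => ?_⟩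
    · have := A.lab T (by decide) lb24 (x := x) (top24 ▸ mem_top x) hp'
      rw [blt_iff.2 hp] at this
      cases c : blt (img a24 32766 ac24 x p) 24
      · rw [c] at this; cases this
      · rfl
    · rw [← T.eq 1 (by decide +kernel) _ (A.lt x p hp')]
      exact A.fix_comm (mem_cent_iff.1 hx) hp' ((T.eq 1 (by decide +kernel) p hp').trans e)
    · exact (hL q hq).2 (A.inj x (hL q hq).1 hp' ((hs q hq (hL q hq).1).trans c.symm))
  have h1 := A.lev_le (b := 16) (by decide) (D := centralizer {a24 1}) (L := [])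
    (f := fun p => band (band (blt p 24) (Nat.beq (ac24 1 p) p)) (allL [] fun q => TC.bne p q))
    (d := 3) (m := 8) (by decide) (by decide +kernel) (k 16 (by decide) (by decide +kernel) _ (by decide))
  have h2 := A.lev_le (b := 17) (by decide) (D := centralizer {a24 1}) (L := [16])
    (f := fun p => band (band (blt p 24) (Nat.beq (ac24 1 p) p)) (allL [16] fun q => TC.bne p q))
    (d := 3) (m := 7) (by decide) (by decide +kernel) (k 17 (by decide) (by decide +kernel) _ (by decide))
  have h3 := A.lev_le (b := 18) (by decide) (D := centralizer {a24 1}) (L := [17, 16])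
    (f := fun p => band (band (blt p 24) (Nat.beq (ac24 1 p) p)) (allL [17, 16] fun q => TC.bne p q))
    (d := 3) (m := 6) (by decide) (by decide +kernel) (k 18 (by decide) (by decide +kernel) _ (by decide))
  have h4 := cls_ge bm24 (D := A.sts [18, 17, 16]) (fun i hi => have k := band_iff.1 (band_iff.1 (zc24_ok i hi)).2
    ⟨k.1, A.wd_sts T k.1 k.2⟩) fun i hi => (band_iff.1 (zc24_ok i hi)).1
  have h5 := A.lev_ge T (by decide) (D := ⊤) (fun _ _ => mem_top _) lv240_ok
  have h6 := A.lev_ge T (by decide) (D := ⊤) (fun _ _ => mem_top _) lv241_ok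
  have h7 := A.lev_ge T (by decide) (D := ⊤) (fun _ _ => mem_top _) lv242_ok
  rw [A.sts_nil, inf_top_eq] at h1 h5
  rw [card_top, card24] at h5
  simp only [top_inf_eq] at h5 h6 h7
  rw [wd_one, inf_comm] at h4
  omega

theorem rmU24 (sq : Sq b 14334) (R : RM b 8190 300 ac24 B24) (e : ∀ r ∈ Ee, wd b r = 1) : RM b 14334 300 ac24 B24 :=
  have R' := (rebase bmC24 R (by decide +kernel)).rel.mono (S := 6142) (by decide +kernel)
  rebase bm24 (stepG bmC24 ZU24_ok ZU24_sep ZU24_val sq (List.forall_mem_singleton.2 R')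
    (List.forall_mem_singleton.2 ⟨by decide +kernel, rfl⟩) e (by decide +kernel) R') (by decide +kernel)

theorem rmF24 (sq : Sq b 20478) (R : RM b 8190 300 ac24 B24) (e : ∀ r ∈ EBs, wd b r = 1) : RM b 20478 300 ac24 B24 :=
  have R' := (rebase bmC24 R (by decide +kernel)).rel.mono (S := 4094) (by decide +kernel)
  rebase bm24 (stepG bmC24 ZF24_ok ZF24_sep ZF24_val sq (List.forall_mem_singleton.2 R')
    (List.forall_mem_singleton.2 ⟨by decide +kernel, rfl⟩) e (by decide +kernel) R') (by decide +kernel)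

theorem rmAll24 (R1 : RM b 30718 300 ac24 B24) (R2 : RM b 28670 300 ac24 B24) (R3 : RM b 8190 300 ac24 B24) :
    RM b 32766 300 ac24 B24 := by
  have r1 := (rebase bmC24 R1 (by decide +kernel)).rel
  have r2 := (rebase bmC24 R2 (by decide +kernel)).rel
  have r3 := (rebase bmC24 R3 (by decide +kernel)).rel
  have sq : Sq b 32766 := sq_un R1.sq R2.sq (by decide) (by decide +kernel)
  have P := stepG bmC24 ZP24_ok ZP24_sep ZP24_val (sq.mono (by decide +kernel)) (List.forall_mem_cons.2 ⟨r3,
    List.forall_mem_cons.2 ⟨r1.mono (by decide +kernel), List.forall_mem_singleton.2 (r2.mono (by decide +kernel))⟩⟩)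
    (by simp only [List.forall_mem_cons]; decide +kernel) (by simp) rfl r3
  exact rebase bm24 (stepG bmC24 ZA24_ok ZA24_sep ZA24_val sq (List.forall_mem_cons.2 ⟨P.rel,
    List.forall_mem_cons.2 ⟨r1, List.forall_mem_singleton.2 r2⟩⟩)
    (by simp only [List.forall_mem_cons]; decide +kernel) (by simp) rfl P.rel) (by decide +kernel)

end CA.PM.He
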