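/-
Abstract facts on two classes of involutions which force a subgroup to be the whole group.
-/
import Cfsg.Agent.He.SE

set_option autoImplicit false

namespace CA.PM.He

open Subgroup

variable {G : Type*} [Group G]

/-- no subgroup of odd order of `C_{G0}(t)` is transitive on the `C_{G0}(t)`-class of `z` -/
def NT1 (G0 : Subgroup G) (z t : G) : Prop :=
  ∀ O ≤ G0 ⊓ centralizer {t}, Odd (Nat.card O) →
    ∃ l ∈ G0 ⊓ centralizer {t}, ∀ o ∈ O, o * z * o⁻¹ ≠ l * z * l⁻¹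

/-- two members of the `C_{G0}(t)`-class of `z` commuting with `y` are not fused in the centralizer of `y` modulo `t` -/
def PY (G0 : Subgroup G) (z t y : G) : Prop :=
  ∃ l1 ∈ G0 ⊓ centralizer {t}, ∃ l2 ∈ G0 ⊓ centralizer {t}, Commute (l1 * z * l1⁻¹) y ∧ Commute (l2 * z * l2⁻¹) y ∧
    ∀ g ∈ G0 ⊓ centralizer {t}, (g * y * g⁻¹ = y ∨ g * y * g⁻¹ = y * t) → g * (l1 * z * l1⁻¹) * g⁻¹ ≠ l2 * z * l2⁻¹

/-- a second class of involutions in `C_{G0}(t)/⟨t⟩` whose centralizers are controlled -/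
def NT2 (G0 : Subgroup G) (z t : G) : Prop :=
  ∃ y ∈ G0 ⊓ centralizer {t}, y * y = 1 ∧
    (∀ l ∈ G0 ⊓ centralizer {t}, l * z * l⁻¹ ≠ y ∧ l * z * l⁻¹ ≠ y * t) ∧ PY G0 z t y ∧
    ∀ l ∈ G0 ⊓ centralizer {t}, Commute (l * z * l⁻¹) y → PY G0 z t (y * (l * z * l⁻¹))

/-- facts on the two classes of involutions -/
structure TT' (G0 : Subgroup G) (z t : G) : Prop where
  z2 : z * z = 1
  t2 : t * t = 1
  z1 : z ≠ 1
  zt : Commute z t
  t0 : t ∈ G0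
  cz : ∀ c, Commute c z → c ∈ G0
  nc : ¬ IsConj z t
  nzt : ¬ IsConj z (z * t)
  inv : ∀ u ∈ G0, u * u = 1 → u = 1 ∨ (∃ g ∈ G0, g * t * g⁻¹ = u) ∨ ∃ g ∈ G0, g * z * g⁻¹ = u
  cs : ∀ l ∈ G0 ⊓ centralizer {t}, Commute (l * z * l⁻¹) z →
    l * z * l⁻¹ = z ∨ IsConj z (z * (l * z * l⁻¹)) ∨ IsConj z (z * (l * z * l⁻¹) * t)
  nt : NT1 G0 z t ∨ NT2 G0 z t

/-- a numerical criterion -/
theorem NT1.of_index [Finite G] {G0 : Subgroup G} {z t : G} (h : ∀ O ≤ G0 ⊓ centralizer {t}, Odd (Nat.card O) →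
    ¬ (centralizer {z}).relIndex (G0 ⊓ centralizer {t}) ∣ Nat.card O) : NT1 G0 z t := fun O h1 h2 => by
  by_contra hn
  push Not at hn
  refine h O h1 h2 ?_
  rw [CA.Loc.card_eq_orbit _ z, CA.Loc.relIndex_cent]
  refine Dvd.dvd.mul_right (dvd_of_eq (congrArg _ (Set.Subset.antisymm ?_ ?_))) _
  · rintro y ⟨a, ha, rfl⟩
    exact hn a ha
  · rintro y ⟨a, ha, e⟩; exact ⟨a, h1 ha, e⟩

theorem realizeEqns_He_TP : True := by
  have := @CA.PM.He.PY.eq_1.{0}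
  have := @CA.PM.He.PY.eq_def.{0}
  have := @CA.PM.He.PY.congr_simp.{0}
  have := @CA.PM.He.NT1.eq_1.{0}
  have := @CA.PM.He.NT1.eq_def.{0}
  have := @CA.PM.He.NT1.congr_simp.{0}
  have := @CA.PM.He.NT2.eq_1.{0}
  have := @CA.PM.He.NT2.eq_def.{0}
  have := @CA.PM.He.NT2.congr_simp.{0}
  trivial

end CA.PM.He
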