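/-
The facts on the two classes of involutions, in an arbitrary model.
-/
import Cfsg.Agent.He.Top
import Cfsg.Agent.He.TP

set_option autoImplicit false
set_option maxRecDepth 100000

namespace CA.PM.He

open CA.TC CA.Fi Subgroup

variable {G : Type*} [Group G] [Finite G] {b : ℕ → G} {n : ℕ} {act : ℕ → ℕ → ℕ} {Bs : List ℕ}

theorem HS.cz (H : HS b) (c : G) (h : Commute c (b 1)) : c ∈ gp b 32766 := gp_mono (by decide +kernel) (H.mem h)

theorem HS.eL (H : HS b) : gp b 32766 ⊓ centralizer {wd b [2, 7]} ⊓ centralizer {b 1} = cW b [[2, 7], [1]] := by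
  ext x
  simp only [mem_inf, mem_cW, mem_cent_iff, List.forall_mem_cons, wd_one]
  exact ⟨fun h => ⟨h.1.2, h.2, by simp⟩, fun h => ⟨⟨H.cz x h.2.1, h.1⟩, h.2.1⟩⟩

theorem HS.cardS (H : HS b) : Nat.card (cW b [[2, 7], [1]]) = 512 :=
  H.chains.2.2.2.2.2.1.antisymm (le_ncard (Set.toFinite _) (fun i => wd b (eS i))
    (fun i hi => mem_cW.2 fun y hy => H.bm.rm.comm (allL_spec (band_iff.1 (eS_ok i hi)).2 y hy))
    (H.bm.wd_inj H.bm.ltB (sub_refl _) fun i hi => (band_iff.1 (eS_ok i hi)).1).2)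

theorem cardL (M : BM b 32766 n act Bs) {N : ℕ} {W : ℕ → List ℕ} {kt : ℕ → ℕ}
    (h : ∀ i < N, ccChk act Bs 32766 [] [2, 7] W kt i = true) :
    N * Nat.card (gp b 32766 ⊓ centralizer {wd b [2, 7]} : Subgroup G) ≤ Nat.card (gp b 32766) := by
  have a1 := cls_cc M h
  have e0 : cW b [] = ⊤ := eq_top_iff.2 fun _ _ => mem_cW.2 (by simp)
  rwa [e0, inf_top_eq] at a1

omit [Finite G] in
theorem cc_mem (M : BM b 32766 n act Bs) {z : List ℕ} {W : ℕ → List ℕ} {kt : ℕ → ℕ} {i : ℕ}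
    (h : ccChk act Bs 32766 [[2, 7]] z W kt i = true) :
    wd b (W i) ∈ gp b 32766 ⊓ centralizer {wd b [2, 7]} ∧
      wd b (W i ++ (z ++ rv (W i))) = wd b (W i) * wd b z * (wd b (W i))⁻¹ := by
  have k := band_iff.1 (band_iff.1 h).2
  exact ⟨⟨wd_mem_gp k.1, mem_cent_iff.2 (M.rm.comm (allL_spec k.2 _ List.mem_cons_self))⟩,
    by simp only [wd_append, rv_eq, M.sq.rev k.1, mul_assoc]⟩

theorem clsL (M : BM b 32766 n act Bs) (H : HS b) {N : ℕ} {W : ℕ → List ℕ} {kt : ℕ → ℕ}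
    (h : ∀ i < N, ccChk act Bs 32766 [[2, 7]] [1] W kt i = true)
    (hc : Nat.card (gp b 32766 ⊓ centralizer {wd b [2, 7]} : Subgroup G) ≤ N * 512) :
    Nat.card (gp b 32766 ⊓ centralizer {wd b [2, 7]} : Subgroup G) = N * 512 ∧
      ∀ l ∈ gp b 32766 ⊓ centralizer {wd b [2, 7]}, ∃ i < N, wd b (W i ++ ([1] ++ rv (W i))) = l * b 1 * l⁻¹ := by
  have a2 := cls_cc M h
  rw [cW_one, wd_one, H.eL, H.cardS] at a2
  have a3 := CA.Loc.card_eq_orbit (gp b 32766 ⊓ centralizer {wd b [2, 7]}) (b 1)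
  rw [H.eL, H.cardS] at a3
  refine ⟨hc.antisymm a2, fun l hl => exists_of_ncard (Set.toFinite
    {y | ∃ c ∈ gp b 32766 ⊓ centralizer {wd b [2, 7]}, c * b 1 * c⁻¹ = y}) (by omega)
    (fun i => wd b (W i ++ ([1] ++ rv (W i)))) (fun i hi => ⟨_, (cc_mem M (h i hi)).1, by
      rw [(cc_mem M (h i hi)).2, wd_one]⟩) (M.wd_inj M.ltB (sub_refl _) fun i hi => (band_iff.1 (h i hi)).1).2
        ⟨l, hl, rfl⟩⟩

theorem tt_gen (M : BM b 32766 n act Bs) (H : HS b) (hn : ¬ IsConj (b 1) (wd b [2, 7]))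
    (h0 : ¬ 2 ^ (10 + 1) ∣ Nat.card (gp b 32766)) {E : ℕ → List ℕ}
    (hE : ∀ i < 1024, bor (bor (neW act 32766 Bs [eT i, eT i] []) (leq (eT i) []))
      (bor (eqW act 32766 Bs [E i, [2, 7]] [eT i, E i]) (eqW act 32766 Bs [E i, [1]] [eT i, E i])) = true)
    {N : ℕ} {U C : ℕ → List ℕ}
    (hU : ∀ l ∈ gp b 32766 ⊓ centralizer {wd b [2, 7]}, ∃ i < N, wd b (U i) = l * b 1 * l⁻¹)
    (hC : ∀ i < N, bor (bor (neW act 32766 Bs [U i, [1]] [[1], U i]) (eqW act 32766 Bs [U i] [[1]]))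
      (bor (eqW act 32766 Bs [C i, [1]] [1 :: U i, C i])
        (eqW act 32766 Bs [C i, [1]] [1 :: (U i ++ [2, 7]), C i])) = true)
    (nt : NT1 (gp b 32766) (b 1) (wd b [2, 7]) ∨ NT2 (gp b 32766) (b 1) (wd b [2, 7])) :
    TT' (gp b 32766) (b 1) (wd b [2, 7]) := by
  have R := H.bm.rm
  have m : ∀ {u v w : List ℕ}, eqW act 32766 Bs [u, v] [w, u] = true → wd b u ∈ gp b 32766 := fun h =>
    wd_mem_gp (eqW_inS h _ List.mem_cons_self)
  refine ⟨H.le.z_sq, by simpa [mul_assoc] using R.one (u := [2, 7, 2, 7]) (by decide +kernel), H.le.z_ne,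
    by simpa using R.comm (u := [1]) (v := [2, 7]) (by decide +kernel), wd_mem_gp (by decide +kernel), H.cz, hn,
    fun c => hn (c.trans (isConj_iff.2 ⟨_, by
      simpa using R.conj (u := [4]) (z := [1, 2, 7]) (y := [2, 7]) (by decide +kernel)⟩)), fun u hu h2 => ?_,
    fun l hl c => ?_, nt⟩
  · have le : gp b 2046 ≤ gp b 32766 := gp_mono (by decide +kernel)
    have c1 := ((R.mono (T := 2046) (by decide +kernel)).cov_card (by decide) (by decide) (by decide +kernel) cT_ok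
      ⟨inferInstance, H.cardQ.le⟩).2
    have c2 := H.bm.le_card_en H.bm.ltB (by decide +kernel) eT_ok (K := gp b 2046) fun _ => mem_gp
    obtain ⟨P, hP⟩ := CA.Loc.exists_sylow (p := 2) (k := 10) (X := (gp b 2046).subgroupOf (gp b 32766))
      (by rw [Nat.card_congr (subgroupOfEquivOfLe le).toEquiv]; omega) h0
    obtain ⟨⟨a, ha⟩, k⟩ := exists_conj_le_sylow P (T := zpowers ⟨u, hu⟩)
      (CA.Typ.isP_zpowers (k := 1) (Subtype.ext ((pow_two u).trans h2)))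
    have k' := k _ (mem_zpowers _)
    rw [hP] at k'
    obtain ⟨i, hi, -, e⟩ := H.bm.enum H.bm.ltB (by decide +kernel) eT_ok (fun _ => mem_gp) c1 k'
    have e' : u = a * wd b (eT i) * a⁻¹ := by rw [e]; simp [mul_assoc]
    rcases bor_iff.1 (hE i hi) with k | k <;> rcases bor_iff.1 k with k | k
    · refine absurd ?_ (M.ne k)
      rw [e', show a * wd b (eT i) * a⁻¹ * (a * wd b (eT i) * a⁻¹) = a * (wd b (eT i) * wd b (eT i)) * a⁻¹ by group] at h2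
      simpa using h2
    · exact Or.inl (by rw [e', leq_spec k]; simp)
    · exact Or.inr (Or.inl ⟨_, mul_mem ha (m k), by rw [e', ← M.rm.conj k]; group⟩)
    · exact Or.inr (Or.inr ⟨_, mul_mem ha (m k), by rw [e', ← M.rm.conj k, wd_one]; group⟩)
  obtain ⟨i, hi, e⟩ := hU l hl
  rw [← e] at c ⊢
  rcases bor_iff.1 (hC i hi) with k | k <;> rcases bor_iff.1 k with k | k
  · exact absurd (wd_one b 1 ▸ c) (M.ncomm k)
  · exact Or.inl (by rw [M.rm.eq1 k, wd_one])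
  · exact Or.inr (Or.inl (isConj_iff.2 ⟨_, by simpa using M.rm.conj k⟩))
  · exact Or.inr (Or.inr (isConj_iff.2 ⟨_, by simpa [mul_assoc] using M.rm.conj k⟩))

omit [Finite G] in
theorem nt1_num {G0 : Subgroup G} [Finite G] {z t x5 : G} {c r q m : ℕ} (hq : q.Prime) (q5 : q ≠ 5)
    (c1 : Nat.card (G0 ⊓ centralizer {t} : Subgroup G) = c)
    (c2 : Nat.card ((G0 ⊓ centralizer {t}) ⊓ centralizer {z} : Subgroup G) * r = c) (c0 : ¬ 5 ^ 2 ∣ c)
    (hr : 5 * q ∣ r) (hk : ∀ k, q ^ k ∣ c → q ^ k % 5 = 1 % 5 → k = 0) (h4 : q.Coprime 4)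
    (m5 : x5 ∈ G0 ⊓ centralizer {t}) (o5 : orderOf x5 = 5)
    (d : m ∣ Nat.card ((G0 ⊓ centralizer {t}) ⊓ centralizer {x5} : Subgroup G)) (hm : m.Coprime (5 * q))
    (c5 : Nat.card ((G0 ⊓ centralizer {t}) ⊓ centralizer {x5} : Subgroup G) < m * (5 * q)) : NT1 G0 z t := by
  refine NT1.of_index fun O O1 O2 O3 => ?_
  set L := G0 ⊓ centralizer {t}
  have r' : (centralizer {z}).relIndex L = r := by
    have := CA.FG.card_inf_mul_relIndex (centralizer {z}) L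
    rw [inf_comm, c1, ← c2] at this
    exact Nat.eq_of_mul_eq_mul_left Nat.card_pos this
  have dO : Nat.card O ∣ c := c1 ▸ card_dvd_of_le O1
  obtain ⟨Y, Y1, Y2, Y3⟩ := no_odd O2 (p := 5) (q := q) (by decide) hq q5.symm (hr.trans (r' ▸ O3))
    (fun h => c0 (h.trans dO)) fun k h1 h2 => hk k (h1.trans dO) h2
  haveI : Fact (Nat.Prime 5) := ⟨by decide⟩
  haveI : Fact (Nat.Prime q) := ⟨hq⟩
  obtain ⟨⟨y, hy⟩, oy⟩ := exists_prime_orderOf_dvd_card' q Y3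
  obtain ⟨⟨x, hx⟩, ox⟩ := exists_prime_orderOf_dvd_card' 5 (Y2 ▸ dvd_refl _ : 5 ∣ Nat.card Y)
  rw [← orderOf_coe] at oy ox
  have xy : Commute y x := by
    have a1 := CA.FG.relIndex_cent_dvd_pred (by decide) Y2 (zpowers_le.2 hy.2)
    have a2 := relIndex_dvd_card (centralizer (Y : Set _)) (zpowers y)
    rw [Nat.card_zpowers, oy] at a2
    exact mem_cent_subgroup_iff.1 (relIndex_eq_one.1 (Nat.eq_one_of_dvd_coprimes h4.symm a1 a2)
      (mem_zpowers y)) x hx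
  obtain ⟨⟨g, hg⟩, e⟩ := CA.Loc.conj_of_card (G := L) (p := 5) (k := 1) (by decide)
    (by rw [c1]; exact c0) (zpowers ⟨x, O1 (Y1 hx)⟩) (zpowers ⟨x5, m5⟩)
    (by rw [Nat.card_zpowers, ← orderOf_coe, ox]; rfl) (by rw [Nat.card_zpowers, ← orderOf_coe, o5]; rfl)
  obtain ⟨_, ⟨i, rfl⟩, e'⟩ : _ ∈ _ := e.symm ▸ mem_zpowers _
  have e2 : g * x ^ i * g⁻¹ = x5 := congrArg Subtype.val e'
  have d7 : q ∣ Nat.card (L ⊓ centralizer {x5} : Subgroup G) := by
    refine Dvd.dvd.trans ?_ (Subgroup.orderOf_dvd_natCard _ (x := g * y * g⁻¹)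
      ⟨L.mul_mem (mul_mem hg (O1 hy.1)) (inv_mem hg), mem_cent_iff.2 (e2 ▸ commute_conj_iff.2 (xy.zpow_right i))⟩)
    rw [← orderOf_eq_of_isConj (isConj_iff.2 ⟨g, rfl⟩), oy]
  have d5 := o5 ▸ Subgroup.orderOf_dvd_natCard (L ⊓ centralizer {x5}) ⟨m5, mem_cent_iff.2 (Commute.refl _)⟩
  exact absurd (Nat.le_of_dvd Nat.card_pos (hm.mul_dvd_of_dvd_of_dvd d
    (((Nat.coprime_primes (by decide) hq).2 q5.symm).mul_dvd_of_dvd_of_dvd d5 d7))) c5.not_ge

theorem TT.tt1 {G0 : Subgroup G} {z t : G} (h : TT G0 z t) : TT' G0 z t := by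
  obtain ⟨x5, m5, o5, c5⟩ := h.c5
  have nzt : ¬ IsConj z (z * t) := fun c => h.nc (c.trans h.tzt.symm)
  refine ⟨h.z2, h.t2, h.z1, h.zt, h.t0, h.cz, h.nc, nzt, h.inv, fun l hl c => ?_, Or.inl (nt1_num (q := 7) (r := 315)
    (m := 1) (by decide) (by decide) h.c1 (by rw [h.c2]) (by decide) (by decide) (fun k h1 h2 => ?_) (by decide) m5 o5
    (one_dvd _) (by decide) c5)⟩
  · have i : IsConj z (l * z * l⁻¹) := isConj_iff.2 ⟨l, rfl⟩
    have lt := mem_cent_iff.1 hl.2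
    rcases h.cs _ c ((lt.mul_left h.zt).mul_left lt.inv_left)
      (by rw [show l * z * l⁻¹ * (l * z * l⁻¹) = l * (z * z) * l⁻¹ by group, h.z2]; simp)
      with a | ⟨a, -, a'⟩ | ⟨-, ⟨-, a⟩ | ⟨k, -, a⟩⟩
    · exact absurd (by simpa using a) h.z1
    · exact absurd (i.trans (isConj_iff.2 ⟨a, a'⟩).symm) h.nc
    · exact a
    · exact absurd (i.trans (isConj_iff.2 ⟨k, a⟩)) (h.nz lt)
  · rcases k with _ | _ | k
    · rfl
    · exact absurd h2 (by decide)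
    · exact absurd ((pow_dvd_pow 7 (by omega : 2 ≤ k + 1 + 1)).trans h1) (by decide)

end CA.PM.He
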