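/-
The facts on the two classes of involutions for `L₅(2)` and `M₂₄`.
-/
import Cfsg.Agent.He.TG
import Cfsg.Agent.He.TT5
import Cfsg.Agent.He.TT24
import Cfsg.Agent.He.TX5
import Cfsg.Agent.He.TX24

set_option autoImplicit false
set_option maxRecDepth 100000

namespace CA.PM.He

open CA.TC CA.Fi Subgroup

variable {G : Type*} [Group G] [Finite G] {b : ℕ → G}

theorem tt24 (M : BM b 32766 300 ac24 B24) (H : HS b) (hn : ¬ IsConj (b 1) (wd b [2, 7]))
    (h0 : Nat.card (gp b 32766) = 244823040) : TT' (gp b 32766) (b 1) (wd b [2, 7]) := by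
  have a1 := cardL M tX24_ok
  obtain ⟨c1, c2⟩ := clsL M H zL24_ok (by omega)
  have a3 := cls_cc M fL24_ok
  rw [cW_one] at a3
  have xt := M.rm.comm (u := x24) (v := [2, 7]) (by decide +kernel)
  refine tt_gen M H hn (by rw [h0]; decide) eT24_f c2 zL24_f (Or.inl (nt1_num (q := 3) (r := 15) (m := 2)
    (x5 := wd b x24) (by decide) (by decide) c1 (by rw [H.eL, H.cardS]) (by decide) (by decide) (fun k h1 h2 => ?_)
    (by decide) ⟨wd_mem_gp (by decide +kernel), mem_cent_iff.2 xt⟩ ?_ ?_ (by decide) (by omega)))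
  · rcases k with _ | _ | k
    · rfl
    · exact absurd h2 (by decide)
    · exact absurd ((pow_dvd_pow 3 (by omega : 2 ≤ k + 1 + 1)).trans h1) (by decide)
  · haveI : Fact (Nat.Prime 5) := ⟨by decide⟩
    exact orderOf_eq_prime (M.rm.pow (by decide +kernel)) (M.ne1 (v := []) (by decide +kernel))
  · have o : orderOf (wd b [2, 7]) = 2 := orderOf_two_of
      (by simpa [mul_assoc] using H.bm.rm.one (u := [2, 7, 2, 7]) (by decide +kernel))
      (H.bm.ne1 (v := []) (by decide +kernel))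
    exact (dvd_of_eq o.symm).trans <| Subgroup.orderOf_dvd_natCard _
      ⟨⟨wd_mem_gp (by decide +kernel), mem_cent_iff.2 (Commute.refl _)⟩, mem_cent_iff.2 xt.symm⟩

theorem tt5 (M : BM b 32766 31 ac5 B5) (H : HS b) (hn : ¬ IsConj (b 1) (wd b [2, 7]))
    (h0 : Nat.card (gp b 32766) = 9999360) : TT' (gp b 32766) (b 1) (wd b [2, 7]) := by
  have a1 := cardL M tX5_ok
  obtain ⟨-, c2⟩ := clsL M H zL5_ok (by omega)
  have l2 : wd b l5 ∈ gp b 32766 ⊓ centralizer {wd b [2, 7]} :=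
    ⟨wd_mem_gp (by decide +kernel), mem_cent_iff.2 (M.rm.comm (by decide +kernel))⟩
  have e2 := M.rm.conj (u := l5) (z := [1]) (y := [10]) (by decide +kernel)
  rw [wd_one] at e2
  have py : ∀ j ∈ [0, 1, 2, 3], PY (gp b 32766) (b 1) (wd b [2, 7]) (wd b (y5 j)) := fun j hj => by
    have k := band_iff.1 (allL_spec (show allL [0, 1, 2, 3] (fun j => band (eqW ac5 32766 B5 [[1], y5 j] [y5 j, [1]])
      (eqW ac5 32766 B5 [[10], y5 j] [y5 j, [10]])) = true by decide +kernel) j hj)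
    refine ⟨1, one_mem _, _, l2, by simpa using M.rm.comm k.1, e2 ▸ M.rm.comm k.2, fun g hg h e => ?_⟩
    obtain ⟨i, hi, -, e3⟩ := enum_cW H.bm eS_ok H.cardS.le (x := (wd b l5)⁻¹ * g)
      (H.eL ▸ ⟨Subgroup.mul_mem _ (Subgroup.inv_mem _ l2) hg, mem_cent_iff.2 (conj_eq_iff_commute.1 (by
        calc _ = (wd b l5)⁻¹ * (g * (1 * b 1 * 1⁻¹) * g⁻¹) * wd b l5 := by group
          _ = _ := by rw [e]; group))⟩)
    have k := band_iff.1 (allL_spec (eS5_f i hi) j hj)
    have e4 : g = wd b l5 * wd b (eS i) := by rw [e3]; group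
    rw [mul_inv_eq_iff_eq_mul, mul_inv_eq_iff_eq_mul, e4] at h
    exact h.elim (fun h => M.ne k.1 (by simpa [mul_assoc] using h)) fun h => M.ne k.2 (by
      simpa only [wds_cons, wds_nil, mul_one, mul_assoc] using h)
  refine tt_gen M H hn (by rw [h0]; decide) eT5_f c2 zL5_f (Or.inr ⟨wd b [3], ⟨wd_mem_gp (by decide +kernel),
    mem_cent_iff.2 (M.rm.comm (by decide +kernel))⟩, by simpa using M.sq 3 rfl, fun l hl => ?_, py 3 (by simp),
    fun l hl _ => ?_⟩) <;> obtain ⟨i, hi, e⟩ := c2 l hl <;> rw [← e]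
  · have k := band_iff.1 ((show ∀ i < 3, band (neW ac5 32766 B5 [zL5 i ++ ([1] ++ rv (zL5 i))] [[3]])
      (neW ac5 32766 B5 [zL5 i ++ ([1] ++ rv (zL5 i))] [[3] ++ [2, 7]]) = true by decide +kernel) i hi)
    exact ⟨M.ne1 k.1, wd_append b [3] [2, 7] ▸ M.ne1 k.2⟩
  · have := py i (by interval_cases i <;> simp)
    rwa [show y5 i = [3] ++ (zL5 i ++ ([1] ++ rv (zL5 i))) by interval_cases i <;> rfl, wd_append] at this

end CA.PM.He
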