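/-
A subgroup containing the centralizers of the conjugates of an involution and of their commuting products, II.
-/
import Cfsg.Agent.He.TP

set_option autoImplicit false

namespace CA.PM.He

open CA.Fi CA.FG Subgroup Cfsg

variable {G : Type*} [Group G]

/-- the hypotheses of the embedding lemma -/
structure SEH (G0 : Subgroup G) (z : G) : Prop where
  hz : orderOf z = 2
  h1 : ∀ c, Commute c z → c ∈ G0
  h2 : ∀ x ∈ G0, IsConj z x → ∃ g ∈ G0, g * z * g⁻¹ = x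
  p : ∀ x y, IsConj z x → IsConj z y → Commute x y → x ≠ y → x * y ∈ G0 → ∀ c, Commute c (x * y) → c ∈ G0

namespace SEH

variable {G0 : Subgroup G} {z : G} (H : SEH G0 z)
include H

theorem sq (x : G) (hx : IsConj z x) : x * x = 1 := by
  rw [← pow_two, ← H.hz, orderOf_eq_of_isConj hx, pow_orderOf_eq_one]

omit H in
theorem cj (x g : G) (hx : IsConj z x) : IsConj z (g * x * g⁻¹) := hx.trans (isConj_iff.2 ⟨g, rfl⟩)

theorem f (x : G) (hx : x ∈ G0) (ix : IsConj z x) (g : G) (hg : g * x * g⁻¹ ∈ G0) : g ∈ G0 := by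
  obtain ⟨a, ha, rfl⟩ := H.h2 x hx ix
  obtain ⟨b, hb, e⟩ := H.h2 _ hg (cj _ g ix)
  have := H.h1 (b⁻¹ * g * a) (conj_eq_iff_commute.1 (by
    calc _ = b⁻¹ * (g * (a * z * a⁻¹) * g⁻¹) * b := by group
      _ = z := by rw [← e]; group))
  simpa [mul_assoc] using G0.mul_mem (G0.mul_mem hb this) (G0.inv_mem ha)

theorem ex (hne : G0 ≠ ⊤) : ∃ u ∉ G0, IsConj z u := by
  by_contra h
  push Not at h
  exact hne (eq_top_iff.2 fun g _ => H.f z (H.h1 z (Commute.refl z)) (IsConj.refl z) g (by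
    by_contra e; exact h _ e (cj z g (IsConj.refl z))))

variable [Finite G]

theorem ev (x u : G) (hx : IsConj z x) (hu : IsConj z u) (h : Even (orderOf (x * u))) :
    ∃ k : ℕ, ((x * u) ^ k ∈ G0 → ∀ c, Commute c ((x * u) ^ k) → c ∈ G0) ∧ Commute x ((x * u) ^ k) ∧
      Commute u ((x * u) ^ k) := by
  obtain ⟨k, k1, k2⟩ := dih_exists_of_even h
  have c := dih_commute (H.sq x hx) (H.sq u hu) k1
  refine ⟨k, ?_, c⟩
  have := H.p x (x * (x * u) ^ k) hx ((dih_isConj_or (H.sq x hx) (H.sq u hu) k).elim hx.trans hu.trans)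
    ((Commute.refl x).mul_right c.1) (by simpa using k2)
  rwa [← mul_assoc, H.sq x hx, one_mul] at this

theorem o (x : G) (hx : x ∈ G0) (ix : IsConj z x) (u : G) (hu : u ∉ G0) (iu : IsConj z u) :
    Odd (orderOf (x * u)) := by
  rw [← Nat.not_even_iff_odd]
  intro h
  obtain ⟨k, k1, k2, k3⟩ := H.ev x u ix iu h
  exact hu (k1 (H.f x hx ix _ (by rwa [k2.symm.eq, mul_inv_cancel_right])) u k3)

theorem tr (hne : G0 ≠ ⊤) : ∃ O ≤ G0, Odd (Nat.card O) ∧ ∀ a ∈ G0, ∃ o ∈ O, o * z * o⁻¹ = a * z * a⁻¹ := by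
  have z0 : z ∈ G0 := H.h1 z (Commute.refl z)
  have sq := H.sq
  have cj := cj (z := z)
  have f := H.f
  have ev := H.ev
  have o := H.o
  have p := H.p
  have hz := H.hz
  obtain ⟨u, hu, iu⟩ := H.ex hne
  have u2 := sq u iu
  have ui : u⁻¹ = u := inv_eq_of_mul_eq_one_left u2
  have u2' : ∀ t, u * (u * t) = t := fun t => by rw [← mul_assoc, u2, one_mul]
  let D : G → Prop := fun d => d ∈ G0 ∧ u * d * u ∈ G0
  have Dm : ∀ a b, D a → D b → D (a * b) := fun a b ha hb =>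
    ⟨G0.mul_mem ha.1 hb.1, by simpa [mul_assoc, u2'] using G0.mul_mem ha.2 hb.2⟩
  have Di : ∀ a, D a → D a⁻¹ := fun a ha => ⟨G0.inv_mem ha.1, by simpa [mul_assoc, ui] using G0.inv_mem ha.2⟩
  have Du : ∀ a, D a → D (u * a * u) := fun a ha => ⟨ha.2, by simpa [mul_assoc, u2', u2] using ha.1⟩
  let L : Subgroup G :=
    { carrier := {g | D g ∨ D (g * u)}
      one_mem' := Or.inl ⟨G0.one_mem, by simpa [u2] using G0.one_mem⟩
      mul_mem' := by
        rintro a b (ha | ha) (hb | hb)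
        · exact Or.inl (Dm _ _ ha hb)
        · exact Or.inr (by simpa [mul_assoc] using Dm _ _ ha hb)
        · exact Or.inr (by simpa [mul_assoc, u2'] using Dm _ _ ha (Du _ hb))
        · exact Or.inl (by simpa [mul_assoc, u2', u2] using Dm _ _ ha (Du _ hb))
      inv_mem' := by
        rintro a (ha | ha)
        · exact Or.inl (Di _ ha)
        · exact Or.inr (by simpa [mul_assoc, u2', ui] using Du _ (Di _ ha)) }
  have uL : u ∈ L := Or.inr (by rw [u2]; exact ⟨G0.one_mem, by simpa [u2] using G0.one_mem⟩)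
  have iso : ∀ g : L, Commute (⟨u, uL⟩ : L) (g * ⟨u, uL⟩ * g⁻¹) → g * ⟨u, uL⟩ * g⁻¹ = ⟨u, uL⟩ := by
    rintro ⟨g, hg⟩ hc
    have hc' : Commute u (g * u * g⁻¹) := congrArg Subtype.val hc
    by_contra ne
    have i := p _ _ iu (cj u g iu) hc' fun e => ne (Subtype.ext e.symm)
    have d : D (u * (g * u * g⁻¹)) := by
      rcases hg with hg | hg
      · simpa [mul_assoc] using Dm _ _ (Du _ hg) (Di _ hg)
      · simpa [mul_assoc, u2', ui] using Dm _ _ (Du _ hg) (Di _ hg)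
    exact hu (i d.1 u ((Commute.refl u).mul_right hc'))
  have hn : (pPrimeCore 2 L).Normal := by
    rw [pPrimeCore_eq_top Nat.prime_two]; exact normalIn_top.mp (pcore_normal _ _)
  have od : Odd (Nat.card ((pPrimeCore 2 L).map L.subtype)) := by
    rw [card_map_of_injective L.subtype_injective]; exact CA.Blk.odd_card_oddCore L
  have le : (pPrimeCore 2 L).map L.subtype ≤ G0 := by
    rintro _ ⟨⟨x, hx⟩, h, rfl⟩
    refine mem_of_sq_mem (od.of_dvd_nat (Subgroup.orderOf_dvd_natCard _ ⟨_, h, rfl⟩)) ?_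
    rcases hx with hx | hx
    · exact G0.mul_mem hx.1 hx.1
    · simpa [mul_assoc, u2', u2] using (Dm _ _ hx (Du _ hx)).1
  refine ⟨_, le, od, fun a ha => ?_⟩
  have y0 : a * z * a⁻¹ ∈ G0 := G0.mul_mem (G0.mul_mem ha z0) (G0.inv_mem ha)
  have iy := cj z a (IsConj.refl z)
  generalize a * z * a⁻¹ = y at *
  have iy' := cj y u iy
  obtain ⟨k, hk⟩ := dih_conj_of_odd (sq _ iy') (sq z (IsConj.refl z)) (o z z0 (IsConj.refl z) _
    (fun e => hu (f y y0 iy u e)) iy') (by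
      rw [← orderOf_inv, mul_inv_rev, inv_eq_of_mul_eq_one_left (sq _ iy'),
        inv_eq_of_mul_eq_one_left (sq z (IsConj.refl z)), pow_orderOf_eq_one])
  have t2 := sq _ iy'
  have iw : IsConj z _ := cj _ (u * y * u⁻¹)
    ((dih_isConj_or t2 (sq z (IsConj.refl z)) k).elim iy'.trans id)
  have ey : u * (u * y * u⁻¹) * u⁻¹ = y := by simp [mul_assoc, ui, u2', u2]
  generalize u * y * u⁻¹ = t at *
  generalize (t * z) ^ k = r at *
  have e : t * (t * r) * t⁻¹ * z * (t * (t * r) * t⁻¹)⁻¹ = t := by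
    have := sq _ iw
    rw [← inv_eq_of_mul_eq_one_left this, inv_inv, ← mul_assoc t t, t2, one_mul]
    calc (r * t⁻¹)⁻¹ * z * (r * t⁻¹) = t * (r⁻¹ * z * r⁻¹⁻¹) * t⁻¹ := by group
      _ = t := by rw [hk]; group
  generalize t * (t * r) * t⁻¹ = w at *
  have e2 : u * w * z * (u * w)⁻¹ = y := by rw [← ey, ← e]; group
  have d0 := f z z0 (IsConj.refl z) _ (e2 ▸ y0)
  have e3 : u * (u * w) * u = (u * w)⁻¹ := by
    rw [u2', mul_inv_rev, ui, inv_eq_of_mul_eq_one_left (sq w iw)]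
  have dL : u * w ∈ L := Or.inl ⟨d0, e3 ▸ G0.inv_mem d0⟩
  refine ⟨u * w, mem_of_sq_mem ?_ ?_, e2⟩
  · rw [← Nat.not_even_iff_odd]
    intro h
    obtain ⟨k, k1, k2, -⟩ := ev u w iu iw h
    exact hu (k1 (G0.pow_mem d0 k) u k2)
  · obtain ⟨k, k1, k2⟩ := CA.Blk.Zstar_conj (t := (⟨u, uL⟩ : L))
      (by rw [← orderOf_coe, ← orderOf_eq_of_isConj iu, hz]) iso ⟨_, dL⟩
    refine ⟨_, mul_mem k1 (hn.conj_mem _ (inv_mem k1) ⟨u, uL⟩), ?_⟩
    have k3 : u * w * u * (u * w)⁻¹ = k * u * (k : G)⁻¹ := congrArg Subtype.val k2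
    show (k : G) * (u * (k : G)⁻¹ * u⁻¹) = _
    rw [← mul_assoc, ← mul_assoc, ← k3, ui]
    simp [mul_assoc, u2', u2, ui, inv_eq_of_mul_eq_one_left (sq w iw)]

theorem cent {y x1 x2 : G} (m1 : x1 ∈ G0) (m2 : x2 ∈ G0) (i1 : IsConj z x1) (i2 : IsConj z x2) (c1 : Commute x1 y)
    (c2 : Commute x2 y) (h : ∀ g ∈ G0, Commute g y → g * x1 * g⁻¹ ≠ x2) {c : G} (hc : Commute c y) : c ∈ G0 := by
  by_contra hn
  have n : c * x1 * c⁻¹ ∉ G0 := fun e => hn (H.f x1 m1 i1 c e)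
  have i := cj x1 c i1
  have c3 : Commute (c * x1 * c⁻¹) y := (hc.mul_left c1).mul_left hc.inv_left
  generalize c * x1 * c⁻¹ = x at *
  obtain ⟨k, e1⟩ := dih_conj_of_odd (H.sq x1 i1) (H.sq x i) (H.o x1 m1 i1 x n i) (pow_orderOf_eq_one _)
  obtain ⟨l, e2⟩ := dih_conj_of_odd (H.sq x2 i2) (H.sq x i) (H.o x2 m2 i2 x n i) (pow_orderOf_eq_one _)
  have d1 := (c1.mul_left c3).pow_left k
  have d2 := (c2.mul_left c3).pow_left l
  generalize (x1 * x) ^ k = r at *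
  generalize (x2 * x) ^ l = s at *
  have e : s⁻¹ * r * x1 * (s⁻¹ * r)⁻¹ = x2 := by rw [← e1, ← e2]; group
  exact h _ (H.f x1 m1 i1 _ (e ▸ m2)) (d2.inv_left.mul_left d1) e

theorem top {y : G} (y2 : y * y = 1) (n : ¬ IsConj z y) (h : ∀ c, Commute c y → c ∈ G0)
    (h' : ∀ x ∈ G0, IsConj z x → Commute x y → ∀ c, Commute c (y * x) → c ∈ G0) : G0 = ⊤ := by
  by_contra hne
  obtain ⟨u, hu, iu⟩ := H.ex hne
  have u2 := H.sq u iu
  obtain ⟨k, k1, k2⟩ := dih_exists_of_even (dih_even_of_not_isConj y2 u2 fun e => n (iu.trans e.symm))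
  obtain ⟨c1, c2⟩ := dih_commute y2 u2 k1
  have w0 := h _ c1.symm
  rcases Nat.even_or_odd' k with ⟨j, rfl | rfl⟩
  · have e : (y * u) ^ (2 * j) = (u * y) ^ (2 * j) := by
      rw [← inv_eq_of_mul_eq_one_right k1, ← inv_pow, mul_inv_rev, inv_eq_of_mul_eq_one_right u2,
        inv_eq_of_mul_eq_one_right y2]
    have i : IsConj z (u * (y * u) ^ (2 * j)) := e ▸ iu.trans (isConj_iff.2 ⟨_, dih_even u2 y2 j⟩)
    have := H.p u _ iu i ((Commute.refl u).mul_right c2) (by simpa using k2)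
    rw [← mul_assoc, u2, one_mul] at this
    exact hu (this w0 u c2)
  · have := h' _ (G0.mul_mem (h y (Commute.refl y)) w0) (iu.trans (isConj_iff.2 ⟨_, dih_odd y2 u2 j⟩))
      ((Commute.refl y).mul_left c1.symm) u
    rw [← mul_assoc, y2, one_mul] at this
    exact hu (this c2)

end SEH

end CA.PM.He
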