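/-
Two classes of involutions force a subgroup to be the whole group.
-/
import Cfsg.Agent.He.SE2

set_option autoImplicit false

namespace CA.PM.He

open CA.Fi CA.FG Subgroup Cfsg

variable {G : Type*} [Group G]

namespace TT'

variable {G0 : Subgroup G} {z t : G} (h : TT' G0 z t)
include h

theorem sq (g : G) : g * z * g⁻¹ * (g * z * g⁻¹) = 1 := by
  rw [show g * z * g⁻¹ * (g * z * g⁻¹) = g * (z * z) * g⁻¹ by group, h.z2]; simp

theorem f {g : G} (hg : g * z * g⁻¹ ∈ G0) : g ∈ G0 := by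
  rcases h.inv _ hg (h.sq g) with e | ⟨a, -, e⟩ | ⟨a, a1, e⟩
  · exact absurd (by simpa using e) h.z1
  · exact absurd ((isConj_iff.2 ⟨g, rfl⟩).trans (isConj_iff.2 ⟨a, e⟩).symm) h.nc
  · have := h.cz (a⁻¹ * g) (conj_eq_iff_commute.1 (by
      calc _ = a⁻¹ * (g * z * g⁻¹) * a := by group
        _ = z := by rw [← e]; group))
    simpa using mul_mem a1 this

theorem f' {x g : G} (i : IsConj z x) (hx : x ∈ G0) (hg : g * x * g⁻¹ ∈ G0) : g ∈ G0 := by
  obtain ⟨a, rfl⟩ := isConj_iff.1 i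
  have := h.f (g := g * a) (by simpa [mul_assoc] using hg)
  simpa using mul_mem this (inv_mem (h.f hx))

theorem nz {g : G} (hg : Commute g t) : ¬ IsConj z (g * z * g⁻¹ * t) := fun c =>
  h.nzt (c.trans (isConj_iff.2 ⟨g, by
    rw [← mul_assoc, mul_assoc _ t, hg.inv_left.eq.symm, ← mul_assoc]⟩).symm)

theorem cent_le [Finite G] {c : G} (hc : Commute c t) : c ∈ G0 := by
  set L := centralizer ({t} : Set G) with hL
  let t' : L := ⟨t, mem_cent_iff.2 (Commute.refl t)⟩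
  let z' : L := ⟨z, mem_cent_iff.2 h.zt⟩
  have ct : ∀ a : L, Commute (a : G) t := fun a => mem_cent_iff.1 a.2
  have ct' : ∀ a : L, zpowers t' ≤ centralizer {a} := fun a =>
    zpowers_le.2 (mem_cent_iff.2 (Subtype.ext (ct a).symm.eq))
  haveI nn : (zpowers t').Normal := ⟨fun x hx g => by
    have : Commute g x := (mem_cent_iff.1 (ct' g hx)).symm
    rwa [this.eq, mul_inv_cancel_right]⟩
  let π := QuotientGroup.mk' (zpowers t')
  have hπ : ∀ a a' : L, π a = π a' ↔ (a' : G) = a ∨ (a' : G) = a * t := fun a a' => by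
    rw [QuotientGroup.mk'_apply, QuotientGroup.mk'_apply, QuotientGroup.eq,
      mem_zpowers_iff_of_sq (Subtype.ext h.t2), inv_mul_eq_one, inv_mul_eq_iff_eq_mul, Subtype.ext_iff,
      Subtype.ext_iff, eq_comm]
    rfl
  have su : ∀ y, ∃ a, π a = y := QuotientGroup.mk'_surjective _
  let G1 := ((G0 ⊓ L).subgroupOf L).map π
  have m : ∀ a : L, π a ∈ G1 ↔ (a : G) ∈ G0 := fun a => ⟨by
    rintro ⟨x, hx, e⟩
    rcases (hπ _ _).1 e with e | e <;> rw [e]
    exacts [hx.1, mul_mem hx.1 h.t0], fun k => ⟨a, ⟨k, a.2⟩, rfl⟩⟩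
  have cm : ∀ a x : L, Commute (π a) (π x) → (a : G) * x * (a : G)⁻¹ = x ∨ (a : G) * x * (a : G)⁻¹ = x * t :=
    fun a x k => by
      have := conj_eq_iff_commute.2 k
      rwa [← map_inv, ← map_mul, ← map_mul, eq_comm, hπ] at this
  have cz' : ∀ a g : L, Commute (π a) (π (g * z' * g⁻¹)) → Commute (a : G) (g * z * (g : G)⁻¹) := fun a g k =>
    conj_eq_iff_commute.1 ((cm a _ k).resolve_right fun e => h.nz (ct g)
      ((isConj_iff.2 ⟨(g : G), rfl⟩).trans (isConj_iff.2 ⟨(a : G), e⟩)))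
  have cj : ∀ y, IsConj (π z') y → ∃ g : L, y = π (g * z' * g⁻¹) := fun y k => by
    obtain ⟨g, rfl⟩ := isConj_iff.1 k
    obtain ⟨g, rfl⟩ := su g
    exact ⟨g, by simp⟩
  have cj' : ∀ g : L, IsConj (π z') (π (g * z' * g⁻¹)) := fun g => isConj_iff.2 ⟨π g, by simp⟩
  have H : SEH G1 (π z') := by
    refine ⟨orderOf_two_of (by rw [← map_mul, show z' * z' = 1 from Subtype.ext h.z2, map_one]) fun e => ?_,
      fun c k => ?_, fun x hx k => ?_, fun x y hx hy k ne hm c hc => ?_⟩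
    · rw [← map_one π, eq_comm, hπ] at e
      exact e.elim h.z1 fun e => h.nc (by rw [show z = t by simpa using e])
    · obtain ⟨c, rfl⟩ := su c
      exact (m c).2 (h.cz _ (by simpa using cz' c 1 (by simpa using k)))
    · obtain ⟨g, rfl⟩ := cj x k
      exact ⟨π g, (m _).2 (h.f ((m _).1 hx)), by simp⟩
    · obtain ⟨g, rfl⟩ := cj x hx
      obtain ⟨g', rfl⟩ := cj y hy
      obtain ⟨c, rfl⟩ := su c
      rw [m]
      set l : L := g⁻¹ * g' with hl
      have y1 : Commute ((l : G) * z * (l : G)⁻¹) z := by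
        have := commute_conj_left_iff.1 (cz' _ g k.symm).symm
        simpa [hl, mul_assoc] using this.symm
      obtain ⟨P, P1, P2⟩ : ∃ P : L, IsConj z P ∧ π P = π (g * z' * g⁻¹) * π (g' * z' * g'⁻¹) := by
        have e : π (g * (z' * (l * z' * l⁻¹)) * g⁻¹) = π (g * z' * g⁻¹) * π (g' * z' * g'⁻¹) := by
          rw [← map_mul, hl]; congr 1; group
        rcases h.cs l ⟨h.f (h.cz _ y1), l.2⟩ y1 with a | a | a
        · refine absurd (congrArg π ?_) ne
          calc _ = g * (l * z' * l⁻¹) * g⁻¹ := by rw [show l * z' * l⁻¹ = z' from Subtype.ext a]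
            _ = _ := by rw [hl]; group
        · exact ⟨_, a.trans (isConj_iff.2 ⟨g, rfl⟩), e⟩
        · refine ⟨g * (z' * (l * z' * l⁻¹) * t') * g⁻¹, a.trans (isConj_iff.2 ⟨g, rfl⟩), ?_⟩
          rw [← e]
          simp only [map_mul, show π t' = 1 from (QuotientGroup.eq_one_iff _).2 (mem_zpowers _), mul_one]
      rw [← P2] at hm hc
      have P0 := (m _).1 hm
      refine h.f' P1 P0 ?_
      rcases cm c P hc with e | e <;> rw [e]
      exacts [P0, mul_mem P0 h.t0]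
  refine (m ⟨c, mem_cent_iff.2 hc⟩).1 ((?_ : G1 = ⊤) ▸ mem_top _)
  rcases h.nt with nt | ⟨y, y0, y2, n, p, p'⟩
  · by_contra hne
    obtain ⟨O, O1, O2, O3⟩ := H.tr hne
    have hk : π.ker = zpowers t' := QuotientGroup.ker_mk' _
    obtain ⟨K, hK⟩ := exists_complIn_of_coprime (K := π.ker) (M := O.comap π)
      ⟨ker_le_comap _ _, le_top.trans (normal_iff_top_le_norm.1 inferInstance)⟩ (by
        rw [relIndex_ker, map_comap_eq_self_of_surjective su, hk, Nat.card_zpowers]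
        exact (Nat.coprime_two_left.2 O2).coprime_dvd_left
          (orderOf_dvd_of_pow_eq_one (Subtype.ext ((pow_two t).trans h.t2))))
    have c1 : Nat.card K = Nat.card O := by
      rw [← hK.complIn.relIndex_left, relIndex_ker, map_comap_eq_self_of_surjective su]
    obtain ⟨l, l0, hl⟩ := nt (K.map L.subtype) (by
      rintro _ ⟨x, hx, rfl⟩
      exact ⟨(m x).1 (O1 (hK.right_le hx)), x.2⟩) (by rwa [card_map_of_injective L.subtype_injective, c1])
    obtain ⟨o, o1, o2⟩ := O3 (π ⟨l, l0.2⟩) ((m _).2 l0.1)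
    obtain ⟨o, rfl⟩ := su o
    obtain ⟨a, a1, k, k1, rfl⟩ := (mem_sup_of_right_le_norm hK.norm).1 (hK.sup_eq.ge o1)
    rw [map_mul, MonoidHom.mem_ker.1 a1, one_mul, ← map_inv, ← map_mul, ← map_mul, ← map_inv, ← map_mul,
      ← map_mul, eq_comm, hπ] at o2
    exact o2.elim (hl k ⟨k, k1, rfl⟩) fun e => h.nz (mem_cent_iff.1 l0.2) (isConj_iff.2 ⟨k, e⟩)
  · have py : ∀ y : L, PY G0 z t y → ∀ c, Commute c (π y) → c ∈ G1 := by
      rintro y ⟨l1, m1, l2, m2, c1, c2, k⟩ c hc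
      have z0 := h.cz z (Commute.refl z)
      refine H.cent (x1 := π (⟨l1, m1.2⟩ * z' * (⟨l1, m1.2⟩ : L)⁻¹)) (x2 := π (⟨l2, m2.2⟩ * z' * (⟨l2, m2.2⟩ : L)⁻¹))
        ((m _).2 (mul_mem (mul_mem m1.1 z0) (inv_mem m1.1))) ((m _).2 (mul_mem (mul_mem m2.1 z0) (inv_mem m2.1)))
        (cj' _) (cj' _) (Commute.map (Subtype.ext c1.eq) π) (Commute.map (Subtype.ext c2.eq) π)
        (fun g g0 g1 e => ?_) hc
      obtain ⟨g, rfl⟩ := su g
      rw [← map_inv, ← map_mul, ← map_mul, eq_comm, hπ] at e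
      exact e.elim (k g ⟨(m g).1 g0, g.2⟩ (cm g y g1)) fun e => h.nz (mem_cent_iff.1 m2.2)
        ((isConj_iff.2 ⟨l1, rfl⟩).trans (isConj_iff.2 ⟨g, e⟩))
    let y' : L := ⟨y, y0.2⟩
    refine H.top (y := π y') (by rw [← map_mul, show y' * y' = 1 from Subtype.ext y2, map_one]) (fun i => ?_)
      (py y' p) fun x x0 i k => ?_
    · obtain ⟨g, e⟩ := cj _ i
      have g0 : (g : G) ∈ G0 := h.f ((m _).1 (e ▸ (m y').2 y0.1))
      exact ((hπ _ _).1 e).elim (n g ⟨g0, g.2⟩).1 (n g ⟨g0, g.2⟩).2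
    · obtain ⟨g, rfl⟩ := cj _ i
      rw [← map_mul]
      exact py _ (p' g ⟨h.f ((m _).1 x0), g.2⟩ (cz' y' g k.symm).symm)

theorem top [Finite G] : G0 = ⊤ := by
  have f : ∀ u ∈ G0, u * u = 1 → u ≠ 1 → ∀ c, Commute c u → c ∈ G0 := fun u hu h2 h1 c hc => by
    rcases h.inv u hu h2 with e | ⟨g, g1, e⟩ | ⟨g, g1, e⟩
    · exact absurd e h1
    · have := h.cent_le (c := g⁻¹ * c * g) (commute_conj_left_iff.1 (e ▸ hc.symm)).symm
      simpa [mul_assoc] using mul_mem (mul_mem g1 this) (inv_mem g1)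
    · exact h.f' (isConj_iff.2 ⟨g, e⟩) hu (by rwa [hc.eq, mul_inv_cancel_right])
  refine eq_top_iff.2 fun g _ => h.f ?_
  have hu : IsConj z (g * z * g⁻¹) := isConj_iff.2 ⟨g, rfl⟩
  obtain ⟨k, k1, k2⟩ := dih_exists_of_even (dih_even_of_not_isConj (h.sq g) h.t2 fun c => h.nc (hu.trans c))
  have c := dih_commute (h.sq g) h.t2 k1
  exact f _ (h.cent_le c.2.symm) k1 k2 _ c.1

end TT'

end CA.PM.He
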