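/-
Held's theorem.
-/
import Cfsg.Agent.He.DG
import Cfsg.Agent.He.TM
import Cfsg.Agent.He.TP2
import Cfsg.Agent.He.Fin0
import Cfsg.Agent.He.L5m
import Cfsg.Agent.He.M24m

set_option autoImplicit false
set_option maxRecDepth 100000

namespace CA.PM.He

open CA.TC CA.Fi Subgroup

variable {G : Type*} [Group G] {b : ℕ → G}

theorem gp_sw (b : ℕ → G) : gp (fun g => b (sw g)) 254 = gp b 254 := by
  have k := fun g hg => (show ∀ g < 16, tb 254 g = true → tb 254 (sw g) = true ∧ sw (sw g) = g by decide +kernel) g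
    (lt16 (by decide) hg) hg
  exact le_antisymm (gp_le fun g hg => mem_gp (k g hg).1)
    (gp_le fun g hg => (k g hg).2 ▸ mem_gp (a := fun g => b (sw g)) (k g hg).1)

theorem HS.two (h : HS b) {E F : List (List ℕ)} (hE : allL E (inS 14334) = true) (hF : allL F (inS 14334) = true)
    (h1 : ∃ e, e * e = 1 ∧ ∀ r ∈ E, wd (Function.update b 13 e) r = 1)
    (h2 : ∃ f, f * f = 1 ∧ ∀ r ∈ F, wd (Function.update (fun g => b (He.sw g)) 13 f) r = 1) :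
    ∃ c : ℕ → G, (∀ g, tb 8190 g = true → c g = b g) ∧ HS c ∧ Sq c 14334 ∧ Sq c 20478 ∧ (∀ r ∈ E, wd c r = 1) ∧
      ∀ r ∈ F.map (List.map He.sw), wd c r = 1 := by
  obtain ⟨e, e1, e2⟩ := h1
  obtain ⟨f, f1, f2⟩ := h2
  have a1 := up_eq (b := b) (S := 8190) (k := 13) e rfl
  have a2 := up_eq (b := Function.update b 13 e) (S := 16382) (k := 14) f rfl
  have a3 : ∀ g, tb 14334 g = true → _ := fun g hg => a2 g (tb_sub (by decide +kernel) hg)
  have a : ∀ g, tb 8190 g = true → Function.update (Function.update b 13 e) 14 f g = b g := fun g hg =>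
    (a2 g (tb_sub (by decide +kernel) hg)).trans (a1 g hg)
  refine ⟨_, a, h.congr a, fun g hg => a3 g hg ▸ sq_up h.bm.sq e1 (T := 14334) (by decide) (by decide +kernel) g hg,
    sq_up (RM_congr h.bm.rm a1).sq f1 (by decide) (by decide +kernel),
    fun r hr => (wd_congr a3 (allL_spec hE r hr)).trans (e2 r hr), fun r hr => ?_⟩
  replace hr := List.mem_map.1 hr
  obtain ⟨r, hr, rfl⟩ := hr
  rw [← wd_sw, ← f2 r hr]
  refine wd_congr (S := 14334) (fun g hg => ?_) (allL_spec hF r hr)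
  rcases bor_iff.1 (allS_spec (by decide) (show allS 14334 (fun g => bor (Nat.beq g 13) (tb 8190 g)) = true by
    decide +kernel) hg) with k | k
  · obtain rfl := beq_iff.1 k
    exact (Function.update_self _ _ _).trans (by rw [Function.update_self])
  · exact (a _ (sw_spec k).1).trans (up_eq (b := fun g => b (He.sw g)) (k := 13) f rfl g k).symm

variable [Finite G]

omit [Finite G] in
theorem HS.n27 (h : HS b) (n : ¬ IsConj (b 1) (wd b [3, 7])) : ¬ IsConj (b 1) (wd b [2, 7]) := fun c =>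
  n (c.trans (isConj_iff.2 ⟨_, h.bm.rm.conj (u := [8, 11]) (z := [2, 7]) (y := [3, 7]) (by decide +kernel)⟩))

omit [Finite G] in
theorem HS.nsw (h : HS b) (n : ¬ IsConj (b 1) (wd b [3, 7])) :
    ¬ IsConj ((fun g => b (He.sw g)) 1) (wd (fun g => b (He.sw g)) [3, 7]) := fun c =>
  n (c.trans (isConj_iff.2 ⟨_, h.bm.rm.conj (u := [8, 11, 9, 12, 9]) (z := [6, 2]) (y := [3, 7])
    (by decide +kernel)⟩))

theorem held5 (h : HS b) {g g' : G} (h1 : g * b 1 * g⁻¹ = b 2) (h2 : g⁻¹ * wd b [3, 7] * g ∉ gp b 254)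
    (h3 : g' * b 1 * g'⁻¹ = b 7) (h4 : g'⁻¹ * wd b [6, 2] * g' ∉ gp b 254) (n : ¬ IsConj (b 1) (wd b [3, 7])) :
    TT' ⊤ (b 1) (wd b [2, 7]) ∧ Nonempty (G ≃* X5) := by
  obtain ⟨c, a1, H, s1, s2, e1, e2⟩ := h.two (by decide +kernel) (by decide +kernel)
    (h.exists_eB h1 h2 (isConj_iff.2 ⟨g', h3⟩) n)
    (h.sw.exists_eB (g := g') h3 (gp_sw b ▸ h4) (isConj_iff.2 ⟨g, h1⟩) (h.nsw n))
  have M := H.bm' bm5 hs5
  obtain ⟨d, a2, H', r1, r2, r3⟩ := PG.amal dk5 bm5 hs5 ⟨H, M, rmU5 s1 M.rm e1,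
    rmF5 s2 M.rm ((show EBs = EB.map (List.map He.sw) by decide +kernel) ▸ e2)⟩
  have a : ∀ g, tb 8190 g = true → d g = b g := fun g hg => (a2 g hg).trans (a1 g hg)
  obtain ⟨M', k, φ, inj, r⟩ := embed bm5 top5 hs5 (isConj_iff.2 ⟨wd a5 [5, 13], by
    simpa only [wd_one] using bm5.rm.conj (u := [5, 13]) (z := [1]) (y := [2]) (by decide +kernel)⟩)
    (rmAll5 r1 r2 r3) H'.le.z_ne
  have t := tt5 M' H' (by rw [a 1 rfl, wd_congr a rfl]; exact h.n27 n) (k.trans card5)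
  have e := t.top
  rw [e, a 1 rfl, wd_congr a rfl] at t
  exact ⟨t, iso_of_top inj r e⟩

theorem held24 (h : HS b) {g g' : G} (h1 : g * b 1 * g⁻¹ = b 2) (h2 : g⁻¹ * wd b [3, 7] * g ∈ gp b 254)
    (h3 : g' * b 1 * g'⁻¹ = b 7) (h4 : g'⁻¹ * wd b [6, 2] * g' ∉ gp b 254) (n : ¬ IsConj (b 1) (wd b [3, 7])) :
    TT' ⊤ (b 1) (wd b [2, 7]) ∧ Nat.card G = 244823040 := by
  obtain ⟨c, a1, H, s1, s2, e1, e2⟩ := h.two (by decide +kernel) (by decide +kernel)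
    (h.exists_e h1 h2 (isConj_iff.2 ⟨g', h3⟩) n)
    (h.sw.exists_eB (g := g') h3 (gp_sw b ▸ h4) (isConj_iff.2 ⟨g, h1⟩) (h.nsw n))
  have M := H.bm' bm24 hs24
  obtain ⟨d, a2, H', r1, r2, r3⟩ := PG.amal dk24 bm24 hs24 ⟨H, M, rmU24 s1 M.rm e1,
    rmF24 s2 M.rm ((show EBs = EB.map (List.map He.sw) by decide +kernel) ▸ e2)⟩
  have a : ∀ g, tb 8190 g = true → d g = b g := fun g hg => (a2 g hg).trans (a1 g hg)
  obtain ⟨M', k, -⟩ := embed bm24 top24 hs24 (isConj_iff.2 ⟨wd a24 [5, 13], by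
    simpa only [wd_one] using bm24.rm.conj (u := [5, 13]) (z := [1]) (y := [2]) (by decide +kernel)⟩)
    (rmAll24 r1 r2 r3) H'.le.z_ne
  have t := tt24 M' H' (by rw [a 1 rfl, wd_congr a rfl]; exact h.n27 n) (k.trans card24)
  have e := t.top
  rw [e, a 1 rfl, wd_congr a rfl] at t
  rw [e, card_top, card24] at k
  exact ⟨t, k⟩

theorem heldHe (h : HS b) {g g' : G} (h1 : g * b 1 * g⁻¹ = b 2) (h2 : g⁻¹ * wd b [3, 7] * g ∈ gp b 254)
    (h3 : g' * b 1 * g'⁻¹ = b 7) (h4 : g'⁻¹ * wd b [6, 2] * g' ∈ gp b 254) (n : ¬ IsConj (b 1) (wd b [3, 7])) :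
    TT' ⊤ (b 1) (wd b [2, 7]) ∧ Nat.card G = 4030387200 := by
  obtain ⟨c, a2, P⟩ := h.pp h1 h2 h3 h4 n
  obtain ⟨d, a3, P', hc⟩ := P.adj
  have a : ∀ g, tb 8190 g = true → d g = b g := fun g hg => (a3 g hg).trans (a2 g hg)
  obtain ⟨φ, hφ⟩ := hom_of (P'.rmV hc) (P'.rmW (P'.rmV hc)) P'.hs.bm.rm
  have e1 : φ (a0 1) = b 1 := by rw [← wd_one a0, show [1] = gW 5 from rfl, gW_eq rfl, hφ 5 rfl, ← a 1 rfl, ← wd_one d]; rfl
  have e2 : wd (fun g => φ (a0 g)) [2, 7] = wd b [2, 7] := by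
    rw [wd_map, show [2, 7] = gW 1 from rfl, gW_eq rfl, hφ 1 rfl, wd_congr a rfl]
  have inj : Function.Injective φ := (MonoidHom.ker_eq_bot_iff φ).1 ((φ.normal_ker.eq_bot_or_eq_top).resolve_right
    fun k => h.le.z_ne (e1 ▸ (k ▸ mem_top (a0 1) : a0 1 ∈ φ.ker)))
  have k : Nat.card (gp (fun g => φ (a0 g)) 32766) = 4030387200 := by
    rw [gp_map, card_map_of_injective inj, top0, card_top, cardX]
  have t := tt_of (BM_map bm φ inj) (by rw [e1, h.card]) (by rw [e1, e2]; exact h.n27 n) k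
  have e := t.top
  have t' := t.tt1
  rw [e, e1, e2] at t'
  rw [e, card_top] at k
  exact ⟨t', k⟩

theorem held (h : HS b) (c2 : IsConj (b 1) (b 2)) (c7 : IsConj (b 1) (b 7)) (n : ¬ IsConj (b 1) (wd b [3, 7])) :
    TT' ⊤ (b 1) (wd b [2, 7]) ∧ (Nonempty (G ≃* X5) ∨ Nat.card G = 244823040 ∨ Nat.card G = 4030387200) := by
  obtain ⟨g, h1⟩ := isConj_iff.1 c2
  obtain ⟨g', h3⟩ := isConj_iff.1 c7
  by_cases h2 : g⁻¹ * wd b [3, 7] * g ∈ gp b 254 <;> by_cases h4 : g'⁻¹ * wd b [6, 2] * g' ∈ gp b 254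
  · exact (heldHe h h1 h2 h3 h4 n).imp_right fun k => Or.inr (Or.inr k)
  · exact (held24 h h1 h2 h3 h4 n).imp_right fun k => Or.inr (Or.inl k)
  · have := held24 h.sw (g := g') (g' := g) h3 (gp_sw b ▸ h4) h1 (gp_sw b ▸ h2) (h.nsw n)
    exact ⟨h.bm.rm.eq1 (u := [7, 2]) (v := [2, 7]) (by decide +kernel) ▸ this.1, Or.inr (Or.inl this.2)⟩
  · exact (held5 h h1 h2 h3 h4 n).imp_right Or.inl

theorem held' (h : HS b) (c2 : IsConj (b 1) (b 2)) (c7 : IsConj (b 1) (b 7)) (n : ¬ IsConj (b 1) (wd b [3, 7]))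
    {F : Type*} [Field F] [Fintype F] (hF : Fintype.card F = 2) :
    TT' ⊤ (b 1) (wd b [2, 7]) ∧ (Nonempty (G ≃* Matrix.ProjectiveSpecialLinearGroup (Fin 5) F) ∨
      Nat.card G = 244823040 ∨ Nat.card G = 4030387200) :=
  (held h c2 c7 n).imp_right (Or.imp_left fun ⟨e⟩ => (iso_psl5 hF bm5 top5 hs5 card5).map e.trans)

end CA.PM.He
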