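/-
An element of order seven in a group of Monster type: normal form and lifts.
-/
import Cfsg.Agent.M24.Held

set_option autoImplicit false

namespace CA.M24.HeM

open Cfsg Subgroup Equiv CA.Fi CA.FG

variable {G : Type*} [Group G] [Finite G] {z : G} {Q : Subgroup (centralizer ({z} : Set G))} [Q.Normal]

theorem normal7 (hM : IsOfMonsterType z Q) {s : G} (hsQ : s ∈ amb Q) (hs : IsConj z s) (hs1 : s ≠ z) {B : Subgroup G}
    (hB : B ≤ centralizer ({z, s} : Set G))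
    (hBp : Nat.card B = 7 ^ (Nat.card ↥(centralizer ({z, s} : Set G))).factorization 7) :
    ∃ b, orderOf b = 7 ∧ B = zpowers b ∧ Commute b s ∧ ∃ φ L, MS z Q φ L ∧ L s (e8 none) ∧
      AA φ b (pC (perm r7A)) := by
  obtain ⟨φ, L, M, h8⟩ := exists_MS_e8 hM hsQ hs hs1
  rw [M.card_cent_pair h8, fact_seven, pow_one] at hBp
  obtain ⟨b, hb, rfl, hz, hbs⟩ := exists_gen hB Nat.prime_seven hBp
  obtain ⟨φ, L, M, h8, π, hπ, ho, hA⟩ := M.normal h8 hz hbs Nat.prime_seven (by decide) hb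
  obtain ⟨k, hk, e⟩ := classes_seven hπ (of_orderOf ho (by norm_num)).1 (of_orderOf ho (by norm_num)).2
  obtain ⟨φ, L, M, h8, hA⟩ := M.reconj' h8 hπ hk hA
  rcases e with e | e <;> rw [e] at hA
  · exact ⟨b, hb, rfl, hbs, φ, L, M, h8, hA⟩
  · have h5 : orderOf (b ^ 5) = 7 := by rw [Nat.Coprime.orderOf_pow (by rw [hb]; norm_num), hb]
    refine ⟨b ^ 5, h5, (eq_of_le_of_card_ge (zpowers_le.2 (npow_mem_zpowers b 5)) (by
      rw [Nat.card_zpowers, Nat.card_zpowers, h5, hb])).symm, hbs.pow_left 5, φ, L, M, h8, ?_⟩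
    have := hA.pow 5
    rw [← pHom_apply ⟨_, r7B_in.perm_mem⟩, ← map_pow, pHom_apply] at this
    exact r7B_eq ▸ this

variable {φ : Co0 →* centralizer ({z} : Set G) ⧸ Q} {L : G → Vec → Prop}

/-- a lift that normalizes the cyclic group -/
theorem lift_pow (M : MS z Q φ L) {b : G} (S : Sec (amb Q) z (zpowers b)) {x k : Co0} (hA : AA φ b x) {n : ℕ}
    (hk : k * x = x ^ n * k) : ∃ d, AA φ d k ∧ d * b * d⁻¹ = b ^ n := by
  have q : ∀ d, AA φ d k → d * b * d⁻¹ * (b ^ n)⁻¹ ∈ amb Q := fun d hd =>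
    (M.AA_iff (((hd.mul hA).mul hd.inv).mul (hA.pow n).inv)).2 (.inl (by rw [hk]; group))
  obtain ⟨d, hd⟩ := exists_AA φ k
  haveI := S.le.isPGroup.isNilpotent
  obtain ⟨r, hr, e⟩ := SchurZassenhaus_trans (B := zpowers b :^ d) (.inl inferInstance) S.le_norm (by
    rw [conjg, MonoidHom.map_zpowers, zpowers_le]
    change d * b * d⁻¹ ∈ _
    rw [← inv_mul_cancel_right (d * b * d⁻¹) (b ^ n)]
    exact mul_mem (mem_sup_left (q d hd)) (mem_sup_right (npow_mem_zpowers b n)))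
    (by rw [M.card]; exact (Nat.coprime_two_left.2 S.odd).pow_left _) (card_conjg _ _)
  have hd' : AA φ (r⁻¹ * d) k := by simpa using (AA_of_mem (inv_mem hr)).mul hd
  exact ⟨_, hd', mul_inv_eq_one.1 (S.eq_one (mul_mem (conj_mem_of_mem_norm (conjg_eq_conjg_iff.1 e) (mem_zpowers b))
    (inv_mem (npow_mem_zpowers b n))) (q _ hd'))⟩

theorem x7_pow : pC (perm r7A) ^ 7 = 1 := by
  rw [← pHom_apply ⟨_, r7A_in.perm_mem⟩, ← map_pow, ← map_one pHom]
  exact congrArg _ (Subtype.ext (Held.order ▸ pow_orderOf_eq_one _))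

end CA.M24.HeM
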