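/-
The local data of the Held group inside a group of Monster type.
-/
import Cfsg.Agent.He.Mon0
import Cfsg.Agent.He.HA

set_option autoImplicit false
set_option maxRecDepth 100000

namespace CA.M24.HeM

open Cfsg Subgroup Equiv CA.Fi CA.FG CA.FG.Comp CA.PM.He

local notation "Λ" => leechLattice
local notation "cv" => cmbV Held.ws 6
local notation "x7" => pC (perm r7A)

/-- the coordinates of the seven letters -/
def co (j : ℕ) : ℕ := [0, 0, 1, 7, 4, 11, 37, 48].getD j 0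

def cx (l : List ℕ) : ℕ := l.foldr (fun j a => co j ^^^ a) 0

noncomputable def app (l : List ℕ) (a : ℕ) : ℕ := l.foldr (fun i a => xsel (Held.DD.getD i ([], 0, 0)).2.1 a 6) a

theorem mt {d : Word × ℕ × ℕ} (h : d ∈ Held.DD) : wordC d.1 * x7 = x7 ^ 1 * wordC d.1 ∧ ∀ a < 64, xsel d.2.1 a 6 < 64 ∧
    Cong (act (wordC d.1) (cv a)) (cv (xsel d.2.1 a 6)) := by
  obtain ⟨k, e, h⟩ := genChk_spec r7A_in.perm_mem Held.crd Held.bas (Held.hD d h)
  refine ⟨by rw [← e, pow_one]; exact (mem_cent_iff.1 k.2).eq, fun a ha => ?_⟩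
  have := h ⟨a, ha⟩
  rw [← e, ← show _ = xsel d.2.1 a 6 from this]
  exact ⟨Fin.is_lt _, Held.crd.cong_rho k ⟨a, ha⟩⟩

theorem mtw (l : List ℕ) (hl : ∀ i ∈ l, i < 6) : ∃ k, k * x7 = x7 ^ 1 * k ∧ ∀ a < 64, app l a < 64 ∧
    Cong (act k (cv a)) (cv (app l a)) := by
  induction l with
  | nil => exact ⟨1, by simp, fun a ha => ⟨ha, by rw [act_one]; exact Cong.refl _⟩⟩
  | cons i l ih =>
    obtain ⟨k, e, h⟩ := ih fun j hj => hl j (List.mem_cons_of_mem _ hj)
    have hi := hl i List.mem_cons_self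
    obtain ⟨e', h'⟩ := mt (d := Held.DD.getD i ([], 0, 0)) (by
      rw [List.getD_eq_getElem _ _ (show i < Held.DD.length from hi)]; exact List.getElem_mem _)
    refine ⟨wordC (Held.DD.getD i ([], 0, 0)).1 * k, by rw [mul_assoc, e, ← mul_assoc, pow_one, e', pow_one, mul_assoc],
      fun a ha => ⟨(h' _ (h a ha).1).1, ?_⟩⟩
    rw [act_mul]
    exact ((h a ha).2.act (Held.crd.mem _) _).trans (h' _ (h a ha).1).2

theorem co_lt (j : ℕ) : co j < 64 := by
  rcases j with _ | _ | _ | _ | _ | _ | _ | _ | j <;> simp [co]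

theorem lt_of_tb {S n j : ℕ} (hS : S < 2 ^ n) (h : PM.tb S j = true) : j < n := by
  rw [PM.tb_eq] at h
  by_contra! e
  rw [Nat.testBit_lt_two_pow (hS.trans_le (Nat.pow_le_pow_right (by norm_num) e))] at h
  cases h

theorem mtg {g : ℕ} (hg : PM.tb 6912 g = true) : ∃ k, k * x7 = x7 ^ 1 * k ∧ ∀ j, PM.tb 254 j = true →
    Cong (act k (cv (co j))) (cv (cx (UQ g j))) := by
  have key : ∀ g < 13, PM.tb 6912 g = true → ∃ l ∈ [[1], [4, 2], [5, 4, 3, 0], [3, 4, 3, 1]], (∀ i ∈ l, i < 6) ∧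
      ∀ j < 8, PM.tb 254 j = true → app l (co j) = cx (UQ g j) := by decide +kernel
  obtain ⟨l, -, h1, h2⟩ := key g (lt_of_tb (by norm_num) hg) hg
  obtain ⟨k, e, h⟩ := mtw l h1
  exact ⟨k, e, fun j hj => h2 j (lt_of_tb (by norm_num) hj) hj ▸ (h _ (co_lt j)).2⟩

theorem mt10 : eps (unmask 1903248) * x7 = x7 ^ 1 * eps (unmask 1903248) ∧ ∀ j, PM.tb 254 j = true →
    Cong (act (eps (unmask 1903248)) (cv (co j))) (cv (cx (UQ 10 j))) := by
  have key : ∀ j < 8, PM.tb 254 j = true → xsel (Held.DD.getD 2 ([], 0, 0)).2.1 (co j) 6 = cx (UQ 10 j) := by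
    decide +kernel
  obtain ⟨e, h⟩ := mt (d := Held.DD.getD 2 ([], 0, 0)) (by simp [Held.DD])
  rw [show wordC (Held.DD.getD 2 ([], 0, 0)).1 = _ from wordC_eps 1903248] at e h
  exact ⟨e, fun j hj => key j (lt_of_tb (by norm_num) hj) hj ▸ (h _ (co_lt j)).2⟩

theorem four_ind (a b : ℕ) : (fun i => 4 * ind (unmask a ∩ unmask b) i) = vecF fun i => 4 * (bz a i * bz b i) := by
  funext i
  rw [← ind_mul_ind, ind_unmask, ind_unmask]
  rfl

theorem cv_one : Cong (cv 1) (e8 none) := by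
  rw [← vN_e8N]
  exact cong_of_congChk (by decide +kernel)

theorem cv_55 : Cong (cv 55) fun i => 4 * ind (unmask 52005 ∩ unmask 1369154) i := by
  rw [four_ind]
  exact cong_of_congChk (by decide +kernel)

theorem cv_36 : Cong (act (wordC Held.gw) (cv 36)) fun i => 4 * ind (unmask 39257 ∩ unmask 115766) i := by
  obtain ⟨P, e, h⟩ := pkGo_spec (show pkGo (cmbF Held.ws 36 6) (wordGo Held.gw fun P' => congChk (vecN P')
    fun i => 4 * (bz 39257 i * bz 115766 i)) = true by decide +kernel)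
  have e1 : vN P = cv 36 := e
  obtain ⟨P', e2, h1⟩ := wordGo_spec Held.gw_ok h (e1 ▸ Held.crd.mem _)
  rw [← e1, e2, four_ind]
  exact cong_of_congChk h1

theorem Ac_map {X Y : Type*} [Group X] [Group Y] (f : X →* Y) {q : ℕ → X} {g : ℕ} {d : X} (h : Ac q g d) :
    Ac (fun j => f (q j)) g (f d) :=
  ⟨h.1.map f, fun j hj => by simpa only [PM.wd_map, ← map_inv, ← map_mul] using (h.2 j hj).imp (congrArg f) (congrArg f)⟩

variable {G : Type*} [Group G] [Finite G] {z : G} {Q : Subgroup (centralizer ({z} : Set G))} [Q.Normal]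
  {φ : Co0 →* centralizer ({z} : Set G) ⧸ Q} {L : G → Vec → Prop}

theorem inf_mem (M : MS z Q φ L) {Q' : Subgroup G} {s : G} (P : Pair (amb Q) Q' z s) (hv : L s (e8 none)) {a b : ℕ}
    (ha : isC a = true) (hb : isC b = true) {x : G} {v : Vec} (hx : L x v)
    (e : Cong v fun i => 4 * ind (unmask a ∩ unmask b) i) : x ∈ Q' := by
  obtain ⟨t, ht, h⟩ := M.exists_inf P hv (unmask_mem_Cs ha).1 (unmask_mem_Cs hb).1
  rcases M.eq_of_cong h hx e.symm with e | e <;> rw [e]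
  exacts [ht.2, mul_mem ht.2 P.z_mem]

omit [Finite G] in
theorem L_wd (M : MS z Q φ L) {H : Subgroup G} {ξ : ℕ → H} (hξ : ∀ j, L (ξ j) (cv (co j))) (l : List ℕ) :
    L (PM.wd ξ l : H) (cv (cx l)) := by
  induction l with
  | nil => exact (cmbV_zero' _ _).symm ▸ M.L_one
  | cons j l ih =>
    rw [PM.wd_cons]
    exact M.cong (M.mul (hξ j) ih) (cmbV_xor (basChk_spec Held.bas).1 _ _).symm

omit [Finite G] in
theorem Ac_of (M : MS z Q φ L) {H : Subgroup G} {ξ : ℕ → H} (hξ : ∀ j, L (ξ j) (cv (co j))) (h1 : (ξ 1 : G) = z)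
    {d : H} {k : Co0} (hd : AA φ d k) {g : ℕ}
    (hk : ∀ j, PM.tb 254 j = true → Cong (act k (cv (co j))) (cv (cx (UQ g j)))) : Ac ξ g d :=
  ⟨Subtype.ext (h1 ▸ hd.comm :), fun j hj => (M.eq_of_cong (L_wd M hξ _) (M.act hd (hξ j)) (hk j hj).symm).imp
    Subtype.ext fun e => Subtype.ext (by rw [coe_mul _ _ (ξ 1), h1]; exact e)⟩

theorem exists_HA (M : MS z Q φ L) {s b : G} (h8 : L s (e8 none)) (hb : orderOf b = 7) (hbs : Commute b s)
    (hA : AA φ b x7) [((zpowers b).subgroupOf (centralizer ((zpowers b : Subgroup G) : Set G))).Normal] :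
    ∃ (R : Subgroup (centralizer ((zpowers b : Subgroup G) : Set G) ⧸
      (zpowers b).subgroupOf (centralizer ((zpowers b : Subgroup G) : Set G)))) (q : ℕ → _), HA R q := by
  have od : Odd (orderOf b) := hb ▸ by decide
  have S := M.sec h8 hA.comm hbs od
  obtain ⟨f, f1, f2, f3, -⟩ := Held.main
  obtain ⟨hLE, F, hF, hk⟩ := M.sect S hA (by decide) x7_pow f f1 f2 f3
  have hR := S.card_eq.trans (M.card_R hA od Held.crd)
  have : ∀ j, ∃ x : centralizer ((zpowers b : Subgroup G) : Set G), L x (cv (co j)) ∧ (j = 1 → x.1 = z) ∧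
      (j = 2 → x.1 = s) := fun j => by
    by_cases h1 : j = 1
    · exact ⟨⟨z, S.zC⟩, h1 ▸ (cmbV_zero' _ _).symm ▸ M.L_z, fun _ => rfl, by omega⟩
    by_cases h2 : j = 2
    · exact ⟨⟨s, mem_cent_zpowers.2 hbs.symm⟩, h2 ▸ M.cong h8 cv_one, by omega, fun _ => rfl⟩
    obtain ⟨x, hx⟩ := M.exX (Held.crd.mem (co j))
    exact ⟨⟨x, mem_cent_zpowers.2 ((M.fix_iff hA od hx).2 (Held.crd.fix _))⟩, hx, by omega, by omega⟩
  choose ξ hξ h1 h2 using this
  replace h1 := h1 1 rfl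
  replace h2 := h2 2 rfl
  have e1 : ξ 1 = ⟨z, S.zC⟩ := Subtype.ext h1
  have sq : PM.Sq ξ 254 := fun j hj => Subtype.ext ((M.sq_iff (hξ j)).2 (by
    have key : ∀ j < 8, 32 ∣ dotF (cmbF Held.ws (co j) 6) (cmbF Held.ws (co j) 6) := by decide +kernel
    rw [cmbV, sqNorm_vecF]
    exact key j (lt_of_tb (by norm_num) hj)))
  have cm : ∀ i j, Commute (ξ i) (ξ j) ↔ 16 ∣ dotF (cmbF Held.ws (co i) 6) (cmbF Held.ws (co j) 6) := fun i j => by
    rw [← dot_vecF, ← cmbV, ← cmbV, ← M.commute_iff (hξ i) (hξ j)]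
    exact Subtype.ext_iff
  have tr : ∀ {t : centralizer ((zpowers b : Subgroup G) : Set G)} {φ' L'}, MS z Q φ' L' → L' t (e8 none) →
      ∃ c : centralizer ((zpowers b : Subgroup G) : Set G), c * ξ 1 * c⁻¹ = t ∧
        Pair (amb Q) ((amb Q).map (MulAut.conj c.1).toMonoidHom) z t := fun {t _ _} M' ht => by
    obtain ⟨a1, a2⟩ := (M'.isConj_iff (M'.memQ ht)).2 ⟨_, ht, sqNorm_e8 _⟩
    obtain ⟨c, hc, e⟩ := S.conj_in ⟨M'.memQ ht, t.2⟩ a1
    exact ⟨⟨c, hc⟩, Subtype.ext (by rw [e1]; exact e), e ▸ M.pair (e ▸ M'.memQ ht) (e ▸ a2)⟩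
  have dn : ∀ c x : centralizer ((zpowers b : Subgroup G) : Set G), x.1 ∈ (amb Q).map (MulAut.conj c.1).toMonoidHom →
      (sP _ c)⁻¹ * sP _ x * sP _ c ∈ ((amb Q).subgroupOf _).map (sP (zpowers b)) := fun c x h =>
    ⟨c⁻¹ * x * c, mem_map_conj (G := G).1 h, by rw [map_mul, map_mul, map_inv]⟩
  have l55 : L (ξ 3 * ξ 7 :) (cv 55) := by simpa [show cx [3, 7] = 55 from rfl] using L_wd M hξ [3, 7]
  refine ⟨_, fun j => sP _ (ξ j), e1 ▸ hLE, hR, ?_, fun j _ => mem_map_of_mem _ (M.memQ (hξ j)),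
    fun j hj => by rw [← map_mul, sq j hj, map_one], fun r hr => ?_, fun g hg => ?_, ?_, ?_, fun h => ?_⟩
  · have := F.ker.card_mul_index
    rw [index_ker, MonoidHom.range_eq_top.2 hF, card_top, Held.card_Y, hk,
      Nat.card_congr (subgroupOfEquivOfLe hLE.le_cent).toEquiv, hR] at this
    show Nat.card (centralizer {sP _ (ξ 1)}) = _
    rw [e1, ← this]
    rfl
  · have key : ∀ r ∈ EQ, ∃ i < 8, ∃ j < 8, PM.tb 254 i = true ∧ PM.tb 254 j = true ∧
        (r = [i, j, i, j] ∧ 16 ∣ dotF (cmbF Held.ws (co i) 6) (cmbF Held.ws (co j) 6) ∨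
        r = [i, j, i, j, 1] ∧ ¬ 16 ∣ dotF (cmbF Held.ws (co i) 6) (cmbF Held.ws (co j) 6)) := by decide +kernel
    rw [PM.wd_map, ← map_one (sP (zpowers b))]
    congr 1
    obtain ⟨i, -, j, -, hi, hj, ⟨rfl, h⟩ | ⟨rfl, h⟩⟩ := key r hr <;> rw [← cm] at h <;>
      simp only [PM.wd_cons, PM.wd_nil, mul_one]
    · rw [← mul_assoc (ξ j), ← h.eq, mul_assoc, sq j hj, mul_one, sq i hi]
    · have : ξ i * ξ j = ξ j * ξ i * ξ 1 := Subtype.ext (by
        simpa only [coe_mul, h1] using M.le.not_commute (M.memQ (hξ i)) (M.memQ (hξ j)) fun e => h (Subtype.ext e))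
      calc _ = ξ i * ξ j * (ξ i * ξ j) * ξ 1 := by group
        _ = ξ i * (ξ j * ξ j) * ξ i * (ξ 1 * ξ 1) := by nth_rewrite 2 [this]; group
        _ = 1 := by rw [sq j hj, mul_one, sq i hi, sq 1 (by decide), mul_one]
  · obtain ⟨k, e, h⟩ := mtg hg
    obtain ⟨d, hd, e'⟩ := lift_pow M S hA e
    exact ⟨_, Ac_map _ (Ac_of M hξ h1 (d := ⟨d, mem_cent_zpowers.2 (conj_eq_iff_commute.1 (e'.trans (pow_one b)))⟩) hd h)⟩
  · obtain ⟨c, e, P⟩ := tr (t := ξ 2) M (h2 ▸ h8)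
    refine ⟨sP _ c, by rw [← map_inv, ← map_mul, ← map_mul, e], ?_, ?_⟩
    · rw [← map_mul]
      exact dn _ _ (inf_mem M P (h2 ▸ h8) (by decide +kernel) (by decide +kernel) l55 cv_55)
    obtain ⟨r, hr, hA'⟩ := M.exists_eps P (h2 ▸ h8) (unmask_mem_Cs (m := 1903248) (by decide +kernel)).1
    have nm : ∀ a ∈ zpowers b, Commute a (ξ 2 : G) := fun a ha => (Sec.comm_B _ ha).symm
    obtain ⟨n, hn⟩ := IsPGroup.iff_card.1 (M.le.isPGroup.to_inf_left (K := (amb Q).map (MulAut.conj c.1).toMonoidHom))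
    haveI := (M.le.isPGroup.to_inf_left (K := (amb Q).map (MulAut.conj c.1).toMonoidHom)).isNilpotent
    obtain ⟨u, hu, h⟩ := coprime_cent_coset (A := zpowers b) (R := amb Q ⊓ (amb Q).map (MulAut.conj c.1).toMonoidHom)
      (x := r) (fun a ha => mem_normalizer_of_conj fun x hx => ⟨conj_mem_of_mem_norm (S.le_norm ha) hx.1,
        P.right.norm a (nm a ha) x hx.2⟩) (by rw [hn]; exact (Nat.coprime_two_left.2 S.odd).pow_left n)
      (.inl inferInstance) fun a ha => ⟨by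
        obtain ⟨n, rfl⟩ := (mem_powers_iff_mem_zpowers.2 ha :)
        refine (M.AA_iff (hA'.inv.mul (((hA.pow n).mul hA').mul (hA.pow n).inv))).2 (Or.inl ?_)
        rw [← (Commute.pow_right (mt10.1.trans (by rw [pow_one])) n).eq]
        group, Subgroup.mul_mem _ (inv_mem hr) (P.right.norm a (nm a ha) r hr)⟩
    exact ⟨sP _ ⟨r * u, h⟩, dn _ _ (mul_mem hr hu.2),
      Ac_map _ (Ac_of M hξ h1 (by simpa using hA'.mul (AA_of_mem hu.1)) mt10.2)⟩
  · have M' := M.conj (wordC Held.gw)⁻¹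
    have h7 : L (ξ 7) (act (wordC Held.gw)⁻¹ (e8 none)) := M.cong (hξ 7) (by
      have := Held.gw_cong.act (e8_mem _) (wordC Held.gw)⁻¹
      rw [act_inv_act] at this
      exact this.symm)
    obtain ⟨c, e, P⟩ := tr M' h7
    refine ⟨sP _ c, by rw [← map_inv, ← map_mul, ← map_mul, e], ?_⟩
    rw [← map_mul]
    refine dn _ _ (inf_mem M' P h7 (by decide +kernel) (by decide +kernel) ?_ cv_36)
    show L _ _
    rw [act_inv_act]
    simpa [show cx [6, 2] = 36 from rfl] using L_wd M hξ [6, 2]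
  · obtain ⟨c, e⟩ := isConj_iff.1 h
    obtain ⟨c, rfl⟩ := QuotientGroup.mk'_surjective _ c
    have l2 := M.cong l55 cv_55.symm
    have n2 : sqNorm (fun i => 4 * ind (unmask 52005 ∩ unmask 1369154) i) = 32 := by
      rw [four_ind, sqNorm_vecF]; decide +kernel
    exact M.not_conj_of_type_two l2 n2 (isConj_iff.2 ⟨_, S.conj_lift (c := c) (x := ξ 3 * ξ 7) ((M.sq_iff l2).2 (by rw [n2]))
      (by rw [← e1, map_mul]; exact e)⟩)

theorem monster_HA (hM : IsOfMonsterType z Q) {s : G} (hsQ : s ∈ amb Q) (hs : IsConj z s) (hs1 : s ≠ z) {B : Subgroup G}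
    (hB : B ≤ centralizer ({z, s} : Set G))
    (hBp : Nat.card B = 7 ^ (Nat.card ↥(centralizer ({z, s} : Set G))).factorization 7)
    [hn : (B.subgroupOf (centralizer (B : Set G))).Normal] :
    ∃ (R : Subgroup (centralizer (B : Set G) ⧸ B.subgroupOf (centralizer (B : Set G)))) (q : ℕ → _), HA R q := by
  obtain ⟨b, hb, rfl, hbs, φ, L, M, h8, hA⟩ := normal7 hM hsQ hs hs1 hB hBp
  exact exists_HA M h8 hb hbs hA

end CA.M24.HeM

theorem CA.M24.realizeEqnsHeMon1 : True := by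
  have := @CA.M24.HeM.co.eq_1
  have := @CA.M24.HeM.co.eq_def
  have := @CA.M24.HeM.co.congr_simp
  have := @CA.M24.HeM.app.eq_1
  have := @CA.M24.HeM.app.eq_def
  have := @CA.M24.HeM.app.congr_simp
  have := @CA.M24.HeM.cx.eq_1
  have := @CA.M24.HeM.cx.eq_def
  have := @CA.M24.HeM.cx.congr_simp
  trivial
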