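/-
The normalizer of an element of order seven in a group of Monster type.
-/
import Cfsg.Agent.He.Mon0

set_option autoImplicit false
set_option maxRecDepth 100000

namespace CA.M24.HeM

open Cfsg Subgroup Equiv CA.Fi CA.FG CA.FG.Comp

local notation "x7" => pC (perm r7A)

theorem mem_layer {H : Type*} [Group H] [Finite H] {B : Subgroup H} [B.Normal] (hB : B ≤ center H)
    (od : Odd (Nat.card B)) [IsSimpleGroup (H ⧸ B)] (na : ¬ IsMulCommutative (H ⧸ B)) {x : H} (hx : x * x = 1) :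
    x ∈ layer H := by
  have sj := QuotientGroup.mk'_surjective B
  have key : ∀ N : Subgroup H, N.Normal → N ≤ B ∨ N.map (QuotientGroup.mk' B) = ⊤ := fun N hN =>
    (hN.map _ sj).eq_bot_or_eq_top.imp_left fun e => by rwa [Subgroup.map_eq_bot_iff, QuotientGroup.ker_mk'] at e
  rcases key (layer H) inferInstance with e | e
  · have h1 : generalizedFittingSubgroup H ≤ B := sup_le e (fitting_le_iff.2 fun p hp =>
      (key _ inferInstance).resolve_right fun e => by
        haveI := Fact.mk hp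
        have := (pCore_isPGroup p H).map (QuotientGroup.mk' B)
        rw [e] at this
        exact qs_not_nilpotent (qs_of_simple inferInstance na) (this.of_equiv topEquiv).isNilpotent)
    have h2 : ∀ y, y ∈ B := fun y => h1 (centralizer_Fstar_le fun w hw => (Subgroup.mem_center_iff.1 (hB (h1 hw)) y).symm)
    exact eq_one_of_odd_of_pow (k := 1) od (h2 x) ((pow_two x).trans hx) ▸ one_mem _
  · obtain ⟨y, hy, e⟩ := e.ge (mem_top (QuotientGroup.mk' B x))
    have h1 : y⁻¹ * x ∈ B := QuotientGroup.eq.1 e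
    have h2 := (show Commute y (y⁻¹ * x) from Subgroup.mem_center_iff.1 (hB h1) y).mul_pow 2
    rw [mul_inv_cancel_left, pow_two x, hx, eq_comm, mul_eq_one_iff_inv_eq] at h2
    obtain ⟨k, hk⟩ := od
    have h3 : (y⁻¹ * x) ^ (2 * k + 1) = 1 := hk ▸ congrArg Subtype.val (pow_card_eq_one' (x := (⟨_, h1⟩ : B)))
    rw [pow_succ, pow_mul, ← h2, mul_eq_one_iff_inv_eq] at h3
    rw [← mul_inv_cancel_left y x, ← h3]
    exact mul_mem hy (inv_mem (pow_mem (inv_mem (pow_mem hy 2)) k))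

theorem wordC_append (l l' : Word) : wordC (l ++ l') = wordC l' * wordC l := by
  induction l with
  | nil => exact (mul_one _).symm
  | cons r l ih => rw [List.cons_append, wordC, wordC, ih, mul_assoc]

theorem wordC_eq_one {l : Word} (hl : wordOk l = true)
    (h : allR (fun p => wordGo l (fun A => Nat.beq A (e8N p)) (e8N p)) 24 = true) : wordC l = 1 :=
  ext_e8 fun p => by
    obtain ⟨A, e, h1⟩ := wordGo_spec hl (allR_eq_true.1 h _ (idx_lt p)) (vN_e8N _ ▸ e8_mem _)
    rw [beq_iff.1 h1, vN_e8N] at e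
    rw [e, act_one]

def wl : Word := [(nat_lit 353468587810539916733591373195794925, nat_lit 2353369, true), (nat_lit 94810581197407986926858207551839920, nat_lit 0, true)]
def wi : Word := [(nat_lit 984818244535754528103549039458486304, nat_lit 0, true), (nat_lit 94816879827608613133565660076695203, nat_lit 0, true), (nat_lit 501875002728530265557238457370523075, nat_lit 293551, false)]

theorem inv7 : wordC wi * eps (unmask 3067075) * (wordC wi)⁻¹ * x7 =
    x7⁻¹ * (wordC wi * eps (unmask 3067075) * (wordC wi)⁻¹) := by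
  have h1 := wordC_eq_one (l := wl ++ wi) (by decide +kernel) (by decide +kernel)
  have h2 := comChk_spec (l := wl ++ ([(pone, 3067075, false)] ++ wi)) r7A_in.perm_mem (inv_mem r7A_in.perm_mem)
    (by decide +kernel) (by rw [← pinv_code, r7A_in.code_perm]; decide +kernel)
  rw [wordC_append] at h1
  rwa [wordC_append, wordC_append, wordC_eps, eq_inv_of_mul_eq_one_right h1, pC_inv r7A_in.perm_mem] at h2

theorem gw_pow : wordC Held.gw * x7 = x7 ^ 3 * wordC Held.gw := by
  rw [Held.gw_conj, ← pHom_apply ⟨_, r7A_in.perm_mem⟩, ← map_pow, pHom_apply]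
  congr 2
  exact code_inj (by rw [SubgroupClass.coe_pow, ← ppow_code, r7B_in.code_perm, r7A_in.code_perm]; decide +kernel)

theorem not_real {σ : Perm Pt} (hσ : σ ∈ M24) : σ * perm r7A * σ⁻¹ ≠ (perm r7A)⁻¹ := fun e => by
  obtain ⟨τ, hτ, e1⟩ := inM_of_chk (c := 12470142778494962636810569737389093) (by decide +kernel)
  have : τ * (perm r7A)⁻¹ = perm r7B * τ := code_inj (by
    simp only [← pmul_code, ← pinv_code, e1, r7A_in.code_perm, r7B_in.code_perm]; decide +kernel)
  refine not_conj_seven (mul_mem hτ hσ) ?_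
  rw [← mul_assoc, ← this, ← e]
  group

variable {G : Type*} [Group G] [Finite G] {z : G} {Q : Subgroup (centralizer ({z} : Set G))} [Q.Normal]
  {φ : Co0 →* centralizer ({z} : Set G) ⧸ Q} {L : G → Vec → Prop}

/-- sign changes lift to involutions -/
theorem eps_lift (M : MS z Q φ L) {c : Finset Pt} (hc : c ∈ Cs) : ∃ r, r * r = 1 ∧ AA φ r (eps c) := by
  obtain ⟨s, hs⟩ := M.exX (e8_mem none)
  obtain ⟨a1, a2⟩ := (M.isConj_iff (M.memQ hs)).2 ⟨_, hs, sqNorm_e8 _⟩
  obtain ⟨g, rfl⟩ := isConj_iff.1 a1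
  have P := M.pair (M.memQ hs) a2
  generalize (amb Q).map (MulAut.conj g).toMonoidHom = Q' at P
  generalize g * z * g⁻¹ = s at P hs
  obtain ⟨r, hr, hA⟩ := M.exists_eps P hs hc
  rcases P.right.sq hr with e | e
  · exact ⟨r, e, hA⟩
  by_cases h : ∃ u ∈ amb Q ⊓ Q', ¬ Commute u r
  · obtain ⟨u, hu, h⟩ := h
    refine ⟨r * u, ?_, by simpa using hA.mul (AA_of_mem hu.1)⟩
    rw [mul_assoc, ← mul_assoc u, P.right.not_commute hu.2 hr h, mul_assoc _ s, (P.right.z_comm u hu.2).eq, mul_assoc r u,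
      ← mul_assoc u, P.E_sq hu, one_mul, ← mul_assoc, e, P.right.z_sq]
  push Not at h
  have h1 := P.right.card_mul_card_cent (A := amb Q ⊓ Q') inf_le_right ⟨P.t_mem, P.right.z_mem⟩
  obtain ⟨k, -, e1⟩ := P.conj
  rw [M.card_inf P, ← e1, card_map_of_injective (MulAut.conj k).injective, M.card, e1] at h1
  have h2 : amb Q ⊓ Q' = Q' ⊓ centralizer ((amb Q ⊓ Q' : Subgroup G) : Set G) := eq_of_le_of_card_ge
    (fun x hx => ⟨hx.2, mem_cent_subgroup_iff.2 fun y hy => by
      rw [Commute, SemiconjBy, ← inv_eq_self_of_sq (P.E_sq (mul_mem hx hy)), mul_inv_rev,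
        inv_eq_self_of_sq (P.E_sq hx), inv_eq_self_of_sq (P.E_sq hy)]⟩) (by rw [M.card_inf P]; omega)
  exact ⟨r, P.E_sq (h2.ge ⟨hr, mem_cent_subgroup_iff.2 fun y hy => (h y hy).symm⟩), hA⟩

theorem exists_inv (M : MS z Q φ L) {b : G} (S : Sec (amb Q) z (zpowers b)) (hb : orderOf b = 7) (hA : AA φ b x7) :
    ∃ t, t * t = 1 ∧ ∀ a ∈ zpowers b, t * a * t⁻¹ = a⁻¹ := by
  obtain ⟨t, t2, ht⟩ := eps_lift (M.conj (wordC wi)) (unmask_mem_Cs (m := 3067075) (by decide +kernel)).1
  have hx := inv7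
  replace ht : AA φ t (wordC wi * eps (unmask 3067075) * (wordC wi)⁻¹) := ht
  generalize wordC wi * eps (unmask 3067075) * (wordC wi)⁻¹ = X at hx ht
  have h0 : AA φ (t * b * t⁻¹ * b⁻¹) (x7⁻¹ * x7⁻¹) := by
    simpa only [hx, mul_inv_cancel_right] using ((ht.mul hA).mul ht.inv).mul hA.inv
  have h1 : t * (t * b * t⁻¹ * b⁻¹) * t⁻¹ = (t * b * t⁻¹ * b⁻¹)⁻¹ := by
    rw [← mul_assoc, ← mul_assoc, ← mul_assoc, t2, inv_eq_self_of_sq t2, mul_inv_rev, mul_inv_rev, mul_inv_rev,
      inv_eq_self_of_sq t2]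
    group
  generalize t * b * t⁻¹ * b⁻¹ = u at h0 h1
  have p7 : ∀ n : ℕ, x7⁻¹ ^ (7 * n) = 1 := fun n => by rw [pow_mul, inv_pow, x7_pow, inv_one, one_pow]
  have h2 : u ^ 4 * (b ^ 6)⁻¹ ∈ amb Q := (M.AA_iff ((h0.pow 4).mul (hA.pow 6).inv)).2 (.inl (by
    rw [← p7 2, ← pow_two, ← pow_mul, ← inv_pow, ← pow_add]))
  have h3 : orderOf (u ^ 4) = 7 := by
    haveI := Fact.mk Nat.prime_seven
    refine orderOf_eq_prime ?_ fun e => ?_
    · rw [← pow_mul, mul_comm, pow_mul]
      exact M.le.pow_four ((M.AA_iff (h0.pow 7)).2 (.inl (by rw [← p7 2, ← pow_two, ← pow_mul])))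
    · rw [e, one_mul, inv_mem_iff] at h2
      have := orderOf_dvd_of_pow_eq_one (S.eq_one (npow_mem_zpowers b 6) h2)
      rw [hb] at this
      exact absurd this (by norm_num)
  haveI := S.le.isPGroup.isNilpotent
  obtain ⟨q, -, e⟩ := SchurZassenhaus_trans (B := zpowers (u ^ 4)) (.inl inferInstance) S.le_norm (by
    rw [zpowers_le, ← inv_mul_cancel_right (u ^ 4) (b ^ 6)]
    exact mul_mem (mem_sup_left h2) (mem_sup_right (npow_mem_zpowers b 6)))
    (by rw [M.card]; exact (Nat.coprime_two_left.2 S.odd).pow_left _) (by rw [Nat.card_zpowers, Nat.card_zpowers, h3, hb])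
  refine ⟨q⁻¹ * t * q, by rw [show q⁻¹ * t * q * (q⁻¹ * t * q) = q⁻¹ * (t * t) * q by group, t2]; group, fun a ha => ?_⟩
  obtain ⟨k, hk⟩ := mem_zpowers_iff.1 (e.ge (mem_map_of_mem _ ha))
  replace hk : (u ^ 4) ^ k = q * a * q⁻¹ := hk
  calc _ = q⁻¹ * (t * (q * a * q⁻¹) * t⁻¹) * q := by group
    _ = q⁻¹ * (q * a * q⁻¹)⁻¹ * q := by rw [← hk, ← conj_zpow, ← conj_pow, h1, inv_pow, inv_zpow]
    _ = _ := by group

theorem relIndex_six (M : MS z Q φ L) {b : G} (S : Sec (amb Q) z (zpowers b)) (hb : orderOf b = 7) (hA : AA φ b x7) :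
    (centralizer ((zpowers b : Subgroup G) : Set G)).relIndex (normalizer ((zpowers b : Subgroup G) : Set G)) = 6 := by
  obtain ⟨n, -, e⟩ := lift_pow M S hA gw_pow
  have hn : n ∈ normalizer ((zpowers b : Subgroup G) : Set G) := mem_normalizer_of_conj (by
    rintro _ ⟨k, rfl⟩
    rw [← conj_zpow, e]
    exact zpow_mem (npow_mem_zpowers b 3) k)
  have c6 : Nat.card (MulAut (zpowers b)) = 6 := by rw [IsCyclic.card_mulAut, Nat.card_zpowers, hb]; decide
  have hk : ∀ k : ℕ, n ^ k * b * (n ^ k)⁻¹ = b ^ 3 ^ k := fun k => by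
    induction k with
    | zero => simp
    | succ k ih => rw [pow_succ' 3, pow_mul, ← e, conj_pow, ← ih, pow_succ']; group
  have h1 : ∀ k : ℕ, (zpowers b).normalizerMonoidHom ⟨n, hn⟩ ^ k = 1 → 3 ^ k ≡ 1 [MOD 7] := fun k h => by
    rw [← map_pow, ← MonoidHom.mem_ker, normalizerMonoidHom_ker] at h
    rw [← hb, ← pow_eq_pow_iff_modEq, ← hk, pow_one]
    exact conj_eq_iff_commute.2 (mem_cent_zpowers.1 h)
  have h2 : orderOf ((zpowers b).normalizerMonoidHom ⟨n, hn⟩) = 6 :=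
    orderOf_eq_of_pow_and_pow_div_prime (by norm_num) (c6 ▸ pow_card_eq_one') fun p hp hd h => by
      have := h1 _ h
      have h6 := Nat.le_of_dvd (by norm_num) hd
      have := hp.two_le
      interval_cases p <;> first | omega | contradiction
  rw [relIndex, ← normalizerMonoidHom_ker, index_ker]
  exact Nat.dvd_antisymm (c6 ▸ card_subgroup_dvd_card _) (h2 ▸ (zpowers b).normalizerMonoidHom.range.orderOf_dvd_natCard ⟨_, rfl⟩)

theorem monster_norm (hM : IsOfMonsterType z Q) {s : G} (hsQ : s ∈ amb Q) (hs : IsConj z s) (hs1 : s ≠ z) {B : Subgroup G}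
    (hB : B ≤ centralizer ({z, s} : Set G))
    (hBp : Nat.card B = 7 ^ (Nat.card ↥(centralizer ({z, s} : Set G))).factorization 7)
    (hS : ∀ [(B.subgroupOf (centralizer (B : Set G))).Normal],
      IsSimpleGroup (centralizer (B : Set G) ⧸ B.subgroupOf (centralizer (B : Set G)))) :
    (centralizer (B : Set G)).relIndex (normalizer (B : Set G)) = 6 ∧ ∃ t : G, orderOf t = 2 ∧
      (∀ b ∈ B, t * b * t⁻¹ = b⁻¹) ∧ (∀ x ∈ (layer ↥(centralizer (B : Set G))).map (centralizer (B : Set G)).subtype,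
        t * x * t⁻¹ ∈ (layer ↥(centralizer (B : Set G))).map (centralizer (B : Set G)).subtype) ∧
      ¬ ∃ l ∈ (layer ↥(centralizer (B : Set G))).map (centralizer (B : Set G)).subtype,
        ∀ x ∈ (layer ↥(centralizer (B : Set G))).map (centralizer (B : Set G)).subtype, t * x * t⁻¹ = l * x * l⁻¹ := by
  obtain ⟨b, hb, rfl, hbs, φ, L, M, h8, hA⟩ := normal7 hM hsQ hs hs1 hB hBp
  have S := M.sec h8 hA.comm hbs (hb ▸ by decide)
  obtain ⟨t, t2, ht⟩ := exists_inv M S hb hA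
  have hc : (zpowers b).subgroupOf (centralizer ((zpowers b : Subgroup G) : Set G)) ≤ center _ := fun x hx =>
    Subgroup.mem_center_iff.2 fun y => Subtype.ext (mem_cent_subgroup_iff.1 y.2 _ hx)
  haveI : ((zpowers b).subgroupOf (centralizer ((zpowers b : Subgroup G) : Set G))).Normal :=
    ⟨fun x hx y => by rwa [Subgroup.mem_center_iff.1 (hc hx) y, mul_inv_cancel_right]⟩
  haveI := hS
  have ml : ∀ x, Commute x b → x * x = 1 → x ∈ (layer ↥(centralizer ((zpowers b : Subgroup G) : Set G))).map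
      (centralizer ((zpowers b : Subgroup G) : Set G)).subtype := fun x h1 h2 =>
    ⟨⟨x, mem_cent_zpowers.2 h1⟩, mem_layer hc (by
      rw [Nat.card_congr (subgroupOfEquivOfLe S.ab).toEquiv]; exact S.odd) (fun h => by
        obtain ⟨u, -, v, -, e⟩ := S.es'.exists_pair
        exact e (h.is_comm.comm u v)) (Subtype.ext h2), rfl⟩
  refine ⟨relIndex_six M S hb hA, t, orderOf_two_of t2 fun e => ?_, ht, fun x hx => conj_mem_of_mem_norm
    ((charIn_map_subtype _).norm_le (mem_normalizer_of_conj fun y hy => mem_cent_zpowers.2 ?_)) hx, ?_⟩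
  · have := ht b (mem_zpowers b)
    rw [e, one_mul, inv_one, mul_one, eq_inv_iff_mul_eq_one, ← pow_two] at this
    exact absurd (hb ▸ orderOf_dvd_of_pow_eq_one this) (by norm_num)
  · rw [← Commute.inv_right_iff, ← ht b (mem_zpowers b)]
    exact (mem_cent_zpowers.1 hy).map (MulAut.conj t)
  rintro ⟨_, ⟨l, -, rfl⟩, h⟩
  have key : ∀ x, Commute x b → x * x = 1 → Commute ((l : G)⁻¹ * t) x := fun x h1 h2 => conj_eq_iff_commute.1 (by
    rw [show (l : G)⁻¹ * t * x * ((l : G)⁻¹ * t)⁻¹ = (l : G)⁻¹ * (t * x * t⁻¹) * l by group, h x (ml x h1 h2)]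
    simp [mul_assoc])
  obtain ⟨θ, -, -, hθ⟩ := M.exists_perm_hom h8
  have hm : ∀ {d : G}, Commute d s → Commute d z → d ∈ centralizer ({z, s} : Set G) := fun h1 h2 => by
    rw [cent_pair]; exact ⟨mem_cent_iff.2 h1, mem_cent_iff.2 h2⟩
  let u : centralizer ({z, s} : Set G) := ⟨_, hm (key s hbs.symm ((M.sq_iff h8).2 (by rw [sqNorm_e8]; norm_num)))
    (key z hA.comm.symm M.le.z_sq)⟩
  let b' : centralizer ({z, s} : Set G) := ⟨b, hm hbs hA.comm⟩
  have e : u * b' * u⁻¹ = b'⁻¹ := Subtype.ext (by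
    show (l : G)⁻¹ * t * b * ((l : G)⁻¹ * t)⁻¹ = b⁻¹
    rw [show (l : G)⁻¹ * t * b * ((l : G)⁻¹ * t)⁻¹ = (l : G)⁻¹ * (t * b * t⁻¹) * l by group, ht b (mem_zpowers b),
      (mem_cent_zpowers.1 l.2).inv_inv.eq, inv_mul_cancel_right])
  have := congrArg (fun y => (θ y).1) e
  simp only [map_mul, map_inv, hθ b' ⟨_, r7A_in.perm_mem⟩ hA] at this
  exact not_real (θ u).2 this

end CA.M24.HeM

theorem CA.M24.realizeEqnsHeMon2 : True := by
  have := @CA.M24.HeM.wl.eq_1
  have := @CA.M24.HeM.wl.eq_def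
  have := @CA.M24.HeM.wl.congr_simp
  have := @CA.M24.HeM.wi.eq_1
  have := @CA.M24.HeM.wi.eq_def
  have := @CA.M24.HeM.wi.congr_simp
  trivial
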