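import Cfsg.Agent.M24.Held
import Cfsg.Agent.Loc.Abs

/-! The automizer of a subgroup of order seven in a group of Monster type. -/

set_option autoImplicit false
set_option maxRecDepth 100000

namespace CA.M24.Sv

open Cfsg Subgroup Equiv CA.Fi CA.FG.Comp
open scoped commutatorElement

noncomputable section

theorem wordC_append (l l' : Word) : wordC (l ++ l') = wordC l' * wordC l := by
  induction l with
  | nil => exact (mul_one _).symm
  | cons r l ih =>
    show wordC (l ++ l') * _ = wordC l' * (wordC l * _)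
    rw [ih, mul_assoc]

def eqChk (l l' : Word) : Bool :=
  allR (fun p => wordGo l (fun A => wordGo l' (fun B => Nat.beq A B) (e8N p)) (e8N p)) 24

theorem eqChk_spec {l l' : Word} (hl : wordOk l = true) (hl' : wordOk l' = true) (h : eqChk l l' = true) :
    wordC l = wordC l' := by
  refine ext_e8 fun p => ?_
  have h1 := allR_eq_true.1 h _ (idx_lt p)
  obtain ⟨A, e1, h2⟩ := wordGo_spec hl h1 (vN_e8N _ ▸ e8_mem _)
  obtain ⟨B, e2, h3⟩ := wordGo_spec hl' h2 (vN_e8N _ ▸ e8_mem _)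
  rw [vN_e8N] at e1 e2
  rw [e1, e2, beq_iff.1 h3]

def lm : Word := [(nat_lit 431912962322050696467591862061048947, nat_lit 11575377, true),
  (nat_lit 789473883912758534871795345756955301, nat_lit 12406638, true)]

def lk : Word := [(nat_lit 337022026812430007537615142484946958, nat_lit 10646246, true),
  (nat_lit 710951009832215311697763767282281520, nat_lit 3403629, true),
  (nat_lit 211612178149910335472118193522268706, nat_lit 11842851, false)]

theorem lk_eq : wordC lk = (wordC lm)⁻¹ * eps (unmask (nat_lit 249487)) * (wordC lm)⁻¹⁻¹ := by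
  rw [inv_inv, mul_assoc, eq_inv_mul_iff_mul_eq, ← wordC_eps, ← wordC_append, ← wordC_append]
  exact eqChk_spec (by decide +kernel) (by decide +kernel) (by decide +kernel)

theorem lk_conj : wordC lk * pC (perm r7A) * (wordC lk)⁻¹ = (pC (perm r7A))⁻¹ := by
  rw [mul_inv_eq_iff_eq_mul, ← pC_inv r7A_in.perm_mem]
  exact comChk_spec r7A_in.perm_mem (inv_mem r7A_in.perm_mem) (by decide +kernel)
    (by rw [← pinv_code, r7A_in.code_perm]; decide +kernel)

theorem pC_pow {π : Perm Pt} (hπ : π ∈ M24) (n : ℕ) : pC (π ^ n) = pC π ^ n :=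
  map_pow pHom ⟨π, hπ⟩ n

theorem r7A_pow : perm r7A ^ 7 = 1 := Held.order ▸ pow_orderOf_eq_one _

theorem x0_pow : pC (perm r7A) ^ 7 = 1 := by rw [← pC_pow r7A_in.perm_mem, r7A_pow, pC_one]

theorem r7B_eq' : perm r7B = perm r7A ^ 3 :=
  code_inj (by rw [← ppow_code, r7B_in.code_perm, r7A_in.code_perm]; decide +kernel)

theorem not_real {σ : Perm Pt} (hσ : σ ∈ M24) : σ * perm r7A * σ⁻¹ ≠ (perm r7A)⁻¹ := by
  intro e
  obtain ⟨ν, hν, e1⟩ := inM_of_chk (show chk (nat_lit 152213526779692371220323802689340576) = true by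
    decide +kernel)
  have e2 : ν * perm r7A = perm r7A ^ 4 * ν := code_inj (by
    rw [← pmul_code, ← pmul_code, ← ppow_code, e1, r7A_in.code_perm]; decide +kernel)
  refine not_conj_seven (mul_mem hσ hν) ?_
  have e3 : σ * perm r7A ^ 4 = perm r7A ^ 3 * σ := by
    rw [← mul_inv_eq_iff_eq_mul, ← conj_pow, e, inv_pow, inv_eq_iff_mul_eq_one, ← pow_add, r7A_pow]
  rw [mul_assoc, e2, ← mul_assoc, e3, r7B_eq', mul_assoc]

universe u

variable {G : Type u} [Group G]

theorem mem_layer {C : Type u} [Group C] (N : Subgroup C) [N.Normal] (hN : N ≤ center C)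
    [IsSimpleGroup (C ⧸ N)] (hn : ¬ IsMulCommutative (C ⧸ N)) {x : C} (hx : x * x = 1)
    (ho : ∀ b ∈ N, b ^ 7 = 1) : x ∈ layer C := by
  have hp := (qs_of_simple inferInstance hn).1
  have h1 : (_root_.commutator C).map (QuotientGroup.mk' N) = ⊤ := by
    rw [_root_.commutator, map_commutator, map_top_of_surjective _ (QuotientGroup.mk'_surjective N)]
    exact Group.isPerfect_def.1 hp
  have h2 : ∀ c : C, ∃ k ∈ _root_.commutator C, ∃ b ∈ N, c = k * b := fun c => by
    obtain ⟨k, hk, e⟩ : QuotientGroup.mk' N c ∈ (_root_.commutator C).map (QuotientGroup.mk' N) := h1 ▸ mem_top _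
    exact ⟨k, hk, k⁻¹ * c, QuotientGroup.eq.1 e, by group⟩
  have h3 : ⁅_root_.commutator C, _root_.commutator C⁆ = _root_.commutator C := by
    refine le_antisymm (commutator_mono le_top le_top) (commutator_le.2 fun a _ b _ => ?_)
    obtain ⟨k, hk, c, hc, rfl⟩ := h2 a
    obtain ⟨l, hl, d, hd, rfl⟩ := h2 b
    have c1 := Subgroup.mem_center_iff.1 (hN hc)
    have c2 := Subgroup.mem_center_iff.1 (hN hd)
    have : ⁅k * c, l * d⁆ = ⁅k, l⁆ := by
      rw [commutatorElement_def, commutatorElement_def, mul_inv_rev, mul_inv_rev, mul_assoc k c, ← c1,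
        mul_assoc k, mul_assoc (l * d), mul_inv_cancel_left, ← mul_assoc k, ← mul_assoc k, mul_assoc (k * l),
        ← c2, mul_assoc (k * l), mul_assoc k⁻¹, mul_inv_cancel_left, mul_assoc (k * l)]
    rw [this]
    exact commutator_mem_commutator hk hl
  have h4 : IsQuasisimple (_root_.commutator C) := by
    have hp' : Group.IsPerfect (_root_.commutator C) := Subgroup.isPerfect_iff.2 h3
    let f := (QuotientGroup.mk' N).comp (_root_.commutator C).subtype
    have hf : Function.Surjective f := fun y => by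
      obtain ⟨k, hk, e⟩ : y ∈ (_root_.commutator C).map (QuotientGroup.mk' N) := h1 ▸ mem_top _
      exact ⟨⟨k, hk⟩, e⟩
    refine qs_of_normal hp' hf.nontrivial fun K hK => ?_
    have hk : f.ker ≤ center _ := fun a ha => Subgroup.mem_center_iff.2 fun b =>
      Subtype.ext (Subgroup.mem_center_iff.1 (hN ((QuotientGroup.eq_one_iff _).1 ha)) b)
    rcases (hK.map f hf).eq_bot_or_eq_top with e | e
    · exact Or.inl (((Subgroup.map_eq_bot_iff _).1 e).trans hk)
    · refine Or.inr (eq_top_of_sup_center_eq_top (eq_top_iff.2 ?_))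
      rw [← comap_top f, ← e, comap_map_eq]
      exact sup_le_sup_left hk _
  obtain ⟨k, hk, b, hb, rfl⟩ := h2 x
  have h5 : (k * b) ^ 7 = k ^ 7 := by
    rw [(show Commute k b from Subgroup.mem_center_iff.1 (hN hb) k).mul_pow, ho b hb, mul_one]
  have h6 : (k * b) ^ 7 = k * b := by
    rw [show 7 = 2 * 3 + 1 from rfl, pow_succ, pow_mul, pow_two, hx, one_pow, one_mul]
  rw [← h6, h5]
  exact le_layer (component_of_normal inferInstance h4) (pow_mem hk 7)

variable [Finite G] {z : G} {Q : Subgroup (centralizer ({z} : Set G))} [Q.Normal]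
  {φ : Co0 →* centralizer ({z} : Set G) ⧸ Q} {L : G → Vec → Prop} {s b : G}

theorem lift_norm (M : MS z Q φ L) {x : Co0} (hA : AA φ b x) (hb : orderOf b = 7) {y : G} (hy : orderOf y = 7)
    {j : ℕ} (h : AA φ y (x ^ j)) : ∃ q ∈ amb Q, q⁻¹ * y * q = b ^ j := by
  haveI := M.le.isPGroup.isNilpotent
  have h1 : y * (b ^ j)⁻¹ ∈ amb Q := (M.AA_iff (h.mul (hA.pow j).inv)).2 (Or.inl (mul_inv_cancel _))
  obtain ⟨q, hq, e⟩ := CA.FG.SchurZassenhaus_trans_sol (H := amb Q) (K := zpowers b) (K₁ := zpowers y)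
    inferInstance (zpowers_le.2 (M.le.mem_normalizer hA.comm))
    (zpowers_le.2 (by simpa using mul_mem_sup h1 (npow_mem_zpowers b j)))
    (by rw [M.card, Nat.card_zpowers, hb]; norm_num) (by rw [Nat.card_zpowers, Nat.card_zpowers, hb, hy])
  refine ⟨q, hq, mul_inv_eq_one.1 (eq_one_of_odd_of_two (K := zpowers b)
    (by rw [Nat.card_zpowers, hb]; decide) M.le.isPGroup
    (mul_mem (CA.FG.mem_conjg.1 (e ▸ mem_zpowers y)) (inv_mem (npow_mem_zpowers b j))) ?_)⟩
  refine (M.AA_iff ((((AA_of_mem (inv_mem hq)).mul h).mul (AA_of_mem hq)).mul (hA.pow j).inv)).2 (Or.inl ?_)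
  group

theorem index_six (M : MS z Q φ L) (hA : AA φ b (pC (perm r7A))) (hb : orderOf b = 7) :
    (centralizer ((zpowers b : Subgroup G) : Set G)).relIndex (normalizer ((zpowers b : Subgroup G) : Set G)) = 6 := by
  classical
  obtain ⟨a, ha⟩ := exists_AA φ (wordC Held.gw)
  have h1 := (ha.mul hA).mul ha.inv
  rw [Held.gw_conj, mul_inv_cancel_right, r7B_eq', pC_pow r7A_in.perm_mem] at h1
  obtain ⟨q, -, e⟩ := lift_norm M hA hb (by rw [CA.FG.orderOf_conj, hb]) h1
  have e1 : q⁻¹ * a * b * (q⁻¹ * a)⁻¹ = b ^ 3 := by rw [← e]; group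
  generalize q⁻¹ * a = n at e1
  have hn : n ∈ normalizer ((zpowers b : Subgroup G) : Set G) := mem_normalizer_of_conj (by
    rintro _ ⟨k, rfl⟩
    rw [← conj_zpow, e1]
    exact zpow_mem (npow_mem_zpowers b 3) k)
  have e2 : ∀ m : ℕ, n ^ m * b * (n ^ m)⁻¹ = b ^ 3 ^ m := fun m => by
    induction m with
    | zero => group
    | succ m ih =>
      rw [pow_succ' 3, pow_mul, ← e1, conj_pow, ← ih, pow_succ']
      group
  have hb1 : b ≠ 1 := fun e => by rw [e, orderOf_one] at hb; omega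
  rw [CA.Loc.cent_zpowers, CA.Loc.relIndex_cent]
  have h2 : {y | ∃ c ∈ normalizer ((zpowers b : Subgroup G) : Set G), c * b * c⁻¹ = y} =
      ((zpowers b : Subgroup G) : Set G) \ {1} := by
    ext y
    constructor
    · rintro ⟨c, hc, rfl⟩
      exact ⟨(mem_normalizer_iff.1 hc b).1 (mem_zpowers b), fun e => hb1 (conj_eq_one_iff.1 e)⟩
    · rintro ⟨hy, h0⟩
      obtain ⟨i, hi, rfl⟩ := Finset.mem_image.1 (mem_zpowers_iff_mem_range_orderOf.1 hy)
      rw [hb, Finset.mem_range] at hi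
      obtain ⟨m, -, hm⟩ : ∃ m < 6, 3 ^ m % 7 = i := by
        have : i ≠ 0 := by rintro rfl; exact h0 (pow_zero b)
        interval_cases i <;> first | exact absurd rfl this | decide
      exact ⟨n ^ m, pow_mem hn m, by rw [e2, ← hm, ← hb, pow_mod_orderOf]⟩
  rw [h2, Set.ncard_diff_singleton_of_mem (one_mem _), ← Nat.card_coe_set_eq]
  exact congrArg (· - 1) ((Nat.card_zpowers b).trans hb)

theorem exists_r (M : MS z Q φ L) (h8 : L s (e8 none)) :
    ∃ r, r * r = 1 ∧ AA φ r (eps (unmask (nat_lit 249487))) := by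
  obtain ⟨h1, h2⟩ := (M.isConj_iff (M.memQ h8)).2 ⟨_, h8, sqNorm_e8 _⟩
  obtain ⟨g, rfl⟩ := _root_.isConj_iff.1 h1
  have P := M.pair (M.memQ h8) h2
  have hc := (unmask_mem_Cs (show isC (nat_lit 249487) = true by decide +kernel)).1
  obtain ⟨r, hr, H⟩ := M.exists_eps P h8 hc
  rcases P.right.sq hr with e | e
  · exact ⟨r, e, H⟩
  obtain ⟨t, ht, hL⟩ := M.exists_inf P h8 (unmask_mem_Cs (show isC (nat_lit 8077824) = true by decide +kernel)).1
    (unmask_mem_Cs (show isC (nat_lit 4038912) = true by decide +kernel)).1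
  have hn : ¬ Commute r t := fun hc' => by
    have h3 := (M.cong_of_commute hL H hc').dot (odd_mem none)
    rw [act_eps hc (M.memL hL)] at h3
    revert h3
    decide +kernel
  refine ⟨r * t, ?_, by simpa using H.mul (AA_of_mem ht.1)⟩
  rw [mul_assoc, ← mul_assoc t, P.right.not_commute ht.2 hr fun e => hn e.symm, mul_assoc (r * t),
    (P.right.z_comm t ht.2).eq, mul_assoc r t, ← mul_assoc t t, P.E_sq ht, one_mul, ← mul_assoc, e, P.right.z_sq]

theorem exists_t (M : MS z Q φ L) (h8 : L s (e8 none)) (hA : AA φ b (pC (perm r7A))) (hb : orderOf b = 7) :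
    ∃ t, t * t = 1 ∧ t * b * t⁻¹ = b⁻¹ := by
  obtain ⟨r, hr, H⟩ := exists_r M h8
  obtain ⟨a, ha⟩ := exists_AA φ (wordC lm)⁻¹
  have h1 := (ha.mul H).mul ha.inv
  rw [← lk_eq] at h1
  have h2 : a * r * a⁻¹ * (a * r * a⁻¹) = 1 := by rw [conj_sq, hr, mul_one, mul_inv_cancel]
  generalize a * r * a⁻¹ = τ at h1 h2
  have h3 := ((h1.mul hA).mul h1.inv).mul hA.inv
  rw [lk_conj] at h3
  have h4 : τ * (τ * b * τ⁻¹ * b⁻¹) * τ⁻¹ = (τ * b * τ⁻¹ * b⁻¹)⁻¹ := by
    rw [inv_eq_self_of_sq h2, mul_inv_rev, mul_inv_rev, mul_inv_rev, inv_eq_self_of_sq h2, inv_inv]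
    simp only [← mul_assoc, h2, one_mul]
  generalize τ * b * τ⁻¹ * b⁻¹ = w at h3 h4
  have h5 := h3.pow 4
  have e1 : ((pC (perm r7A))⁻¹ * (pC (perm r7A))⁻¹) ^ 4 = pC (perm r7A) ^ 6 := by
    rw [← mul_inv_rev, inv_pow, inv_eq_iff_mul_eq_one, ← pow_two, ← pow_mul, ← pow_add,
      show 2 * 4 + 6 = 7 * 2 from rfl, pow_mul, x0_pow, one_pow]
  rw [e1] at h5
  have h6 : (w ^ 4) ^ 7 = 1 := by
    rw [← pow_mul, mul_comm, pow_mul]
    refine M.le.pow_four ((M.AA_iff (h3.pow 7)).2 (Or.inl ?_))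
    rw [← mul_inv_rev, inv_pow, (Commute.refl _).mul_pow, x0_pow, mul_one, inv_one]
  have h7 : w ^ 4 ≠ 1 := fun e => by
    have h8 := (M.AA_iff (hA.pow 6)).2 ((M.AA_iff h5).1 (e ▸ one_mem _))
    have := eq_one_of_odd_of_two (K := zpowers b) (by rw [Nat.card_zpowers, hb]; decide) M.le.isPGroup
      (npow_mem_zpowers b 6) h8
    exact absurd (hb ▸ orderOf_dvd_of_pow_eq_one this) (by decide)
  haveI := Fact.mk Nat.prime_seven
  obtain ⟨q, -, e⟩ := lift_norm M hA hb (orderOf_eq_prime h6 h7) h5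
  have e2 : b ^ 6 = b⁻¹ := by
    rw [eq_inv_iff_mul_eq_one, ← pow_succ]
    exact orderOf_dvd_iff_pow_eq_one.1 (hb ▸ dvd_rfl)
  have e3 : τ * w ^ 4 * τ⁻¹ = (w ^ 4)⁻¹ := by rw [← conj_pow, h4, inv_pow]
  refine ⟨q⁻¹ * τ * q⁻¹⁻¹, by rw [conj_sq, h2, mul_one, mul_inv_cancel], ?_⟩
  rw [← inv_inj, inv_inv, ← inv_inv b, ← e2, ← e]
  calc _ = q⁻¹ * (τ * w ^ 4 * τ⁻¹) * q := by group
    _ = _ := by rw [e3]; group

theorem not_inner (M : MS z Q φ L) (h8 : L s (e8 none)) (hA : AA φ b (pC (perm r7A))) (hbs : Commute b s) {u : G}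
    (hz : Commute u z) (hs : Commute u s) : u * b * u⁻¹ ≠ b⁻¹ := by
  intro e
  obtain ⟨θ, -, -, hθ⟩ := M.exists_perm_hom h8
  have hm : ∀ {d : G}, Commute d s → Commute d z → d ∈ centralizer ({z, s} : Set G) := fun h1 h2 => by
    rw [cent_pair]
    exact ⟨mem_cent_iff.2 h1, mem_cent_iff.2 h2⟩
  have e1 := hθ ⟨b, hm hbs hA.comm⟩ ⟨_, r7A_in.perm_mem⟩ hA
  have e2 : (⟨u, hm hs hz⟩ * ⟨b, hm hbs hA.comm⟩ * ⟨u, hm hs hz⟩⁻¹ : centralizer ({z, s} : Set G)) =
    ⟨b, hm hbs hA.comm⟩⁻¹ := Subtype.ext e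
  have e3 := congrArg θ e2
  rw [map_mul, map_mul, map_inv, map_inv, e1] at e3
  exact not_real (θ ⟨u, hm hs hz⟩).2 (congrArg Subtype.val e3)

theorem main (M : MS z Q φ L) (h8 : L s (e8 none)) (hA : AA φ b (pC (perm r7A))) (hb : orderOf b = 7)
    (hbs : Commute b s) {B : Subgroup G} (hB : B = zpowers b) [(B.subgroupOf (centralizer (B : Set G))).Normal]
    [IsSimpleGroup (centralizer (B : Set G) ⧸ B.subgroupOf (centralizer (B : Set G)))]
    (hn : ¬ IsMulCommutative (centralizer (B : Set G) ⧸ B.subgroupOf (centralizer (B : Set G)))) :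
    (centralizer (B : Set G)).relIndex (normalizer (B : Set G)) = 6 ∧ ∃ t : G, orderOf t = 2 ∧
      (∀ b ∈ B, t * b * t⁻¹ = b⁻¹) ∧ (∀ x ∈ (layer (centralizer (B : Set G))).map (centralizer (B : Set G)).subtype,
        t * x * t⁻¹ ∈ (layer (centralizer (B : Set G))).map (centralizer (B : Set G)).subtype) ∧
      ¬ ∃ l ∈ (layer (centralizer (B : Set G))).map (centralizer (B : Set G)).subtype,
        ∀ x ∈ (layer (centralizer (B : Set G))).map (centralizer (B : Set G)).subtype,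
          t * x * t⁻¹ = l * x * l⁻¹ := by
  subst hB
  obtain ⟨t, ht, e⟩ := exists_t M h8 hA hb
  have h1 : ∀ y ∈ zpowers b, t * y * t⁻¹ = y⁻¹ := by
    rintro _ ⟨k, rfl⟩
    rw [← conj_zpow, e, inv_zpow]
  have h2 : ∀ x, x * x = 1 → Commute x b → x ∈ (layer (centralizer ((zpowers b : Subgroup G) : Set G))).map
      (centralizer ((zpowers b : Subgroup G) : Set G)).subtype := fun x hx hc =>
    ⟨⟨x, mem_cent_zpowers.2 hc⟩, mem_layer ((zpowers b).subgroupOf _)
      (fun a ha => Subgroup.mem_center_iff.2 fun c => Subtype.ext (Sec.comm_B c (mem_subgroupOf.1 ha)).eq) hn (Subtype.ext hx) (fun a ha =>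
        Subtype.ext (orderOf_dvd_iff_pow_eq_one.1 (hb ▸ orderOf_dvd_of_mem_zpowers ha))), rfl⟩
  refine ⟨index_six M hA hb, t, orderOf_two_of ht fun e1 => ?_, h1, fun x hx => ?_, ?_⟩
  · rw [e1, one_mul, inv_one, mul_one, eq_inv_iff_mul_eq_one, ← pow_two] at e
    exact absurd (hb ▸ orderOf_dvd_of_pow_eq_one e) (by decide)
  · refine (mem_normalizer_iff.1 (normalizer_le_normalizer_map_subtype _ (mem_normalizer_of_conj fun c hc => ?_)) x).1 hx
    rw [inv_eq_self_of_sq ht] at e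
    rw [mem_cent_zpowers, commute_conj_left_iff, inv_eq_self_of_sq ht, e]
    exact (mem_cent_zpowers.1 hc).inv_right
  · rintro ⟨l, ⟨l', -, rfl⟩, h⟩
    have key : ∀ x, x * x = 1 → Commute x b → Commute ((l' : G)⁻¹ * t) x := fun x hx hc => by
      rw [← conj_eq_iff_commute]
      calc _ = (l' : G)⁻¹ * (t * x * t⁻¹) * l' := by group
        _ = x := by rw [h x (h2 x hx hc)]; simp only [coe_subtype]; group
    refine not_inner M h8 hA hbs (key z M.le.z_sq hA.comm.symm)
      (key s ((M.sq_iff h8).2 (by rw [sqNorm_e8]; decide)) hbs.symm) ?_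
    calc _ = (l' : G)⁻¹ * (t * b * t⁻¹) * (l' : G)⁻¹⁻¹ := by group
      _ = _ := by rw [e]; exact conj_eq_iff_commute.2 (mem_cent_zpowers.1 l'.2).inv_inv

end

theorem realizeEqns_He_Sv : True := by
  have := @CA.M24.Sv.lm.eq_1
  have := @CA.M24.Sv.lm.eq_def
  have := @CA.M24.Sv.lm.congr_simp
  have := @CA.M24.Sv.lk.eq_1
  have := @CA.M24.Sv.lk.eq_def
  have := @CA.M24.Sv.lk.congr_simp
  have := @CA.M24.Sv.eqChk.eq_1
  have := @CA.M24.Sv.eqChk.eq_def
  have := @CA.M24.Sv.eqChk.congr_simp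
  trivial

end CA.M24.Sv
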