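/-
Transfer of the facts on two classes of involutions along quotients of odd kernel and subgroups.
-/
import Cfsg.Agent.He.TP2

set_option autoImplicit false

namespace CA.PM.He

open CA.Fi CA.FG Subgroup Cfsg

section
variable {H Y : Type*} [Group H] [Group Y] {π : H →* Y}

theorem ok_odd (ho : Odd (Nat.card π.ker)) {x : H} (hx : π x = 1) : Odd (orderOf x) :=
  ho.of_dvd_nat (Subgroup.orderOf_dvd_natCard _ hx)

theorem ok_conj (ho : Odd (Nat.card π.ker)) {x y : H} (x2 : x * x = 1) (y2 : y * y = 1) (e : π x = π y) :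
    ∃ k, π k = 1 ∧ k * x * k⁻¹ = y ∧ ∀ s, Commute x s → Commute y s → Commute k s := by
  have h1 : π (y * x) = 1 := by rw [map_mul, ← e, ← map_mul, x2, map_one]
  obtain ⟨k, hk⟩ := dih_conj_of_odd y2 x2 (ok_odd ho h1) (pow_orderOf_eq_one _)
  exact ⟨_, by rw [map_inv, map_pow, h1, one_pow, inv_one], hk,
    fun s a b => ((b.mul_left a).pow_left k).inv_left⟩

theorem ok_isConj (ho : Odd (Nat.card π.ker)) (su : Function.Surjective π) {x y : H} (x2 : x * x = 1)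
    (y2 : y * y = 1) {g : Y} (e : g * π x * g⁻¹ = π y) : ∃ k, π k = g ∧ k * x * k⁻¹ = y := by
  obtain ⟨g, rfl⟩ := su g
  obtain ⟨k, k1, k2, -⟩ := ok_conj ho (x := g * x * g⁻¹) (by rw [conj_mul, x2]; simp) y2 (by simpa using e)
  exact ⟨k * g, by rw [map_mul, k1, one_mul], by rw [← k2]; group⟩

theorem ok_cent (ho : Odd (Nat.card π.ker)) (su : Function.Surjective π) {t : H} (t2 : t * t = 1) {g : Y}
    (e : Commute g (π t)) : ∃ k, π k = g ∧ Commute k t := by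
  obtain ⟨k, k1, k2⟩ := ok_isConj ho su t2 t2 (conj_eq_iff_commute.2 e)
  exact ⟨k, k1, conj_eq_iff_commute.1 k2⟩

theorem ok_inv (ho : Odd (Nat.card π.ker)) {g : H} (e : π g * π g = 1) :
    ∃ m : ℕ, g ^ m * g ^ m = 1 ∧ π (g ^ m) = π g := by
  obtain ⟨j, hj⟩ := ok_odd ho (x := g * g) (by rw [map_mul, e])
  refine ⟨2 * j + 1, by rw [← Commute.mul_pow (Commute.refl g), ← hj, pow_orderOf_eq_one], ?_⟩
  rw [map_pow, pow_succ, pow_mul, pow_two, e, one_pow, one_mul]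

theorem ok_comm (ho : Odd (Nat.card π.ker)) {x y : H} (x2 : x * x = 1) (y2 : y * y = 1)
    (e : Commute (π x) (π y)) : ∃ k, Commute (k * x * k⁻¹) y ∧ π (k * x * k⁻¹) = π x ∧
      ∀ s, Commute x s → Commute y s → Commute k s := by
  obtain ⟨j, hj⟩ := ok_odd ho (x := y * x * (y * x)) (by
    rw [map_mul, map_mul, ← pow_two, e.symm.mul_pow, pow_two, pow_two, ← map_mul, ← map_mul, x2, y2]; simp)
  have c := dih_commute y2 x2 (k := 2 * j + 1)
    (by rw [← Commute.mul_pow (Commute.refl _), ← hj, pow_orderOf_eq_one])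
  refine ⟨((y * x) ^ j)⁻¹, by rw [dih_odd y2 x2]; exact (Commute.refl y).mul_left c.1.symm, ?_,
    fun s a b => ((b.mul_left a).pow_left j).inv_left⟩
  rw [map_mul, map_mul, map_inv π _⁻¹]
  refine conj_eq_iff_commute.2 ?_
  rw [map_inv, map_pow, map_mul]
  exact ((e.symm.mul_left (Commute.refl _)).pow_left j).inv_left

theorem PY.pull (ho : Odd (Nat.card π.ker)) (su : Function.Surjective π) {z t y : H} (z2 : z * z = 1)
    (t2 : t * t = 1) (zt : Commute z t) (y2 : y * y = 1) (yt : Commute y t) (h : PY ⊤ (π z) (π t) (π y)) :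
    PY ⊤ z t y := by
  have a : ∀ l ∈ ⊤ ⊓ centralizer {π t}, Commute (l * π z * l⁻¹) (π y) → ∃ k ∈ ⊤ ⊓ centralizer {t},
      Commute (k * z * k⁻¹) y ∧ π (k * z * k⁻¹) = l * π z * l⁻¹ := fun l hl c => by
    obtain ⟨l, rfl, lt⟩ := ok_cent ho su t2 (mem_cent_iff.1 hl.2)
    obtain ⟨k, k1, k2, k3⟩ := ok_comm ho (x := l * z * l⁻¹) (by rw [conj_mul, z2]; simp) y2 (by simpa using c)
    refine ⟨k * l, ⟨trivial, mem_cent_iff.2 ((k3 t ((lt.mul_left zt).mul_left lt.inv_left) yt).mul_left lt)⟩, ?_⟩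
    rw [show k * l * z * (k * l)⁻¹ = k * (l * z * l⁻¹) * k⁻¹ by group]
    exact ⟨k1, k2.trans (by simp)⟩
  obtain ⟨l1, m1, l2, m2, c1, c2, k⟩ := h
  obtain ⟨k1, n1, d1, e1⟩ := a l1 m1 c1
  obtain ⟨k2, n2, d2, e2⟩ := a l2 m2 c2
  refine ⟨k1, n1, k2, n2, d1, d2, fun g hg h1 h2 => k (π g) ⟨trivial, mem_cent_iff.2 ((mem_cent_iff.1 hg.2).map π)⟩
    (h1.imp (fun e => by simpa using congrArg π e) fun e => by simpa using congrArg π e) ?_⟩
  rw [← e1, ← e2, ← h2]; simp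

theorem TT'.pull [Finite H] (ho : Odd (Nat.card π.ker)) (su : Function.Surjective π) {z t : H} (z2 : z * z = 1)
    (t2 : t * t = 1) (zt : Commute z t) (h : TT' ⊤ (π z) (π t)) : TT' ⊤ z t := by
  have cm : ∀ {l : H}, l ∈ ⊤ ⊓ centralizer {t} → π l ∈ ⊤ ⊓ centralizer {π t} := fun hl =>
    ⟨trivial, mem_cent_iff.2 ((mem_cent_iff.1 hl.2).map π)⟩
  have sq : ∀ l : H, l * z * l⁻¹ * (l * z * l⁻¹) = 1 := fun l => by rw [conj_mul, z2]; simp
  have ic : ∀ x : H, x * x = 1 → IsConj (π z) (π x) → IsConj z x := fun x x2 i => by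
    obtain ⟨g, e⟩ := isConj_iff.1 i
    obtain ⟨k, -, e⟩ := ok_isConj ho su z2 x2 e
    exact isConj_iff.2 ⟨k, e⟩
  have m2 : ∀ a b : H, Commute a b → a * a = 1 → b * b = 1 → a * b * (a * b) = 1 := fun a b c a2 b2 => by
    rw [← pow_two, c.mul_pow, pow_two, pow_two, a2, b2, one_mul]
  refine ⟨z2, t2, fun e => h.z1 (by rw [e, map_one]), zt, trivial, fun _ _ => trivial, fun i => h.nc (π.map_isConj i),
    fun i => h.nzt (by simpa using π.map_isConj i), fun u _ u2 => ?_, fun l hl c => ?_, h.nt.imp (fun n => ?_) ?_⟩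
  · rcases h.inv (π u) trivial (by rw [← map_mul, u2, map_one]) with e | ⟨g, -, e⟩ | ⟨g, -, e⟩
    · obtain ⟨k, -, e, -⟩ := ok_conj ho (one_mul 1) u2 (by rw [e, map_one])
      exact Or.inl (by simpa using e.symm)
    · obtain ⟨k, -, e⟩ := ok_isConj ho su t2 u2 e
      exact Or.inr (Or.inl ⟨k, trivial, e⟩)
    · obtain ⟨k, -, e⟩ := ok_isConj ho su z2 u2 e
      exact Or.inr (Or.inr ⟨k, trivial, e⟩)
  · have lt := mem_cent_iff.1 hl.2
    have s1 := m2 _ _ c.symm z2 (sq l)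
    rcases h.cs (π l) (cm hl) (by simpa using c.map π) with e | e | e
    · obtain ⟨k, -, e, c'⟩ := ok_conj ho z2 (sq l) (by simpa using e.symm)
      exact Or.inl (e.symm.trans (conj_eq_iff_commute.2 (c' z (Commute.refl z) c)))
    · exact Or.inr (Or.inl (ic _ s1 (by simpa using e)))
    · exact Or.inr (Or.inr (ic _ (m2 _ _ (zt.mul_left ((lt.mul_left zt).mul_left lt.inv_left)) s1 t2)
        (by simpa using e)))
  · intro O O1 O2
    obtain ⟨l, l0, hl⟩ := n (O.map π) (by rintro _ ⟨x, hx, rfl⟩; exact cm (O1 hx)) (odd_map π O2)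
    obtain ⟨l, rfl, lt⟩ := ok_cent ho su t2 (mem_cent_iff.1 l0.2)
    exact ⟨l, ⟨trivial, mem_cent_iff.2 lt⟩, fun o o1 e => hl (π o) ⟨o, o1, rfl⟩ (by simpa using congrArg π e)⟩
  · rintro ⟨y, y0, y2, n, p, p'⟩
    obtain ⟨y, rfl, yt⟩ := ok_cent ho su t2 (mem_cent_iff.1 y0.2)
    obtain ⟨m, m1, m3⟩ := ok_inv ho y2
    have yt' := yt.pow_left m
    rw [← m3] at n p p'
    generalize y ^ m = y at *
    refine ⟨y, ⟨trivial, mem_cent_iff.2 yt'⟩, m1, fun l hl => ⟨fun e => (n _ (cm hl)).1 (by simpa using congrArg π e),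
      fun e => (n _ (cm hl)).2 (by simpa using congrArg π e)⟩, p.pull ho su z2 t2 zt m1 yt', fun l hl c => ?_⟩
    have lt := mem_cent_iff.1 hl.2
    exact PY.pull ho su z2 t2 zt (m2 _ _ c.symm m1 (sq l)) (yt'.mul_left ((lt.mul_left zt).mul_left lt.inv_left))
      (by simpa using p' _ (cm hl) (by simpa using c.map π))

end

variable {G : Type*} [Group G] {M : Subgroup G}

theorem PY.up {z t y : M} (h : PY ⊤ z t y) : PY M (z : G) t y := by
  obtain ⟨l1, m1, l2, m2, c1, c2, k⟩ := h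
  exact ⟨l1, ⟨l1.2, mem_cent_iff.2 ((mem_cent_iff.1 m1.2).map M.subtype)⟩, l2,
    ⟨l2.2, mem_cent_iff.2 ((mem_cent_iff.1 m2.2).map M.subtype)⟩, c1.map M.subtype, c2.map M.subtype,
    fun g hg h1 h2 => k ⟨g, hg.1⟩ ⟨trivial, mem_cent_iff.2 (Subtype.ext (mem_cent_iff.1 hg.2).eq)⟩
      (h1.imp Subtype.ext Subtype.ext) (Subtype.ext h2)⟩

theorem TT'.up {z t : M} (h : TT' ⊤ z t) (cz : ∀ c, Commute c (z : G) → c ∈ M) (nc : ¬ IsConj (z : G) t)
    (nzt : ¬ IsConj (z : G) (z * t)) : TT' M (z : G) t := by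
  have a : ∀ {l : G} (hl : l ∈ M ⊓ centralizer {(t : G)}), (⟨l, hl.1⟩ : M) ∈ ⊤ ⊓ centralizer {t} := fun hl =>
    ⟨trivial, mem_cent_iff.2 (Subtype.ext (mem_cent_iff.1 hl.2).eq)⟩
  have b : ∀ {l : M}, l ∈ ⊤ ⊓ centralizer {t} → (l : G) ∈ M ⊓ centralizer {(t : G)} := fun {l} hl =>
    ⟨l.2, mem_cent_iff.2 ((mem_cent_iff.1 hl.2).map M.subtype)⟩
  refine ⟨congrArg Subtype.val h.z2, congrArg Subtype.val h.t2, fun e => h.z1 (Subtype.ext e), h.zt.map M.subtype, t.2,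
    cz, nc, nzt, fun u hu u2 => ?_, fun l hl c => ?_, h.nt.imp (fun n O O1 O2 => ?_) ?_⟩
  · exact (h.inv ⟨u, hu⟩ trivial (Subtype.ext u2)).imp (congrArg Subtype.val) (Or.imp
      (fun ⟨g, _, e⟩ => ⟨g, g.2, congrArg Subtype.val e⟩) fun ⟨g, _, e⟩ => ⟨g, g.2, congrArg Subtype.val e⟩)
  · exact (h.cs _ (a hl) (Subtype.ext c.eq)).imp (congrArg Subtype.val)
      (Or.imp M.subtype.map_isConj M.subtype.map_isConj)
  · obtain ⟨l, l0, hl⟩ := n (O.subgroupOf M) (fun x hx => a (O1 hx))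
      (by rwa [card_subgroupOf (O1.trans inf_le_left)])
    exact ⟨l, b l0, fun o o1 e => hl ⟨o, (O1 o1).1⟩ o1 (Subtype.ext e)⟩
  · rintro ⟨y, y0, y2, n, p, p'⟩
    exact ⟨y, b y0, congrArg Subtype.val y2, fun l hl => ⟨fun e => (n _ (a hl)).1 (Subtype.ext e),
      fun e => (n _ (a hl)).2 (Subtype.ext e)⟩, p.up, fun l hl c => (p' _ (a hl) (Subtype.ext c.eq)).up⟩

end CA.PM.He
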