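/-
The facts on the two classes of involutions in the Held group.
-/
import Cfsg.Agent.He.TP3
import Cfsg.Agent.He.Top

set_option autoImplicit false

namespace CA.PM.He

open CA.Fi Subgroup

variable {G : Type*} [Group G] [Finite G]

theorem TT.tt' {G0 : Subgroup G} {z t : G} (h : TT G0 z t) : TT' G0 z t := by
  refine ⟨h.z2, h.t2, h.z1, h.zt, h.t0, h.cz, h.nc, fun i => h.nc (i.trans h.tzt.symm), h.inv, fun l hl c => ?_,
    Or.inl (NT1.of_index fun O O1 O2 O3 => ?_)⟩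
  · have lt := mem_cent_iff.1 hl.2
    have i : IsConj z (l * z * l⁻¹) := isConj_iff.2 ⟨l, rfl⟩
    rcases h.cs _ c ((lt.mul_left h.zt).mul_left lt.inv_left) (by rw [conj_mul, h.z2]; simp)
      with a | ⟨a, -, a'⟩ | ⟨-, ⟨-, a⟩ | ⟨k, -, a⟩⟩
    · exact absurd (by simpa using a) h.z1
    · exact absurd (i.trans (isConj_iff.2 ⟨a, a'⟩).symm) h.nc
    · exact a
    · exact absurd (i.trans (isConj_iff.2 ⟨k, a⟩)) (h.nz lt)
  set L := centralizer ({t} : Set G) with hL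
  have r : (centralizer {z}).relIndex (G0 ⊓ L) = 315 := by
    have := CA.FG.card_inf_mul_relIndex (centralizer {z}) (G0 ⊓ L)
    rw [inf_comm, h.c2, h.c1] at this
    omega
  have d : Nat.card O ∣ 161280 := h.c1 ▸ card_dvd_of_le O1
  obtain ⟨Y, Y1, Y2, Y3⟩ := no_odd O2 (p := 5) (q := 7) (by decide) (by decide) (by decide)
    ((by decide : 5 * 7 ∣ 315).trans (r ▸ O3)) (fun h => absurd (h.trans d) (by decide)) fun k h1 h2 => by
      rcases k with _ | _ | k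
      · rfl
      · exact absurd h2 (by decide)
      · exact absurd (((pow_dvd_pow 7 (by omega : 2 ≤ k + 1 + 1)).trans h1).trans d) (by decide)
  haveI : Fact (Nat.Prime 5) := ⟨by decide⟩
  haveI : Fact (Nat.Prime 7) := ⟨by decide⟩
  obtain ⟨⟨y, hy⟩, oy⟩ := exists_prime_orderOf_dvd_card' 7 Y3
  obtain ⟨⟨x, hx⟩, ox⟩ := exists_prime_orderOf_dvd_card' 5 (Y2 ▸ dvd_refl _ : 5 ∣ Nat.card Y)
  rw [← orderOf_coe] at oy ox
  have xy : Commute y x := by
    have a1 := CA.FG.relIndex_cent_dvd_pred (by decide) Y2 (zpowers_le.2 hy.2)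
    have a2 := relIndex_dvd_card (centralizer (Y : Set _)) (zpowers y)
    rw [Nat.card_zpowers, oy] at a2
    exact mem_cent_subgroup_iff.1 (relIndex_eq_one.1 (Nat.eq_one_of_dvd_coprimes (by decide) a1 a2)
      (mem_zpowers y)) x hx
  obtain ⟨x5, m5, o5, c5⟩ := h.c5
  obtain ⟨⟨g, hg⟩, e⟩ := CA.Loc.conj_of_card (G := (G0 ⊓ L : Subgroup G)) (p := 5) (k := 1) (by decide)
    (by rw [h.c1]; decide) (zpowers ⟨x, O1 (Y1 hx)⟩) (zpowers ⟨x5, m5⟩)
    (by rw [Nat.card_zpowers, ← orderOf_coe, ox]; rfl) (by rw [Nat.card_zpowers, ← orderOf_coe, o5]; rfl)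
  obtain ⟨_, ⟨i, rfl⟩, e'⟩ : _ ∈ _ := e.symm ▸ mem_zpowers _
  have e2 : g * x ^ i * g⁻¹ = x5 := congrArg Subtype.val e'
  have d7 : 7 ∣ Nat.card ((G0 ⊓ L) ⊓ centralizer {x5} : Subgroup G) := by
    refine Dvd.dvd.trans ?_ (Subgroup.orderOf_dvd_natCard _ (x := g * y * g⁻¹)
      ⟨(G0 ⊓ L).mul_mem (mul_mem hg (O1 hy.1)) (inv_mem hg),
        mem_cent_iff.2 (e2 ▸ commute_conj_iff.2 (xy.zpow_right i))⟩)
    rw [← orderOf_eq_of_isConj (isConj_iff.2 ⟨g, rfl⟩), oy]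
  have d5 := o5 ▸ Subgroup.orderOf_dvd_natCard ((G0 ⊓ L) ⊓ centralizer {x5}) ⟨m5, mem_cent_iff.2 (Commute.refl _)⟩
  exact absurd (Nat.le_of_dvd Nat.card_pos ((by decide : Nat.Coprime 5 7).mul_dvd_of_dvd_of_dvd d5 d7)) c5.not_ge

end CA.PM.He
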